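import Cfsg.Agent.NotMax.Basic
import Cfsg.Agent.GeoClasses.OrthMaxBase
import Cfsg.Agent.GeoClasses.OrthOddBase

/-!
Tools for non-maximality in orthogonal groups.
-/

set_option autoImplicit false
set_option linter.style.haveILetI false

namespace Cfsg.Agent.NotMax

open QuadraticMap Module Cfsg.Agent.Classical Cfsg.Agent.GeoClasses

section General

variable {F : Type*} [Field F] [Finite F] {V : Type*} [AddCommGroup V] [Module F V]
  [FiniteDimensional F V] {Q : QuadraticForm F V}

theorem siegel_mem_commutator (hB : BNondeg Q) (hn : 5 ≤ finrank F V) {u a : V} (hu : Q u = 0)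
    (ha : polar Q u a = 0) : siegel Q hu ha ∈ commutator (OQ Q) := by
  rw [commutator_eq_EQ hB hn]
  exact siegel_mem_EQ Q hu ha

theorem exists_singular_polar_ne (hB : BNondeg Q) (hn : 5 ≤ finrank F V) {v : V} (hv : v ≠ 0) :
    ∃ u, Q u = 0 ∧ polar Q u v ≠ 0 := by
  obtain ⟨e, f, -, -, ⟨he, hf, hef⟩, -⟩ := OrthGen.hasTwoPairs_of_five_le hB hn
  by_contra hno
  push Not at hno
  apply hv
  refine hB v fun w => ?_
  set w' := w - polar Q f w • e - polar Q e w • f
  have hve : polar Q v e = 0 := by rw [polar_comm]; exact hno e he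
  have hvf : polar Q v f = 0 := by rw [polar_comm]; exact hno f hf
  have hee : polar Q e e = 0 := by rw [OrthGen.polar_self_two, he, mul_zero]
  have hff : polar Q f f = 0 := by rw [OrthGen.polar_self_two, hf, mul_zero]
  have hew : polar Q e w' = 0 := by
    simp only [w', polar_sub_right, polar_smul_right, hee, hef, smul_eq_mul]; ring
  have hfw : polar Q f w' = 0 := by
    simp only [w', polar_sub_right, polar_smul_right, hff, polar_comm Q f e, hef, smul_eq_mul]; ring
  have hu : Q (e - Q w' • f + w') = 0 := by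
    rw [qf_add, qf_sub, QuadraticMap.map_smul, polar_sub_left, polar_smul_left, polar_smul_right, he, hf,
      hef, hew, hfw]
    simp only [smul_eq_mul]
    ring
  have := hno _ hu
  rw [polar_add_left, polar_sub_left, polar_smul_left, polar_comm Q e v, polar_comm Q f v, hve, hvf,
    smul_zero, sub_zero, zero_add, polar_comm] at this
  simp only [w', polar_sub_right, polar_smul_right, hve, hvf, smul_zero, sub_zero] at this
  exact this

/-- The commutator subgroup fixes no proper non-zero subspace. -/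
theorem exists_commutator_not_stab (hB : BNondeg Q) (hn : 5 ≤ finrank F V) {W : Submodule F V}
    (h0 : W ≠ ⊥) (h1 : W ≠ ⊤) : ∃ k ∈ commutator (OQ Q), ∃ w ∈ W, k.1 w ∉ W := by
  by_contra hno
  push Not at hno
  obtain ⟨v, hvW, hv⟩ := W.exists_mem_ne_zero_of_ne_bot h0
  obtain ⟨u, hu, huv⟩ := exists_singular_polar_ne hB hn hv
  apply h1
  have hd : ∀ a, polar Q u a = 0 → polar Q u v • a - polar Q a v • u - (Q a * polar Q u v) • u ∈ W := by
    intro a ha
    have := W.sub_mem (hno _ (siegel_mem_commutator hB hn hu ha) v hvW) hvW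
    rw [siegel_apply] at this
    convert this using 1
    abel
  have huW : u ∈ W := by
    obtain ⟨a, c, ha, hc, hac⟩ : ∃ a c, polar Q u a = 0 ∧ polar Q u c = 0 ∧ polar Q a c ≠ 0 := by
      by_contra hP
      push Not at hP
      have hle : OrthGen.perpSub Q (F ∙ u) ≤ OrthGen.perpSub Q (OrthGen.perpSub Q (F ∙ u)) := by
        intro a ha c hc
        exact hP c a (hc u (Submodule.mem_span_singleton_self u)) (ha u (Submodule.mem_span_singleton_self u))
      have h := Submodule.finrank_mono hle
      rw [OrthGen.finrank_orthogonal_polar hB, OrthGen.finrank_orthogonal_polar hB,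
        OrthGen.finrank_orthogonal_polar hB] at h
      have := finrank_span_singleton (K := F) (show u ≠ 0 by rintro rfl; simp at huv)
      omega
    have hac' : polar Q u (a + c) = 0 := by rw [polar_add_right, ha, hc, add_zero]
    have h := W.sub_mem (hd _ hac') (W.add_mem (hd a ha) (hd c hc))
    have e : polar Q u v • (a + c) - polar Q (a + c) v • u - (Q (a + c) * polar Q u v) • u -
        (polar Q u v • a - polar Q a v • u - (Q a * polar Q u v) • u +
          (polar Q u v • c - polar Q c v • u - (Q c * polar Q u v) • u)) =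
        (-(polar Q a c * polar Q u v)) • u := by
      rw [polar_add_left, qf_add]; module
    rw [e] at h
    have := W.smul_mem (-(polar Q a c * polar Q u v))⁻¹ h
    rwa [inv_smul_smul₀ (neg_ne_zero.mpr (mul_ne_zero hac huv))] at this
  have hperp : ∀ a, polar Q u a = 0 → a ∈ W := by
    intro a ha
    have h : polar Q u v • a ∈ W := by
      have := W.add_mem (hd a ha) (W.add_mem (W.smul_mem (polar Q a v) huW) (W.smul_mem (Q a * polar Q u v) huW))
      convert this using 1
      abel
    have := W.smul_mem (polar Q u v)⁻¹ h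
    rwa [inv_smul_smul₀ huv] at this
  rw [eq_top_iff]
  intro x _
  have hx : polar Q u (x - (polar Q u x / polar Q u v) • v) = 0 := by
    rw [polar_sub_right, polar_smul_right, smul_eq_mul, div_mul_cancel₀ _ huv, sub_self]
  have := W.add_mem (hperp _ hx) (W.smul_mem (polar Q u x / polar Q u v) hvW)
  rwa [sub_add_cancel] at this

/-- Two maximal totally singular subspaces of the same class sharing a hyperplane coincide. -/
theorem eq_of_commutator_of_hyperplane (hB : BNondeg Q) (hn : 5 ≤ finrank F V) {U : Submodule F V}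
    (hU : ∀ u ∈ U, Q u = 0) (hdim : 2 * finrank F U = finrank F V) {g : OQ Q}
    (hg : g ∈ commutator (OQ Q)) (hint : finrank F U ≤ finrank F ↥(U ⊓ U.map g.1.toLinearMap) + 1) :
    U.map g.1.toLinearMap = U := by
  haveI : Finite V := Module.finite_of_finite F
  have hx := notExceptional_five (Q := Q) hn
  have hd := Forms.dickson_of_mem_commutator hB hx hg
  rw [Forms.dickson_eq_parity hB (OrthGen.RQ_eq_top hB hx) hU hdim.symm] at hd
  have hle := Submodule.finrank_mono (inf_le_left : U ⊓ U.map g.1.toLinearMap ≤ U)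
  have hrk := LinearEquiv.finrank_map_eq g.1 U
  by_cases he : finrank F ↥(U ⊓ U.map g.1.toLinearMap) = finrank F U
  · have h1 := Submodule.eq_of_le_of_finrank_eq inf_le_left he
    exact (Submodule.eq_of_le_of_finrank_eq (inf_eq_left.mp h1) hrk.symm).symm
  · rw [show finrank F U + finrank F ↥(U ⊓ U.map g.1.toLinearMap) =
      2 * finrank F ↥(U ⊓ U.map g.1.toLinearMap) + 1 by omega] at hd
    rw [Odd.neg_one_pow ⟨_, rfl⟩] at hd
    exact absurd hd (by decide)

end General

section Matrices

open Cfsg.Geo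

variable {F : Type*} [Field F] {ι : Type} [Fintype ι] [DecidableEq ι] {Qf : QuadraticForm F (ι → F)}

theorem oqToGL_mem_stab_iff {W : Submodule F (ι → F)} {k : OQ Qf} :
    oqToGL Qf k ∈ subspaceStabilizer W ↔ ∀ w ∈ W, k.1 w ∈ W := by
  refine ⟨fun h w hw => ?_, fun h => mem_subspaceStabilizer_of_le fun w hw => ?_⟩
  · rw [← oqToGL_mulVec]; exact (mem_subspaceStabilizer_iff.1 h w).1 hw
  · rw [oqToGL_mulVec]; exact h w hw

theorem oqToGL_mem_decomp_iff {t : ℕ} {D : Fin t → Submodule F (ι → F)} {k : OQ Qf} :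
    oqToGL Qf k ∈ decompositionStabilizer D ↔
      ∃ σ : Equiv.Perm (Fin t), ∀ i, (D i).map k.1.toLinearMap = D (σ i) := by
  have e : Matrix.toLin' (oqToGL Qf k : Matrix ι ι F) = k.1.toLinearMap :=
    LinearMap.ext fun v => by simp [oqToGL_mulVec]
  show (∃ σ : Equiv.Perm (Fin t), ∀ i, (D i).map _ = D (σ i)) ↔ _
  rw [e]

/-- Non-maximality in `Ω` from conditions on isometries. -/
theorem exists_between_omega {S X : Subgroup (Matrix.GeneralLinearGroup ι F)}
    (h0 : ∀ k ∈ commutator (OQ Qf), oqToGL Qf k ∈ S → oqToGL Qf k ∈ X)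
    (h1 : ∃ k ∈ commutator (OQ Qf), oqToGL Qf k ∈ X ∧ oqToGL Qf k ∉ S)
    (h2 : ∃ k ∈ commutator (OQ Qf), oqToGL Qf k ∉ X) :
    ∃ K, S ⊓ omegaGL ⇑Qf < K ∧ K < omegaGL ⇑Qf := by
  rw [← map_oqToGL_commutator]
  refine exists_between (X := X) ?_ ?_ ?_
  · rintro _ ⟨hS, k, hk, rfl⟩
    exact h0 k hk hS
  · obtain ⟨k, hk, hX, hS⟩ := h1
    exact ⟨_, hX, ⟨k, hk, rfl⟩, hS⟩
  · obtain ⟨k, hk, hX⟩ := h2
    exact fun hle => hX (hle ⟨k, hk, rfl⟩)

theorem nondegenerate_quadFormOdd {m : ℕ} (h2 : (2 : F) ≠ 0) :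
    IsNondegenerateQuadraticForm (Cfsg.quadFormOdd m F) := by
  have hS := isSymmetricForm_formOf (isPolar_oddGram (m := m) h2).unit oddGram_symm
  refine ⟨quadFormOdd_smul, ?_, ?_⟩ <;> rw [polar_quadFormOdd]
  exacts [hS.bilinear, hS.nondegenerate]

end Matrices

end Cfsg.Agent.NotMax
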