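import Cfsg.Agent.NotMax.OrthBase

/-!
Orthogonal groups: stabilisers of a plus plane over a tiny field, of a submaximal singular subspace
and of a pair of complementary maximal singular subspaces.
-/

set_option autoImplicit false
set_option linter.style.haveILetI false

namespace Cfsg.Agent.NotMax

open QuadraticMap Module Cfsg.Agent.Classical Cfsg.Agent.GeoClasses Cfsg.Geo

variable {F : Type*} [Field F] [Fintype F] {ι : Type} [Fintype ι] [DecidableEq ι]

theorem plus_plane {Q : (ι → F) → F} (hQ : IsNondegenerateQuadraticForm Q) (hn : 13 ≤ Fintype.card ι)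
    (hq : Fintype.card F ≤ 3) {W : Submodule F (ι → F)} (hdim : finrank F W = 2)
    (hW : IsNondegenerateOn (QuadraticMap.polar Q) W) (hWp : IsPlusTypeOn Q W) :
    ∃ K, subspaceStabilizer W ⊓ omegaGL Q < K ∧ K < omegaGL Q := by
  classical
  let Qf := toQF hQ
  have hB : BNondeg Qf := bNondeg_toQF hQ
  have hN : finrank F (ι → F) = Fintype.card ι := Module.finrank_fintype_fun_eq_card F
  have hsq : ∀ a : F, a ≠ 0 → a * a = 1 := by
    intro a ha
    have h1 : 1 < Fintype.card F := Fintype.one_lt_card
    have := FiniteField.pow_card_sub_one_eq_one a ha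
    rcases (show Fintype.card F = 2 ∨ Fintype.card F = 3 by omega) with h | h <;> rw [h] at this
    · rw [pow_one] at this; rw [this, mul_one]
    · rw [pow_two] at this; exact this
  obtain ⟨U, hUW, hU, hUd⟩ := hWp
  obtain ⟨e, heU, he0⟩ := U.exists_mem_ne_zero_of_ne_bot (fun h => by rw [h, finrank_bot, hdim] at hUd; omega)
  have heW := hUW heU
  have he : Qf e = 0 := hU e heU
  obtain ⟨-, x, hx, hex⟩ := hW e heW he0
  obtain ⟨f, hfW, hf, hef⟩ : ∃ f ∈ W, Qf f = 0 ∧ polar Qf e f = 1 := by
    obtain ⟨y, hyW, hey⟩ : ∃ y ∈ W, polar Qf e y = 1 := by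
      refine ⟨(polar Qf e x)⁻¹ • x, W.smul_mem _ hx, ?_⟩
      rw [polar_smul_right, smul_eq_mul]; exact inv_mul_cancel₀ hex
    refine ⟨y - Qf y • e, W.sub_mem hyW (W.smul_mem _ heW), ?_, ?_⟩
    · rw [qf_sub, QuadraticMap.map_smul, polar_smul_right, polar_comm Qf y e, hey, he]
      simp
    · rw [polar_sub_right, polar_smul_right, hey, OrthGen.polar_self_two, he]
      simp
  have hfe : polar Qf f e = 1 := by rw [polar_comm]; exact hef
  have hee : polar Qf e e = 0 := by rw [OrthGen.polar_self_two, he, mul_zero]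
  have hff : polar Qf f f = 0 := by rw [OrthGen.polar_self_two, hf, mul_zero]
  set v := e + f
  have hQv : Qf v = 1 := by rw [qf_add, he, hf, hef, zero_add, zero_add]
  have hv0 : v ≠ 0 := fun h => by rw [h, QuadraticMap.map_zero] at hQv; exact zero_ne_one hQv
  have hspan : ∀ w ∈ W, w = polar Qf f w • e + polar Qf e w • f := by
    intro w hw
    set d := w - (polar Qf f w • e + polar Qf e w • f)
    have hdW : d ∈ W := W.sub_mem hw (W.add_mem (W.smul_mem _ heW) (W.smul_mem _ hfW))
    have hWspan : W = Submodule.span F (Set.range ![e, f]) := by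
      have hli : LinearIndependent F ![e, f] := by
        rw [LinearIndependent.pair_iff]
        intro a b h
        constructor
        · have := congrArg (polar Qf f) h
          rwa [polar_add_right, polar_smul_right, polar_smul_right, hfe, hff, polar_zero_right, smul_zero,
            add_zero, smul_eq_mul, mul_one] at this
        · have := congrArg (polar Qf e) h
          rwa [polar_add_right, polar_smul_right, polar_smul_right, hee, hef, polar_zero_right, smul_zero,
            zero_add, smul_eq_mul, mul_one] at this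
      refine (Submodule.eq_of_le_of_finrank_eq ?_ ?_).symm
      · rw [Submodule.span_le]
        rintro _ ⟨i, rfl⟩
        fin_cases i <;> simpa
      · rw [finrank_span_eq_card hli, Fintype.card_fin, hdim]
    rw [hWspan, Submodule.mem_span_range_iff_exists_fun] at hw
    obtain ⟨c, rfl⟩ := hw
    simp [Fin.sum_univ_two, polar_add_right, polar_smul_right, hee, hef, hfe, hff]
  -- a singular vector orthogonal to the plane
  obtain ⟨u, huP, hu0, hu⟩ := Forms.exists_singular_vector_of_three_le Qf (S := OrthGen.perpSub Qf W) (by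
    rw [OrthGen.finrank_orthogonal_polar hB, hdim, hN]; omega)
  have hue : polar Qf u e = 0 := by rw [polar_comm]; exact huP e heW
  have huf : polar Qf u f = 0 := by rw [polar_comm]; exact huP f hfW
  have ha : polar Qf u (e - f) = 0 := by rw [polar_sub_right, hue, huf, sub_zero]
  refine exists_between_omega (Qf := Qf) (X := subspaceStabilizer (Submodule.span F {v})) ?_
    ⟨siegel Qf hu ha, siegel_mem_commutator hB (by omega) hu ha, ?_, ?_⟩ ?_
  · intro k _ hk
    rw [oqToGL_mem_stab_iff] at hk ⊢
    intro x hx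
    obtain ⟨s, rfl⟩ := Submodule.mem_span_singleton.1 hx
    rw [map_smul]
    refine Submodule.smul_mem _ _ (Submodule.mem_span_singleton.2 ?_)
    have h1 := hspan _ (hk v (W.add_mem heW hfW))
    set a := polar Qf f (k.1 v)
    set b := polar Qf e (k.1 v)
    have hab : a * b = 1 := by
      have h := OQ_map_app k v
      rw [h1, qf_add, QuadraticMap.map_smul, QuadraticMap.map_smul, he, hf, polar_smul_left, polar_smul_right,
        hef, hQv] at h
      simpa using h
    have hab' : b = a := by
      have := hsq a (left_ne_zero_of_mul_eq_one hab)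
      linear_combination a * hab - b * this
    exact ⟨a, by rw [h1, hab', ← smul_add]⟩
  · rw [oqToGL_mem_stab_iff]
    intro x hx
    obtain ⟨s, rfl⟩ := Submodule.mem_span_singleton.1 hx
    have : (siegel Qf hu ha).1 v = v := by
      refine siegel_fix Qf hu ha ?_ ?_
      · simp only [v, polar_add_right, hue, huf, add_zero]
      · simp only [v, polar_add_right, polar_sub_left, hee, hfe, hef, hff]; ring
    rw [map_smul, this]
    exact hx
  · rw [oqToGL_mem_stab_iff]
    intro h
    have hu' : u ∈ W := by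
      have := W.sub_mem (h e heW) heW
      rw [siegel_apply, hue, zero_smul, add_zero, polar_sub_left, hee, hfe, zero_sub, neg_smul, one_smul,
        sub_neg_eq_add, mul_zero, zero_smul, sub_zero, add_sub_cancel_left] at this
      exact this
    exact hu0 (by rw [hspan u hu', polar_comm Qf f u, huf, polar_comm Qf e u, hue, zero_smul, zero_smul,
      add_zero])
  · obtain ⟨k, hk, w, hw, hkw⟩ := exists_commutator_not_stab hB (by omega)
      (W := Submodule.span F {v}) (by rwa [Ne, Submodule.span_singleton_eq_bot]) (fun h => by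
        have := finrank_span_singleton (K := F) hv0
        rw [h, finrank_top, hN] at this; omega)
    exact ⟨k, hk, fun h => hkw (oqToGL_mem_stab_iff.1 h w hw)⟩

theorem submaximal_singular {Q : (ι → F) → F} (hQ : IsNondegenerateQuadraticForm Q)
    (hn : 13 ≤ Fintype.card ι) (hplus : IsPlusTypeOn Q ⊤) {W : Submodule F (ι → F)}
    (hW : IsTotallySingularQuad Q W) (hdim : 2 * (finrank F W + 1) = Fintype.card ι) :
    ∃ K, subspaceStabilizer W ⊓ omegaGL Q < K ∧ K < omegaGL Q := by
  classical
  haveI : Finite (ι → F) := inferInstance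
  let Qf := toQF hQ
  have hB : BNondeg Qf := bNondeg_toQF hQ
  have hN : finrank F (ι → F) = Fintype.card ι := Module.finrank_fintype_fun_eq_card F
  have hx := notExceptional_five (Q := Qf) (by omega)
  obtain ⟨U₀, -, hU₀, hU₀d⟩ := hplus
  rw [finrank_top, hN] at hU₀d
  set d := finrank F W
  -- hyperplanes
  have hyper : ∀ U : Submodule F (ι → F), finrank F U = d + 1 → ∀ x ∈ U, x ≠ 0 →
      ∃ S ≤ U, finrank F S = d ∧ x ∉ S := by
    intro U hU x hxU hx0
    obtain ⟨φ, hφx, -⟩ := exists_functional (p := (⊥ : Submodule F (ι → F))) (x := x) (by simpa using hx0)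
    refine ⟨U ⊓ LinearMap.ker φ, inf_le_left, ?_, fun h => ?_⟩
    · have := Forms.finrank_eq_inf_ker_add_one U φ ⟨x, hxU, by rw [hφx]; exact one_ne_zero⟩
      omega
    · have : φ x = 0 := h.2
      rw [hφx] at this
      exact one_ne_zero this
  obtain ⟨x₀, hx₀, hx₀0⟩ := U₀.exists_mem_ne_zero_of_ne_bot (fun h => by rw [h, finrank_bot] at hU₀d; omega)
  obtain ⟨W₀, hW₀, hW₀d, -⟩ := hyper U₀ (by omega) x₀ hx₀ hx₀0
  obtain ⟨g, hg, hgW⟩ := Forms.exists_commutator_map_totallySingular (Q := Qf) hB hx
    (fun y hy => hU₀ y (hW₀ hy)) hW hW₀d (Or.inl (by omega))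
  set U := U₀.map g.1.toLinearMap
  have hWU : W ≤ U := hgW ▸ Submodule.map_mono hW₀
  have hU : ∀ u ∈ U, Qf u = 0 := by
    rintro _ ⟨y, hy, rfl⟩
    rw [show Qf (g.1.toLinearMap y) = Qf y from OQ_map_app g y]
    exact hU₀ y hy
  have hUd : finrank F U = d + 1 := by rw [LinearEquiv.finrank_map_eq g.1 U₀]; omega
  have key : ∀ k ∈ commutator (OQ Qf), ∀ S : Submodule F (ι → F), finrank F S = d → S ≤ U →
      S ≤ U.map k.1.toLinearMap → U.map k.1.toLinearMap = U := fun k hk S hS h1 h2 =>
    eq_of_commutator_of_hyperplane hB (by omega) hU (by omega) hk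
      (by have := Submodule.finrank_mono (le_inf h1 h2); omega)
  obtain ⟨w, hw, hw0⟩ := W.exists_mem_ne_zero_of_ne_bot (fun h => by
    have : d = 0 := by show finrank F W = 0; rw [h, finrank_bot]
    omega)
  obtain ⟨S, hS, hSd, hwS⟩ := hyper U hUd w (hWU hw) hw0
  obtain ⟨k, hk, hkW⟩ := Forms.exists_commutator_map_totallySingular (Q := Qf) hB hx
    (fun y hy => hW y hy) (fun y hy => hU y (hS hy)) hSd.symm (Or.inl (by omega))
  refine exists_between_omega (Qf := Qf) (X := subspaceStabilizer U) ?_ ⟨k, hk, ?_, fun h => ?_⟩ ?_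
  · intro k hk hkS
    rw [oqToGL_mem_stab_iff] at hkS ⊢
    have hle : W.map k.1.toLinearMap ≤ W := by rintro _ ⟨y, hy, rfl⟩; exact hkS y hy
    have hWk : W ≤ U.map k.1.toLinearMap := by
      rw [← Submodule.eq_of_le_of_finrank_eq hle (LinearEquiv.finrank_map_eq k.1 W)]
      exact Submodule.map_mono hWU
    have h := key k hk W rfl hWU hWk
    intro y hy
    exact h ▸ Submodule.mem_map_of_mem hy
  · rw [oqToGL_mem_stab_iff]
    have h := key k hk S hSd hS (hkW ▸ Submodule.map_mono hWU)
    intro y hy
    exact h ▸ Submodule.mem_map_of_mem hy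
  · rw [oqToGL_mem_stab_iff] at h
    have hle : W.map k.1.toLinearMap ≤ W := by rintro _ ⟨y, hy, rfl⟩; exact h y hy
    rw [hkW] at hle
    exact hwS (Submodule.eq_of_le_of_finrank_eq hle hSd ▸ hw)
  · obtain ⟨k', hk', y, hy, hky⟩ := exists_commutator_not_stab hB (by omega) (W := U)
      (fun h => by rw [h, finrank_bot] at hUd; omega)
      (fun h => by rw [h, finrank_top, hN] at hUd; omega)
    exact ⟨k', hk', fun h => hky (oqToGL_mem_stab_iff.1 h y hy)⟩

theorem singular_pair {Q : (ι → F) → F} (hQ : IsNondegenerateQuadraticForm Q) (hn : 13 ≤ Fintype.card ι)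
    {k : ℕ} (hk : 2 * k = Fintype.card ι) (hko : Odd k) (D : Fin 2 → Submodule F (ι → F))
    (hD : IsMDecomposition k D) (hts : ∀ i, IsTotallySingularQuad Q (D i)) :
    ∃ K, decompositionStabilizer D ⊓ omegaGL Q < K ∧ K < omegaGL Q := by
  classical
  haveI : Finite (ι → F) := inferInstance
  let Qf := toQF hQ
  have hB : BNondeg Qf := bNondeg_toQF hQ
  have hN : finrank F (ι → F) = Fintype.card ι := Module.finrank_fintype_fun_eq_card F
  have hx := notExceptional_five (Q := Qf) (by omega)
  have hd := hD.finrank_eq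
  have hdisj : D 0 ⊓ D 1 = ⊥ := by
    rw [eq_bot_iff]
    intro x hx
    exact Submodule.disjoint_def.1 (hD.indep 0) x hx.1
      (Submodule.mem_iSup_of_mem 1 (Submodule.mem_iSup_of_mem (by decide) hx.2))
  have hP : ∀ a ∈ D 0, ∀ b ∈ D 0, polar Qf a b = 0 := fun a ha b hb =>
    Forms.polar_eq_zero_of_totallySingular (Q := Qf) (hts 0) ha hb
  obtain ⟨u, hu, hu0⟩ := (D 0).exists_mem_ne_zero_of_ne_bot (fun h => by
    have := hd 0; rw [h, finrank_bot] at this; omega)
  obtain ⟨a, ha, hau⟩ : ∃ a ∈ D 0, a ∉ Submodule.span F {u} := by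
    by_contra hno
    push Not at hno
    have := Submodule.finrank_mono (show D 0 ≤ Submodule.span F {u} from hno)
    rw [hd, finrank_span_singleton hu0] at this
    omega
  have huQ : Qf u = 0 := hts 0 u hu
  have hua : polar Qf u a = 0 := hP u hu a ha
  refine exists_between_omega (Qf := Qf) (X := subspaceStabilizer (D 0)) ?_
    ⟨siegel Qf huQ hua, siegel_mem_commutator hB (by omega) huQ hua, ?_, ?_⟩ ?_
  · intro g hg hgS
    obtain ⟨σ, hσ⟩ := oqToGL_mem_decomp_iff.1 hgS
    rw [oqToGL_mem_stab_iff]
    rcases (show σ 0 = 0 ∨ σ 0 = 1 by omega) with h | h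
    · intro y hy
      have := hσ 0
      rw [h] at this
      exact this ▸ Submodule.mem_map_of_mem hy
    · exfalso
      have hdk := Forms.dickson_of_mem_commutator hB hx hg
      rw [Forms.dickson_eq_parity hB (OrthGen.RQ_eq_top hB hx) (hts 0) (by rw [hd, hN]; omega), hσ, h, hdisj,
        finrank_bot, hd, add_zero, hko.neg_one_pow] at hdk
      exact absurd hdk (by decide)
  · rw [oqToGL_mem_stab_iff]
    intro y hy
    rw [siegel_apply, hP u hu y hy, hP a ha y hy, zero_smul, zero_smul, mul_zero, zero_smul, add_zero,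
      sub_zero, sub_zero]
    exact hy
  · rw [oqToGL_mem_decomp_iff]
    rintro ⟨σ, hσ⟩
    obtain ⟨x, hx1, hux⟩ : ∃ x ∈ D 1, polar Qf u x ≠ 0 := by
      by_contra hno
      push Not at hno
      refine hu0 (hB u fun y => ?_)
      have htop : D 0 ⊔ D 1 = ⊤ := by
        rw [← hD.iSup_eq_top]
        refine le_antisymm (sup_le (le_iSup D 0) (le_iSup D 1)) (iSup_le fun i => ?_)
        fin_cases i
        exacts [le_sup_left, le_sup_right]
      obtain ⟨p, hp, q, hq, rfl⟩ := Submodule.mem_sup.1 (htop.symm ▸ Submodule.mem_top : y ∈ D 0 ⊔ D 1)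
      rw [polar_add_right, hP u hu p hp, hno q hq, add_zero]
    have him : (siegel Qf huQ hua).1 x ∈ D (σ 1) := hσ 1 ▸ Submodule.mem_map_of_mem hx1
    have hz : polar Qf u x • a - polar Qf a x • u ∈ D 0 :=
      (D 0).sub_mem ((D 0).smul_mem _ ha) ((D 0).smul_mem _ hu)
    have hQa : Qf a = 0 := hts 0 a ha
    have e : (siegel Qf huQ hua).1 x = x + (polar Qf u x • a - polar Qf a x • u) := by
      rw [siegel_apply, hQa, zero_mul, zero_smul, sub_zero]; abel
    rw [e] at him
    rcases (show σ 1 = 0 ∨ σ 1 = 1 by omega) with h | h <;> rw [h] at him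
    · have hx0 : x ∈ D 0 ⊓ D 1 := ⟨by simpa using (D 0).sub_mem him hz, hx1⟩
      rw [hdisj, Submodule.mem_bot] at hx0
      rw [hx0, polar_zero_right] at hux
      exact hux rfl
    · have hz1 : polar Qf u x • a - polar Qf a x • u ∈ D 0 ⊓ D 1 :=
        ⟨hz, by simpa using (D 1).sub_mem him hx1⟩
      rw [hdisj, Submodule.mem_bot, sub_eq_zero] at hz1
      refine hau (Submodule.mem_span_singleton.2 ⟨(polar Qf u x)⁻¹ * polar Qf a x, ?_⟩)
      rw [mul_smul, ← hz1, inv_smul_smul₀ hux]
  · obtain ⟨k', hk', y, hy, hky⟩ := exists_commutator_not_stab hB (by omega) (W := D 0)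
      (fun h => by have := hd 0; rw [h, finrank_bot] at this; omega)
      (fun h => by have := hd 0; rw [h, finrank_top, hN] at this; omega)
    exact ⟨k', hk', fun h => hky (oqToGL_mem_stab_iff.1 h y hy)⟩

end Cfsg.Agent.NotMax
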