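import Mathlib
import Cfsg.Agent.Forms.Alternating
import Cfsg.Agent.GeoClasses.Forms

/-!
Square-zero self-adjoint matrices of symplectic forms in dimensions two and four in characteristic two.
-/

set_option autoImplicit false
set_option linter.style.haveILetI false
set_option linter.unusedSectionVars false

namespace Cfsg.Agent.NotMax

open Matrix Module Cfsg.Geo Cfsg.Agent.GeoClasses
open scoped Matrix

variable {F : Type*} [Field F] {k : ℕ}

/-- Square zero and self-adjoint, alternating in dimension four. -/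
def IsSiteElem (G X : Matrix (Fin k) (Fin k) F) : Prop :=
  X * X = 0 ∧ (G * X)ᵀ = G * X ∧ (k = 4 → ∀ v : Fin k → F, v ⬝ᵥ ((G * X) *ᵥ v) = 0)

theorem siteElem_zero (G : Matrix (Fin k) (Fin k) F) : IsSiteElem G 0 :=
  ⟨by simp, by simp, fun _ v => by simp⟩

theorem IsSiteElem.conj {G X c : Matrix (Fin k) (Fin k) F} (h : IsSiteElem G X) {μ : F}
    (hμ : μ ≠ 0) (hc : cᵀ * G * c = μ • G) (hu : IsUnit c.det) : IsSiteElem G (c * X * c⁻¹) := by
  obtain ⟨h1, h2, h3⟩ := h
  have hGc : G * c = μ • ((c⁻¹)ᵀ * G) := by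
    rw [← Matrix.mul_smul, ← hc, ← mul_assoc, ← mul_assoc, ← Matrix.transpose_mul,
      Matrix.mul_nonsing_inv c hu, Matrix.transpose_one, one_mul]
  have hG : G * (c * X * c⁻¹) = μ • ((c⁻¹)ᵀ * (G * X) * c⁻¹) := by
    rw [← mul_assoc, ← mul_assoc, hGc, Matrix.smul_mul, Matrix.smul_mul]
    simp only [mul_assoc]
  refine ⟨?_, ?_, fun h4 v => ?_⟩
  · rw [show c * X * c⁻¹ * (c * X * c⁻¹) = c * (X * (c⁻¹ * c) * X) * c⁻¹ by simp only [mul_assoc],
      Matrix.nonsing_inv_mul c hu, mul_one, h1, mul_zero, zero_mul]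
  · rw [hG, Matrix.transpose_smul, Matrix.transpose_mul, Matrix.transpose_mul, Matrix.transpose_transpose, h2]
    simp only [mul_assoc]
  · rw [hG, Matrix.smul_mulVec, dotProduct_smul, ← Matrix.mulVec_mulVec, ← Matrix.mulVec_mulVec,
      Matrix.dotProduct_mulVec, Matrix.vecMul_transpose, h3 h4, smul_zero]

/-- The data used on one site. -/
structure SiteData (G E D : Matrix (Fin k) (Fin k) F) : Prop where
  elem : IsSiteElem G E
  unit : IsUnit D.det
  isom : Dᵀ * G * D = G
  nonscalar : ∀ s : F, D * E * D⁻¹ + E ≠ s • 1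
  anti : ∀ X, IsSiteElem G X → ∃ s : F, E * X + X * E = s • 1

theorem exists_siteData_two (h2 : (2 : F) = 0) {G : Matrix (Fin 2) (Fin 2) F} (hskew : Gᵀ = -G)
    (hdiag : ∀ i, G i i = 0) {a : F} (ha : a ≠ 0) (ha1 : a ≠ 1) : ∃ E D, SiteData G E D := by
  have h10 : G 1 0 = G 0 1 := by
    have h := congrFun (congrFun hskew 0) 1
    simp only [Matrix.transpose_apply, Matrix.neg_apply] at h
    linear_combination h + G 0 1 * (-1 : F) * 0 - G 0 1 * h2
  have hneg : ∀ x : F, -x = x := fun x => by linear_combination -x * h2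
  refine ⟨!![0, 1; 0, 0], !![a, 0; 0, a⁻¹], ?_, ?_, ?_, ?_, ?_⟩
  · refine ⟨?_, ?_, fun h => absurd h (by norm_num)⟩
    · ext i j; fin_cases i <;> fin_cases j <;> simp [Matrix.mul_apply, Fin.sum_univ_two, Matrix.vecMul, dotProduct]
    · ext i j; fin_cases i <;> fin_cases j <;>
        simp [Matrix.mul_apply, Fin.sum_univ_two, Matrix.vecMul, dotProduct, hdiag, Matrix.transpose_apply]
  · simp [Matrix.det_fin_two, ha]
  · ext i j
    fin_cases i <;> fin_cases j <;>
      simp [Matrix.mul_apply, Fin.sum_univ_two, Matrix.vecMul, dotProduct, hdiag, Matrix.transpose_apply, h10] <;> field_simp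
  · intro s h
    have hinv : (!![a, 0; 0, a⁻¹] : Matrix (Fin 2) (Fin 2) F)⁻¹ = !![a⁻¹, 0; 0, a] :=
      Matrix.inv_eq_right_inv (by
        ext i j; fin_cases i <;> fin_cases j <;> simp [Matrix.mul_apply, Fin.sum_univ_two, Matrix.vecMul, dotProduct, ha])
    have e := congrFun (congrFun h 0) 1
    rw [hinv] at e
    simp [Matrix.mul_apply, Fin.sum_univ_two, Matrix.vecMul, dotProduct] at e
    apply ha1
    have h0 : (a - 1) ^ 2 = 0 := by linear_combination e - a * h2
    exact sub_eq_zero.1 (pow_eq_zero_iff two_ne_zero |>.1 h0)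
  · rintro X ⟨hX, -, -⟩
    refine ⟨X 1 0, ?_⟩
    have e0 := congrFun (congrFun hX 0) 0
    have e1 := congrFun (congrFun hX 1) 1
    simp [Matrix.mul_apply, Fin.sum_univ_two, Matrix.vecMul, dotProduct] at e0 e1
    have h00 : X 0 0 = X 1 1 := by
      have h0 : (X 0 0 - X 1 1) ^ 2 = 0 := by
        linear_combination e0 + e1 - (X 0 0 * X 1 1 + X 0 1 * X 1 0) * h2
      exact sub_eq_zero.1 (pow_eq_zero_iff two_ne_zero |>.1 h0)
    ext i j
    fin_cases i <;> fin_cases j <;> simp [Matrix.mul_apply, Matrix.add_apply, Fin.sum_univ_two, Matrix.vecMul, dotProduct, h00]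
    linear_combination X 1 1 * h2

/-- The standard symplectic Gram matrix of dimension four in characteristic two. -/
def stdFour (F : Type*) [Field F] : Matrix (Fin 4) (Fin 4) F := !![0, 0, 1, 0; 0, 0, 0, 1; 1, 0, 0, 0; 0, 1, 0, 0]

theorem siteData_four (h2 : (2 : F) = 0) :
    SiteData (stdFour F) !![0, 0, 0, 1; 0, 0, 1, 0; 0, 0, 0, 0; 0, 0, 0, 0] (stdFour F) := by
  have h11 : (1 : F) + 1 = 0 := by linear_combination h2
  have hJJ : stdFour F * stdFour F = 1 := by
    ext i j; fin_cases i <;> fin_cases j <;> simp [stdFour, Matrix.mul_apply, Fin.sum_univ_four, Matrix.vecMul, dotProduct]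
  refine ⟨⟨?_, ?_, fun _ v => ?_⟩, ?_, ?_, ?_, ?_⟩
  · ext i j; fin_cases i <;> fin_cases j <;> simp [Matrix.mul_apply, Fin.sum_univ_four, Matrix.vecMul, dotProduct]
  · ext i j; fin_cases i <;> fin_cases j <;>
      simp [stdFour, Matrix.mul_apply, Fin.sum_univ_four, Matrix.vecMul, dotProduct, Matrix.transpose_apply]
  · simp [stdFour, Matrix.mulVec, dotProduct, Matrix.mul_apply, Fin.sum_univ_four, Matrix.vecMul, dotProduct]
    linear_combination (v 2 * v 3) * h2
  · exact Matrix.isUnit_det_of_right_inverse hJJ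
  · rw [show (stdFour F)ᵀ = stdFour F from by
      ext i j; fin_cases i <;> fin_cases j <;> simp [stdFour, Matrix.transpose_apply]]
    rw [hJJ, one_mul]
  · intro s h
    rw [Matrix.inv_eq_right_inv hJJ] at h
    have e := congrFun (congrFun h 0) 3
    simp [stdFour, Matrix.mul_apply, Fin.sum_univ_four, Matrix.vecMul, dotProduct] at e
  · rintro X ⟨hX, hsym, halt⟩
    have hd : ∀ i, (stdFour F * X) i i = 0 := fun i => by
      simpa [Matrix.mulVec_single_one, single_dotProduct] using halt rfl (Pi.single i 1)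
    have d0 := hd 0
    have d1 := hd 1
    have d2 := hd 2
    have d3 := hd 3
    have s01 := congrFun (congrFun hsym 0) 1
    have s02 := congrFun (congrFun hsym 0) 2
    have s03 := congrFun (congrFun hsym 0) 3
    have s12 := congrFun (congrFun hsym 1) 2
    have s13 := congrFun (congrFun hsym 1) 3
    have s23 := congrFun (congrFun hsym 2) 3
    simp [stdFour, Matrix.mul_apply, Fin.sum_univ_four, Matrix.vecMul, dotProduct, Matrix.transpose_apply] at d0 d1 d2 d3 s01 s02 s03 s12 s13 s23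
    have e0 := congrFun (congrFun hX 0) 0
    have e1 := congrFun (congrFun hX 1) 1
    simp [Matrix.mul_apply, Fin.sum_univ_four, Matrix.vecMul, dotProduct, d0, d1, d2, d3] at e0 e1
    have hT : X 0 0 = X 1 1 := by
      have h0 : (X 0 0 - X 1 1) ^ 2 = 0 := by
        linear_combination e0 + e1 - (X 0 0 * X 1 1 + X 0 1 * X 1 0 + X 0 3 * X 3 0) * h2 +
          X 0 3 * s01 - X 2 1 * s23
      exact sub_eq_zero.1 (pow_eq_zero_iff two_ne_zero |>.1 h0)
    refine ⟨X 3 0, ?_⟩
    ext i j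
    fin_cases i <;> fin_cases j <;>
      simp [Matrix.mul_apply, Matrix.add_apply, Fin.sum_univ_four, Matrix.vecMul, dotProduct, d0, d1, d2, d3] <;>
      grind

theorem exists_siteData_four (h2 : (2 : F) = 0) {f : (Fin 4 → F) → (Fin 4 → F) → F}
    (hf : IsSymplecticForm f) : ∃ E D, SiteData (gramMatrix f) E D := by
  let B : LinearMap.BilinForm F (Fin 4 → F) :=
    LinearMap.mk₂ F f hf.bilinear.add_left hf.bilinear.smul_left hf.bilinear.add_right hf.bilinear.smul_right
  have hA : B.IsAlt := fun x => hf.alternating x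
  have hB : B.Nondegenerate := by
    constructor <;> intro x hx <;> by_contra h0
    · obtain ⟨-, y, hy⟩ := hf.nondegenerate x h0; exact hy (hx y)
    · obtain ⟨⟨y, hy⟩, -⟩ := hf.nondegenerate x h0; exact hy (hx y)
  obtain ⟨m, b, hef, hee, hff⟩ := Forms.exists_symplectic_basis hA hB
  have hm : m = 2 := by
    have := Module.finrank_eq_card_basis b
    simp at this
    omega
  subst hm
  let b' : Fin 4 → Fin 4 → F := fun j => b (![.inl 0, .inl 1, .inr 0, .inr 1] j)
  let C : Matrix (Fin 4) (Fin 4) F := fun i j => b' j i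
  set G := gramMatrix f
  set J := stdFour F
  have hfG : ∀ u v, f u v = u ⬝ᵥ (G *ᵥ v) := fun u v => by
    rw [GeoClasses.bilinearForm_eq_formOf hf.bilinear]
    rfl
  have hswap : ∀ u v, f u v = f v u := fun u v => by
    rw [hf.skew]; linear_combination (-(f v u)) * h2
  have hCG : Cᵀ * G * C = J := by
    ext i j
    have : (Cᵀ * G * C) i j = f (b' i) (b' j) := by
      rw [hfG, mul_assoc]
      rfl
    rw [this]
    have e00 : f (b (.inl 0)) (b (.inr 0)) = 1 := (hef 0 0).trans (if_pos rfl)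
    have e11 : f (b (.inl 1)) (b (.inr 1)) = 1 := (hef 1 1).trans (if_pos rfl)
    have e01 : f (b (.inl 0)) (b (.inr 1)) = 0 := (hef 0 1).trans (if_neg (by decide))
    have e10 : f (b (.inl 1)) (b (.inr 0)) = 0 := (hef 1 0).trans (if_neg (by decide))
    have ee : ∀ i j, f (b (.inl i)) (b (.inl j)) = 0 := hee
    have ff : ∀ i j, f (b (.inr i)) (b (.inr j)) = 0 := hff
    fin_cases i <;> fin_cases j <;>
      simp [b', J, stdFour, e00, e11, e01, e10, ee, ff, hswap (b (.inr 0)) (b (.inl 0)),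
        hswap (b (.inr 0)) (b (.inl 1)), hswap (b (.inr 1)) (b (.inl 0)), hswap (b (.inr 1)) (b (.inl 1))]
  have hd := siteData_four (F := F) h2
  have hJdet : IsUnit J.det := hd.unit
  have hC : IsUnit C.det := by
    rw [← hCG, Matrix.det_mul, Matrix.det_mul, IsUnit.mul_iff] at hJdet
    exact hJdet.2
  set E₀ : Matrix (Fin 4) (Fin 4) F := !![0, 0, 0, 1; 0, 0, 1, 0; 0, 0, 0, 0; 0, 0, 0, 0]
  have hG : G = (C⁻¹)ᵀ * J * C⁻¹ := by
    rw [← hCG]
    simp only [← mul_assoc]
    rw [← Matrix.transpose_mul, Matrix.mul_nonsing_inv C hC, Matrix.transpose_one, one_mul,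
      mul_assoc, Matrix.mul_nonsing_inv C hC, mul_one]
  have hGC : ∀ X, G * (C * X * C⁻¹) = (C⁻¹)ᵀ * (J * X) * C⁻¹ := fun X => by
    rw [hG]
    simp only [mul_assoc]
    rw [← mul_assoc C⁻¹ C, Matrix.nonsing_inv_mul C hC, one_mul]
  have hJX : ∀ X, J * (C⁻¹ * X * C) = Cᵀ * (G * X) * C := fun X => by
    rw [← hCG]
    simp only [mul_assoc]
    rw [← mul_assoc C C⁻¹, Matrix.mul_nonsing_inv C hC, one_mul]
  refine ⟨C * E₀ * C⁻¹, C * J * C⁻¹, ⟨?_, ?_, fun _ v => ?_⟩, ?_, ?_, ?_, ?_⟩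
  · rw [show C * E₀ * C⁻¹ * (C * E₀ * C⁻¹) = C * (E₀ * (C⁻¹ * C) * E₀) * C⁻¹ by simp only [mul_assoc],
      Matrix.nonsing_inv_mul C hC, mul_one, hd.elem.1, mul_zero, zero_mul]
  · rw [hGC, Matrix.transpose_mul, Matrix.transpose_mul, Matrix.transpose_transpose, hd.elem.2.1]
    simp only [mul_assoc]
    rfl
  · rw [hGC, ← Matrix.mulVec_mulVec, ← Matrix.mulVec_mulVec, Matrix.dotProduct_mulVec, Matrix.vecMul_transpose,
      hd.elem.2.2 rfl]
  · rw [Matrix.det_mul, Matrix.det_mul, IsUnit.mul_iff, IsUnit.mul_iff]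
    exact ⟨⟨hC, hd.unit⟩, Matrix.isUnit_nonsing_inv_det C hC⟩
  · rw [Matrix.transpose_mul, Matrix.transpose_mul, hG]
    simp only [mul_assoc]
    rw [← mul_assoc Cᵀ, ← Matrix.transpose_mul, Matrix.nonsing_inv_mul C hC, Matrix.transpose_one, one_mul,
      ← mul_assoc C⁻¹ C, Matrix.nonsing_inv_mul C hC, one_mul, ← mul_assoc J J, ← mul_assoc Jᵀ,
      ← mul_assoc Jᵀ J]
    rw [hd.isom]
  · intro s h
    apply hd.nonscalar s
    have hinv : (C * J * C⁻¹)⁻¹ = C * J⁻¹ * C⁻¹ := by
      apply Matrix.inv_eq_right_inv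
      rw [show C * J * C⁻¹ * (C * J⁻¹ * C⁻¹) = C * (J * (C⁻¹ * C) * J⁻¹) * C⁻¹ by simp only [mul_assoc],
        Matrix.nonsing_inv_mul C hC, mul_one, Matrix.mul_nonsing_inv J hd.unit, mul_one,
        Matrix.mul_nonsing_inv C hC]
    rw [hinv] at h
    have := congrArg (fun X => C⁻¹ * X * C) h
    simpa [mul_assoc, mul_add, add_mul, Matrix.nonsing_inv_mul C hC,
      Matrix.nonsing_inv_mul_cancel_left C _ hC] using this
  · intro X hX
    obtain ⟨hX1, hX2, hX3⟩ := hX
    obtain ⟨s, hs⟩ := hd.anti (C⁻¹ * X * C) ⟨by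
      rw [show C⁻¹ * X * C * (C⁻¹ * X * C) = C⁻¹ * (X * (C * C⁻¹) * X) * C by simp only [mul_assoc],
        Matrix.mul_nonsing_inv C hC, mul_one, hX1, mul_zero, zero_mul], by
      rw [hJX, Matrix.transpose_mul, Matrix.transpose_mul, Matrix.transpose_transpose, hX2]
      simp only [mul_assoc],
      fun _ v => by
        rw [hJX, ← Matrix.mulVec_mulVec, ← Matrix.mulVec_mulVec, Matrix.dotProduct_mulVec,
          Matrix.vecMul_transpose, hX3 rfl]⟩
    refine ⟨s, ?_⟩
    have := congrArg (fun Y => C * Y * C⁻¹) hs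
    simpa [mul_assoc, mul_add, add_mul, Matrix.mul_nonsing_inv C hC,
      Matrix.mul_nonsing_inv_cancel_left C _ hC] using this

end Cfsg.Agent.NotMax
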