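import Cfsg.Agent.NotMax.PowerSites
import Cfsg.Agent.NotMax.PowerFactor
import Cfsg.Agent.NotMax.OrthBase
import Cfsg.Agent.MaxSub.Proper

/-!
Tensor powers of symplectic planes and four-spaces in characteristic two: the stabiliser in `Ω`
normalises a small space of matrices (the image of the natural module of a larger symplectic group),
and is not maximal.
-/

set_option autoImplicit false
set_option linter.style.haveILetI false
set_option linter.unusedSectionVars false

namespace Cfsg.Agent.NotMax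

open Matrix QuadraticMap Module Cfsg.Agent.Classical Cfsg.Agent.GeoClasses Cfsg.Geo
open scoped MatrixGroups Matrix commutatorElement

universe u

variable {ι : Type} [Fintype ι] [DecidableEq ι] {F : Type u} [Field F] {k t : ℕ}

/-- The coordinates of a tensor power, as an isomorphism of matrix algebras. -/
noncomputable def powAlg (e : ι ≃ (Fin t → Fin k)) (P : GL ι F) :
    Matrix (Fin t → Fin k) (Fin t → Fin k) F ≃ₐ[F] Matrix ι ι F :=
  (Matrix.reindexAlgEquiv F F e.symm).trans
    { toFun := fun X => (P : Matrix ι ι F) * X * ((P⁻¹ : GL ι F) : Matrix ι ι F)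
      invFun := fun X => ((P⁻¹ : GL ι F) : Matrix ι ι F) * X * (P : Matrix ι ι F)
      left_inv := fun X => by simp [mul_assoc]
      right_inv := fun X => by simp [mul_assoc]
      map_mul' := fun X Y => by simp [mul_assoc]
      map_add' := fun X Y => by simp [mul_add, add_mul]
      commutes' := fun r => by
        show (P : Matrix ι ι F) * algebraMap F _ r * _ = _
        rw [← Algebra.commutes, mul_assoc, Units.mul_inv, mul_one] }

/-- The coordinates of a tensor power, on vectors. -/
noncomputable def powVec (e : ι ≃ (Fin t → Fin k)) (P : GL ι F) : ((Fin t → Fin k) → F) →ₗ[F] (ι → F) :=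
  (Matrix.toLin' (P : Matrix ι ι F)).comp (LinearMap.funLeft F F e)

theorem powVec_apply (e : ι ≃ (Fin t → Fin k)) (P : GL ι F) (v : (Fin t → Fin k) → F) :
    powVec e P v = (P : Matrix ι ι F) *ᵥ (v ∘ e) := rfl

theorem powAlg_mulVec (e : ι ≃ (Fin t → Fin k)) (P : GL ι F) (X : Matrix (Fin t → Fin k) (Fin t → Fin k) F)
    (v : (Fin t → Fin k) → F) : powAlg e P X *ᵥ powVec e P v = powVec e P (X *ᵥ v) := by
  show ((P : Matrix ι ι F) * Matrix.reindexAlgEquiv F F e.symm X * ((P⁻¹ : GL ι F) : Matrix ι ι F)) *ᵥ _ = _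
  rw [powVec_apply, powVec_apply, Matrix.mulVec_mulVec, mul_assoc, Units.inv_mul, mul_one,
    ← Matrix.mulVec_mulVec, Matrix.reindexAlgEquiv_apply, Matrix.reindex_apply, Equiv.symm_symm,
    Matrix.submatrix_mulVec_equiv, Function.comp_assoc, Equiv.self_comp_symm, Function.comp_id]

theorem powVec_injective (e : ι ≃ (Fin t → Fin k)) (P : GL ι F) : Function.Injective (powVec e P) := by
  intro a b h
  rw [powVec_apply, powVec_apply] at h
  exact funext fun x => by simpa using congrFun (mulVec_injective P h) (e.symm x)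

theorem powVec_surjective (e : ι ≃ (Fin t → Fin k)) (P : GL ι F) : Function.Surjective (powVec e P) := fun v =>
  ⟨(((P⁻¹ : GL ι F) : Matrix ι ι F) *ᵥ v) ∘ e.symm, by
    simp [powVec_apply, Function.comp_assoc, Matrix.mulVec_mulVec]⟩

theorem mem_wreath_powAlg [Finite F] {e : ι ≃ (Fin t → Fin k)} {P g : GL ι F}
    (hg : g ∈ tensorWreathSubgroup k t e P) :
    ∃ (gs : Fin t → Matrix (Fin k) (Fin k) F) (π : Equiv.Perm (Fin t)),
      (g : Matrix ι ι F) = powAlg e P (pureMat gs * factorPerm k π) := by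
  obtain ⟨_, ⟨m, hm, rfl⟩, rfl⟩ := hg
  obtain ⟨gs, σ, hgs⟩ := MaxSub.tensorWreath_apply hm
  refine ⟨gs, σ⁻¹, ?_⟩
  have : (m : Matrix (Fin t → Fin k) (Fin t → Fin k) F) = pureMat gs * factorPerm k σ⁻¹ := by
    ext x y
    rw [hgs, Matrix.mul_apply, Finset.sum_eq_single (y ∘ σ)]
    · rw [factorPerm, if_pos (funext fun i => by simp), mul_one]
      rfl
    · intro z _ hz
      rw [factorPerm, if_neg, mul_zero]
      rintro rfl
      exact hz (funext fun i => by simp)
    · simp
  rw [← this]
  rfl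

/-- A vector of tensor shape on the sites `i`, `j` and fixed elsewhere. -/
def twoSite (i j : Fin t) (z : Fin k) (a b : Fin k → F) : Fin t → Fin k → F :=
  Function.update (Function.update (fun _ => Pi.single z 1) i a) j b

theorem twoSite_apply {i j : Fin t} (hij : i ≠ j) (z : Fin k) (a b : Fin k → F) (p r : Fin k) :
    pureVec (twoSite i j z a b) (Function.update (Function.update (fun _ => z) i p) j r) = a p * b r := by
  simp only [pureVec]
  rw [← Finset.mul_prod_erase Finset.univ _ (Finset.mem_univ i),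
    ← Finset.mul_prod_erase (Finset.univ.erase i) _ (Finset.mem_erase.2 ⟨hij.symm, Finset.mem_univ j⟩),
    Finset.prod_eq_one fun l hl => ?_]
  · simp [twoSite, hij]
  · simp only [Finset.mem_erase] at hl
    simp [twoSite, hl.1, hl.2.1]

theorem exists_rooms [NeZero k] (h : (k = 2 ∧ 4 ≤ t) ∨ (k = 4 ∧ 2 ≤ t)) (i : Fin t) :
    ∃ r : Fin 3 → Fin t → Fin k, ∀ a b, a ≠ b → ∃ j, j ≠ i ∧ r a j ≠ r b j := by
  classical
  rcases h with ⟨rfl, ht⟩ | ⟨rfl, ht⟩
  · obtain ⟨j, hj⟩ := Fintype.exists_ne_of_one_lt_card (α := Fin t) (by simp; omega) i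
    obtain ⟨l, hl⟩ : ∃ l, l ∉ ({i, j} : Finset (Fin t)) := by
      by_contra hno
      push Not at hno
      have := (Finset.card_le_card (fun x _ => hno x : Finset.univ ⊆ ({i, j} : Finset (Fin t)))).trans
        Finset.card_le_two
      simp at this
      omega
    simp only [Finset.mem_insert, Finset.mem_singleton, not_or] at hl
    refine ⟨![fun _ => 0, Function.update (fun _ => 0) j 1, Function.update (fun _ => 0) l 1], fun a b hab => ?_⟩
    fin_cases a <;> fin_cases b <;>
      first
      | exact absurd rfl hab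
      | (refine ⟨j, hj, ?_⟩; simp [Ne.symm hl.2]; done)
      | (refine ⟨l, hl.1, ?_⟩; simp [hl.2]; done)
  · obtain ⟨j, hj⟩ := Fintype.exists_ne_of_one_lt_card (α := Fin t) (by simp; omega) i
    refine ⟨fun a => Function.update (fun _ => 0) j ⟨a.val, by omega⟩, fun a b hab => ⟨j, hj, ?_⟩⟩
    simpa [Fin.ext_iff] using hab

theorem exists_minor {M : Matrix (Fin k) (Fin k) F} (h : ∀ s : F, M ≠ s • 1) :
    ∃ (v : Fin k → F) (p r : Fin k), v p * (M *ᵥ v) r - (M *ᵥ v) p * v r ≠ 0 := by
  classical
  by_contra hno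
  push Not at hno
  have hoff : ∀ p r, p ≠ r → M r p = 0 := fun p r hpr => by
    simpa [Matrix.mulVec_single_one, Pi.single_eq_of_ne hpr.symm] using hno (Pi.single p 1) p r
  have hdiag : ∀ p r, M p p = M r r := by
    intro p r
    by_cases hpr : p = r
    · rw [hpr]
    have hp : (M *ᵥ (Pi.single p 1 + Pi.single r 1)) p = M p p := by
      simp [Matrix.mulVec_add, Matrix.mulVec_single_one, hoff r p (Ne.symm hpr)]
    have hr : (M *ᵥ (Pi.single p 1 + Pi.single r 1)) r = M r r := by
      simp [Matrix.mulVec_add, Matrix.mulVec_single_one, hoff p r hpr]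
    have := hno (Pi.single p 1 + Pi.single r 1) p r
    rw [hp, hr] at this
    simp [hpr, Ne.symm hpr] at this
    linear_combination -this
  rcases Nat.eq_zero_or_pos k with rfl | hk
  · exact h 0 (Matrix.ext fun i => i.elim0)
  refine h (M ⟨0, hk⟩ ⟨0, hk⟩) (Matrix.ext fun p r => ?_)
  by_cases hpr : p = r
  · subst hpr; simp [hdiag p ⟨0, hk⟩]
  · simp [hpr, hoff r p (Ne.symm hpr)]

theorem tensor_power_between [Fintype F] {Q : (ι → F) → F} (hQ : IsNondegenerateQuadraticForm Q)
    (hn : 13 ≤ Fintype.card ι) (h2 : (2 : F) = 0) (hcase : (k = 2 ∧ 4 ≤ t) ∨ (k = 4 ∧ 2 ≤ t))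
    (e : ι ≃ (Fin t → Fin k)) (P : GL ι F) {f₁ : (Fin k → F) → (Fin k → F) → F}
    (hf₁ : IsSymplecticForm f₁) (hT : IsTensorPowerFormStructure id (QuadraticMap.polar Q) f₁ e P)
    (hpure : ∀ y : Fin t → Fin k → F, Q (powVec e P (pureVec y)) = 0)
    {E D : Matrix (Fin k) (Fin k) F} (hdata : SiteData (gramMatrix f₁) E D) :
    ∃ K : Subgroup (GL ι F), tensorWreathSubgroup k t e P ⊓ omegaGL Q < K ∧ K < omegaGL Q := by
  classical
  haveI : NeZero k := ⟨by omega⟩
  have ht : 2 ≤ t := by omega
  obtain ⟨c₀, hc₀, hform⟩ := hT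
  set Qf := toQF hQ with hQf
  set G := gramMatrix f₁ with hG
  obtain ⟨hGu, hGskew, hGd⟩ := symplecticForm_gram hf₁
  have hneg : ∀ x : F, -x = x := fun x => by linear_combination -x * h2
  have hGT : Gᵀ = G := by rw [hGskew]; ext i j; exact hneg _
  set φ := powAlg e P
  set ψ := powVec e P
  set GG : Matrix (Fin t → Fin k) (Fin t → Fin k) F := pureMat (fun _ : Fin t => G) with hGG
  have hpolar : ∀ x y, polar Qf (ψ x) (ψ y) = c₀ * (x ⬝ᵥ (GG *ᵥ y)) := by
    intro x y
    show QuadraticMap.polar Q _ _ = _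
    rw [powVec_apply, powVec_apply, hform]
    congr 1
    simp only [dotProduct, Matrix.mulVec, Finset.mul_sum, id_eq]
    exact Finset.sum_congr rfl fun a _ => Finset.sum_congr rfl fun b _ => by
      show x a * (∏ i, G (a i) (b i)) * y b = x a * ((∏ i, G (a i) (b i)) * y b)
      ring
  have hf₁G : ∀ u v, f₁ u v = u ⬝ᵥ (G *ᵥ v) := fun u v => by
    rw [bilinearForm_eq_formOf hf₁.bilinear]; rfl
  have hpp : ∀ y y', polar Qf (ψ (pureVec y)) (ψ (pureVec y')) = c₀ * ∏ i, f₁ (y i) (y' i) := by
    intro y y'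
    rw [hpolar, hGG, pureMat_mulVec]
    congr 1
    simp only [hf₁G, pureVec, dotProduct, ← Finset.prod_mul_distrib]
    exact (Fintype.prod_sum fun i (a : Fin k) => y i a * (G *ᵥ y' i) a).symm
  -- elements preserving the structure are isometries
  have hlift : ∀ M, Mᵀ * GG * M = GG → (∀ x, Qf (ψ (M *ᵥ Pi.single x 1)) = 0) →
      ∃ a : OQ Qf, (oqToGL Qf a : Matrix ι ι F) = φ M := by
    intro M hM hcol
    have hpM : ∀ x y, polar Qf (ψ (M *ᵥ x)) (ψ (M *ᵥ y)) = polar Qf (ψ x) (ψ y) := fun x y => by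
      rw [hpolar, hpolar, Matrix.mulVec_mulVec, ← Matrix.vecMul_transpose, ← Matrix.dotProduct_mulVec,
        Matrix.mulVec_mulVec, ← mul_assoc, hM]
    have hQM : ∀ x, Qf (ψ (M *ᵥ x)) = Qf (ψ x) := by
      intro x
      refine sub_eq_zero.1 (eq_zero_of_additive_basis (D := fun x => Qf (ψ (M *ᵥ x)) - Qf (ψ x))
        (fun x y => ?_) (fun c x => ?_) (fun z => ?_) x)
      · show Qf _ - Qf _ = _
        rw [Matrix.mulVec_add, ψ.map_add, ψ.map_add, qf_add, qf_add, hpM]
        ring
      · show Qf _ - Qf _ = _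
        rw [Matrix.mulVec_smul, ψ.map_smul, ψ.map_smul, QuadraticMap.map_smul, QuadraticMap.map_smul]
        simp only [smul_eq_mul]; ring
      · show Qf _ - Qf _ = _
        rw [hcol z, single_eq_pureVec, show Qf (ψ (pureVec _)) = 0 from hpure _, sub_zero]
    let L : (ι → F) →ₗ[F] (ι → F) := Matrix.toLin' (φ M)
    have hLQ : ∀ v, Qf (L v) = Qf v := fun v => by
      obtain ⟨x, rfl⟩ := powVec_surjective e P v
      rw [Matrix.toLin'_apply, powAlg_mulVec]
      exact hQM x
    have hinj : Function.Injective L := by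
      rw [← LinearMap.ker_eq_bot, LinearMap.ker_eq_bot']
      intro v hv
      obtain ⟨x, rfl⟩ := powVec_surjective e P v
      rw [Matrix.toLin'_apply, powAlg_mulVec] at hv
      refine bNondeg_toQF hQ _ fun w => ?_
      obtain ⟨y, rfl⟩ := powVec_surjective e P w
      rw [← hpM, show ψ (M *ᵥ x) = 0 from hv, polar_zero_left]
    refine ⟨⟨LinearEquiv.ofInjectiveEndo L hinj, hLQ⟩, Matrix.ext_of_mulVec_single fun i => ?_⟩
    rw [oqToGL_mulVec]
    rfl
  -- the space
  set S : Set (Matrix ι ι F) := {Z | ∃ i X, IsSiteElem G X ∧ Z = φ (site i X)}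
  set L := Submodule.span F S
  have hgenS : ∀ i X, IsSiteElem G X → φ (site i X) ∈ L := fun i X h => Submodule.subset_span ⟨i, X, h, rfl⟩
  have hmemX : ∀ (g : GL ι F) (M : Matrix (Fin t → Fin k) (Fin t → Fin k) F), (g : Matrix ι ι F) = φ M →
      (∀ i X, IsSiteElem G X → ∃ Z, φ Z ∈ L ∧ M * site i X = Z * M) → g ∈ spaceNormalizer L := by
    intro g M hg h
    refine mem_spaceNormalizer_of_gens ?_
    rintro _ ⟨i, X, hX, rfl⟩
    obtain ⟨Z, hZ, hMZ⟩ := h i X hX
    rw [hg, ← map_mul, hMZ, map_mul, ← hg, mul_assoc, Units.mul_inv, mul_one]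
    exact hZ
  -- distinguished sites
  set i₀ : Fin t := ⟨0, by omega⟩
  set i₁ : Fin t := ⟨1, by omega⟩
  have hi : i₀ ≠ i₁ := by simp [i₀, i₁, Fin.ext_iff]
  set z₀ : Fin k := 0
  obtain ⟨hE2, hEsym, hEalt⟩ := hdata.elem
  have hE1 : ∀ s : F, E ≠ s • 1 := fun s hs => by
    apply hdata.nonscalar 0
    have hs0 : s = 0 := by
      have h' := congrFun (congrFun hE2 z₀) z₀
      simpa [hs] using h'
    rw [hs, hs0]
    simp
  set N : Matrix (Fin k) (Fin k) F → Matrix (Fin t → Fin k) (Fin t → Fin k) F := fun A =>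
    site i₀ A * site i₁ E with hN
  have hNN : ∀ A B, N A * N B = 0 := fun A B => by
    simp only [hN]
    rw [mul_assoc, ← mul_assoc (site i₁ E), site_comm hi.symm, mul_assoc, site_mul i₁, hE2, site_zero,
      mul_zero, mul_zero]
  set M := (1 : Matrix (Fin t → Fin k) (Fin t → Fin k) F) + N E with hM
  have hMM : M * M = 1 := by
    rw [hM, add_mul, mul_add, mul_add, hNN, one_mul, one_mul, mul_one, add_zero, add_assoc,
      ← two_smul F (N E), h2, zero_smul, add_zero]
  have hNE : N E = pureMat (Function.update (Function.update 1 i₀ E) i₁ E) := by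
    simp only [hN, site]
    rw [pureMat_mul]
    congr 1
    funext l
    by_cases h0 : l = i₀
    · subst h0; simp [hi]
    by_cases h1 : l = i₁
    · subst h1; simp [Ne.symm hi]
    · simp [h0, h1]
  have hGN : (N E)ᵀ * GG = GG * N E := by
    rw [hNE, hGG, pureMat_transpose, pureMat_mul, pureMat_mul]
    congr 1
    funext l
    have hEG : Eᵀ * G = G * E := by rw [← hEsym, Matrix.transpose_mul, hGT]
    by_cases h1 : l = i₁
    · subst h1; simp [hEG]
    by_cases h0 : l = i₀
    · subst h0; simp [h1, hEG]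
    · simp [h0, h1]
  obtain ⟨a, ha⟩ := hlift M (by
      rw [hM, Matrix.transpose_add, Matrix.transpose_one, add_mul, one_mul, hGN, add_mul, mul_add, mul_add,
        mul_one, mul_one, mul_assoc GG, hNN, mul_zero, add_zero, add_assoc, ← two_smul F (GG * N E), h2,
        zero_smul, add_zero])
    (fun x => by
      rw [hM, Matrix.add_mulVec, Matrix.one_mulVec, map_add, qf_add, hNE, pureMat_mulVec_single,
        single_eq_pureVec, show Qf (ψ (pureVec _)) = 0 from hpure _,
        show Qf (ψ (pureVec _)) = 0 from hpure _, hpp, zero_add, zero_add]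
      refine mul_eq_zero_of_right _ ?_
      rcases hcase with ⟨rfl, h4⟩ | ⟨rfl, -⟩
      · obtain ⟨l, hl0, hl1⟩ : ∃ l : Fin t, l ≠ i₀ ∧ l ≠ i₁ :=
          ⟨⟨2, by omega⟩, by simp [i₀, Fin.ext_iff], by simp [i₁, Fin.ext_iff]⟩
        refine Finset.prod_eq_zero (Finset.mem_univ l) ?_
        simp [hl0, hl1, Matrix.one_apply, ← Pi.single_apply, hf₁.alternating]
      · refine Finset.prod_eq_zero (Finset.mem_univ i₀) ?_
        simp only [Function.update_of_ne hi, Function.update_self]
        rw [hf₁G, show (fun l => E l (x i₀)) = E *ᵥ Pi.single (x i₀) 1 from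
          funext fun l => by simp, Matrix.mulVec_mulVec]
        exact hEalt rfl _)
  have haX : oqToGL Qf a ∈ spaceNormalizer L := by
    refine hmemX _ M ha fun i X hX => ?_
    obtain ⟨s, hs⟩ := hdata.anti X hX
    have hcase' : ∀ i' j', i' ≠ j' → N E = site i' E * site j' E → i = i' →
        ∃ Z, φ Z ∈ L ∧ M * site i X = Z * M := by
      intro i' j' hij hNij hii
      subst hii
      refine ⟨site i X + s • site j' E, by
        rw [map_add, map_smul]; exact L.add_mem (hgenS i X hX) (L.smul_mem _ (hgenS _ _ hdata.elem)), ?_⟩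
      have hES : site i E * site j' E * site i X = site i (E * X) * site j' E := by
        rw [mul_assoc, site_comm hij.symm, ← mul_assoc, site_mul]
      have hSE : site i X * (site i E * site j' E) = site i (X * E) * site j' E := by
        rw [← mul_assoc, site_mul]
      have hEE : site j' E * (site i E * site j' E) = 0 := by
        rw [← mul_assoc, site_comm hij.symm, mul_assoc, site_mul, hE2, site_zero, mul_zero]
      have key : site i (E * X) * site j' E + site i (X * E) * site j' E = s • site j' E := by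
        rw [← add_mul, ← site_add, hs, site_smul, site_one, Matrix.smul_mul, one_mul]
      have hdouble : site i (X * E) * site j' E + site i (X * E) * site j' E = 0 := by
        rw [← two_smul F (site i (X * E) * site j' E), h2, zero_smul]
      rw [hM, hNij, add_mul, one_mul, hES, mul_add, mul_one, add_mul, hSE, Matrix.smul_mul, hEE, smul_zero,
        add_zero, ← key]
      calc site i X + site i (E * X) * site j' E
          = site i X + site i (E * X) * site j' E + (site i (X * E) * site j' E + site i (X * E) * site j' E) := by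
            rw [hdouble, add_zero]
        _ = site i X + (site i (E * X) * site j' E + site i (X * E) * site j' E) + site i (X * E) * site j' E := by
            abel
    by_cases h0 : i = i₀
    · exact hcase' i₀ i₁ hi rfl h0
    by_cases h1 : i = i₁
    · exact hcase' i₁ i₀ hi.symm (site_comm hi E E) h1
    refine ⟨site i X, hgenS i X hX, ?_⟩
    rw [hM, add_mul, mul_add, one_mul, mul_one]
    congr 1
    simp only [hN]
    rw [mul_assoc, site_comm (Ne.symm h1), ← mul_assoc, site_comm (Ne.symm h0), mul_assoc]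
  -- the element acting on one site
  have hDD : D * D⁻¹ = 1 := Matrix.mul_nonsing_inv _ hdata.unit
  have hDD' : D⁻¹ * D = 1 := Matrix.nonsing_inv_mul _ hdata.unit
  obtain ⟨b, hb⟩ := hlift (site i₀ D) (by
      rw [site, hGG, pureMat_transpose, pureMat_mul, pureMat_mul]
      congr 1
      funext l
      by_cases h : l = i₀
      · subst h; simp [hdata.isom]
      · simp [h])
    (fun x => by rw [site, pureMat_mulVec_single]; exact hpure _)
  have hbinv : ((oqToGL Qf b)⁻¹ : GL ι F).val = φ (site i₀ D⁻¹) := Units.inv_eq_of_mul_eq_one_right (by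
    rw [hb, ← map_mul, site_mul, hDD, site_one, map_one])
  have hbX : oqToGL Qf b ∈ spaceNormalizer L := by
    refine hmemX _ _ hb fun i X hX => ?_
    by_cases h0 : i = i₀
    · subst h0
      refine ⟨site i₀ (D * X * D⁻¹), hgenS _ _ (hX.conj one_ne_zero (by rw [one_smul]; exact hdata.isom) hdata.unit), ?_⟩
      rw [site_mul, site_mul, mul_assoc, hDD', mul_one]
    · exact ⟨site i X, hgenS i X hX, site_comm (Ne.symm h0) _ _⟩
  set g : OQ Qf := ⁅b, a⁆
  have hainv : a⁻¹ = a := by
    refine inv_eq_of_mul_eq_one_right (oqToGL_injective Qf (Units.ext ?_))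
    rw [map_mul, Units.val_mul, ha, ← map_mul, hMM, map_one, map_one, Units.val_one]
  have hgval : (oqToGL Qf g : Matrix ι ι F) = φ (1 + N (D * E * D⁻¹ + E)) := by
    have h1 : site i₀ D * M * site i₀ D⁻¹ = 1 + N (D * E * D⁻¹) := by
      simp only [hM, hN]
      rw [mul_add, mul_one, add_mul, site_mul, hDD, site_one, ← mul_assoc (site i₀ D), site_mul,
        mul_assoc (site i₀ (D * E)), site_comm hi.symm, ← mul_assoc, site_mul]
    have h3 : (1 + N (D * E * D⁻¹)) * M = 1 + N (D * E * D⁻¹ + E) := by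
      rw [hM, add_mul, mul_add, mul_add, hNN, one_mul, one_mul, mul_one, add_zero]
      simp only [hN, site_add, add_mul]
      abel
    simp only [g, commutatorElement_def, map_mul, map_inv, Units.val_mul, hb, hbinv]
    rw [← map_inv (oqToGL Qf) a, hainv, ha, ← map_mul, ← map_mul, ← map_mul, h1, h3]
  -- the wreath member normalises the space
  suffices ∃ K, tensorWreathSubgroup k t e P ⊓ omegaGL ⇑Qf < K ∧ K < omegaGL ⇑Qf by
    rwa [hQf, coe_toQF] at this
  refine exists_between_omega (X := spaceNormalizer L) ?_ ?_ ?_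
  · intro x _ hx
    obtain ⟨gs, π, hM'⟩ := mem_wreath_powAlg hx
    set M' := pureMat gs * factorPerm (F := F) k π
    have hM'G : M'ᵀ * GG * M' = GG := by
      refine Matrix.ext fun p q => ?_
      have h := OQ_polar x (ψ (Pi.single p 1)) (ψ (Pi.single q 1))
      rw [← oqToGL_mulVec, ← oqToGL_mulVec, hM', powAlg_mulVec, powAlg_mulVec, hpolar, hpolar] at h
      have h' := mul_left_cancel₀ hc₀ h
      rw [Matrix.mulVec_mulVec, ← Matrix.vecMul_transpose, ← Matrix.dotProduct_mulVec, Matrix.mulVec_mulVec,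
        ← mul_assoc] at h'
      simpa [Matrix.mulVec_single_one, single_dotProduct] using h'
    have hpure' : pureMat (fun i => (gs (π i))ᵀ * G * gs (π i)) = (1 : F) • pureMat fun _ : Fin t => G := by
      have h1 : adjForm (RingEquiv.refl F) (pureMat fun i => (gs i)ᵀ * G * gs i) (factorPerm k π) =
          pureMat fun i => (gs (π i))ᵀ * G * gs (π i) := adjForm_factorPerm _ _ _
      have hid : ∀ X : Matrix (Fin t → Fin k) (Fin t → Fin k) F, X.map (RingEquiv.refl F) = X := fun X => by
        ext; rfl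
      rw [one_smul, ← hGG, ← hM'G, ← h1, adjForm, hid]
      simp only [M', hGG, Matrix.transpose_mul, pureMat_transpose]
      rw [show (fun i => (gs i)ᵀ * G * gs i) = fun i => ((fun i => (gs i)ᵀ * G) i) * gs i from rfl,
        ← pureMat_mul, ← pureMat_mul]
      simp only [mul_assoc]
    have hG0 : G ≠ 0 := fun h0 => hGu.ne_zero h0
    have hμ : ∀ i, ∃ μ : F, μ ≠ 0 ∧ (gs i)ᵀ * G * gs i = μ • G := fun i => by
      obtain ⟨μ, hμ, h⟩ := pureMat_eq_smul_pureMat hpure' one_ne_zero (fun _ => hG0) (π.symm i)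
      exact ⟨μ, hμ, by simpa using h⟩
    have hgdet : ∀ i, IsUnit (gs i).det := fun i => by
      obtain ⟨μ, hμ0, h⟩ := hμ i
      have hd := congrArg Matrix.det h
      rw [Matrix.det_mul, Matrix.det_mul, Matrix.det_smul] at hd
      refine isUnit_iff_ne_zero.2 fun h0 => ?_
      rw [h0, mul_zero] at hd
      exact mul_ne_zero (pow_ne_zero _ hμ0) ((Matrix.isUnit_iff_isUnit_det _).1 hGu).ne_zero hd.symm
    let cs : Fin t → GL (Fin k) F := fun i => (gs i).nonsingInvUnit (hgdet i)
    have hcs : ∀ i, (cs i : Matrix (Fin k) (Fin k) F) = gs i := fun i => rfl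
    refine hmemX _ M' hM' fun i X hX => ?_
    obtain ⟨μ, hμ0, hμ'⟩ := hμ (π i)
    refine ⟨site (π i) (gs (π i) * X * (gs (π i))⁻¹), hgenS _ _ (hX.conj hμ0 hμ' (hgdet _)), ?_⟩
    have := pureMat_update_mul cs π i X
    simp only [hcs] at this
    rw [show ((cs (π i))⁻¹ : GL (Fin k) F).val = (gs (π i))⁻¹ by
      rw [Matrix.coe_units_inv]; rfl] at this
    exact this
  · refine ⟨g, Subgroup.commutator_mem_commutator (Subgroup.mem_top _) (Subgroup.mem_top _), ?_, ?_⟩
    · simp only [g, commutatorElement_def, map_mul, map_inv]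
      exact mul_mem (mul_mem (mul_mem hbX haX) (inv_mem hbX)) (inv_mem haX)
    intro hS
    obtain ⟨gs, π, hg'⟩ := mem_wreath_powAlg hS
    rw [hgval] at hg'
    have hMeq := φ.injective hg'
    set A := D * E * D⁻¹ + E
    obtain ⟨v₀, p, r, hv₀⟩ := exists_minor hdata.nonscalar
    obtain ⟨v₁, p', r', hv₁⟩ := exists_minor hE1
    set y := twoSite i₀ i₁ z₀ v₀ v₁
    have hper : factorPerm k π *ᵥ pureVec y = pureVec (fun i => y (π.symm i)) := by
      ext x
      simp only [Matrix.mulVec, dotProduct, factorPerm, ite_mul, one_mul, zero_mul, Finset.sum_ite_eq',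
        Finset.mem_univ, if_true, pureVec]
      rw [← Equiv.prod_comp π fun i => y (π.symm i) (x i)]
      simp
    have heq : pureVec y + pureVec (twoSite i₀ i₁ z₀ (A *ᵥ v₀) (E *ᵥ v₁)) =
        pureVec (fun i => gs i *ᵥ y (π.symm i)) := by
      rw [← pureMat_mulVec, ← hper, Matrix.mulVec_mulVec, ← hMeq, Matrix.add_mulVec 1 (N A), Matrix.one_mulVec]
      simp only [hN, ← Matrix.mulVec_mulVec, site_mulVec]
      congr 2
      funext l
      by_cases h1 : l = i₁
      · subst h1; simp [y, twoSite, Ne.symm hi, hi]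
      by_cases h0 : l = i₀
      · subst h0; simp [y, twoSite, hi]
      · simp [y, twoSite, h0, h1]
    set w := fun i => gs i *ᵥ y (π.symm i)
    have hat : ∀ p r, v₀ p * v₁ r + (A *ᵥ v₀) p * (E *ᵥ v₁) r =
        w i₀ p * (w i₁ r * ∏ l ∈ (Finset.univ.erase i₀).erase i₁, w l z₀) := by
      intro p r
      have := congrFun heq (Function.update (Function.update (fun _ => z₀) i₀ p) i₁ r)
      rw [Pi.add_apply, twoSite_apply hi, twoSite_apply hi] at this
      rw [this, pureVec, ← Finset.mul_prod_erase Finset.univ _ (Finset.mem_univ i₀),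
        ← Finset.mul_prod_erase (Finset.univ.erase i₀) _ (Finset.mem_erase.2 ⟨hi.symm, Finset.mem_univ i₁⟩)]
      simp only [Function.update_self, Function.update_of_ne hi]
      refine congrArg _ (congrArg _ (Finset.prod_congr rfl fun l hl => ?_))
      simp only [Finset.mem_erase] at hl
      simp [hl.1, hl.2.1]
    have h11 := hat p p'
    have h22 := hat r r'
    have h12 := hat p r'
    have h21 := hat r p'
    apply mul_ne_zero hv₀ hv₁
    have hrank : (v₀ p * v₁ p' + (A *ᵥ v₀) p * (E *ᵥ v₁) p') * (v₀ r * v₁ r' + (A *ᵥ v₀) r * (E *ᵥ v₁) r') =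
        (v₀ p * v₁ r' + (A *ᵥ v₀) p * (E *ᵥ v₁) r') * (v₀ r * v₁ p' + (A *ᵥ v₀) r * (E *ᵥ v₁) p') := by
      rw [h11, h22, h12, h21]; ring
    linear_combination hrank
  · -- Ω does not normalise the space
    have hn5 : 5 ≤ finrank F (ι → F) := by rw [Module.finrank_fintype_fun_eq_card]; omega
    obtain ⟨v, p₀, r₀, hv⟩ := exists_minor hE1
    have hEv : E *ᵥ v ≠ 0 := fun h0 => hv (by simp [h0])
    set l₁ : Fin k := ⟨1, by omega⟩
    set yu := Function.update (Function.update (fun _ => (Pi.single z₀ 1 : Fin k → F)) i₀ (E *ᵥ v)) i₁ (Pi.single z₀ 1)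
    set ya := Function.update (Function.update (fun _ => (Pi.single z₀ 1 : Fin k → F)) i₀ v) i₁ (Pi.single l₁ 1)
    set u := ψ (pureVec yu)
    set a' := ψ (pureVec ya)
    set Y := φ (site i₀ E)
    have hu : Qf u = 0 := hpure _
    have hQa : Qf a' = 0 := hpure _
    have hua : polar Qf u a' = 0 := by
      rw [hpp]
      refine mul_eq_zero_of_right _ ?_
      rcases hcase with ⟨rfl, h4⟩ | ⟨rfl, -⟩
      · obtain ⟨l, hl0, hl1⟩ : ∃ l : Fin t, l ≠ i₀ ∧ l ≠ i₁ :=
          ⟨⟨2, by omega⟩, by simp [i₀, Fin.ext_iff], by simp [i₁, Fin.ext_iff]⟩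
        refine Finset.prod_eq_zero (Finset.mem_univ l) ?_
        simp [yu, ya, hl0, hl1, hf₁.alternating]
      · refine Finset.prod_eq_zero (Finset.mem_univ i₀) ?_
        simp only [yu, ya, Function.update_of_ne hi, Function.update_self]
        rw [hf₁.skew, hneg, hf₁G, Matrix.mulVec_mulVec]
        exact hEalt rfl v
    have hGY : (site i₀ E)ᵀ * GG = GG * site i₀ E := by
      rw [site, hGG, pureMat_transpose, pureMat_mul, pureMat_mul]
      congr 1
      funext l
      have hEG : Eᵀ * G = G * E := by rw [← hEsym, Matrix.transpose_mul, hGT]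
      by_cases h0 : l = i₀
      · subst h0; simp [hEG]
      · simp [h0]
    have hYadj : ∀ x y, polar Qf (Y *ᵥ x) y = polar Qf x (Y *ᵥ y) := by
      intro x y
      obtain ⟨x, rfl⟩ := powVec_surjective e P x
      obtain ⟨y, rfl⟩ := powVec_surjective e P y
      rw [powAlg_mulVec, powAlg_mulVec, hpolar, hpolar, ← Matrix.vecMul_transpose, ← Matrix.dotProduct_mulVec,
        Matrix.mulVec_mulVec, hGY, ← Matrix.mulVec_mulVec]
    have hYu : Y *ᵥ u = 0 := by
      rw [powAlg_mulVec, site_mulVec,
        show pureVec (Function.update yu i₀ (E *ᵥ yu i₀)) = 0 from funext fun x =>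
          Finset.prod_eq_zero (Finset.mem_univ i₀) (by
            simp [yu, hi, Matrix.mulVec_mulVec, hE2]), map_zero]
    set ya' := Function.update ya i₀ (E *ᵥ v)
    have hYa : Y *ᵥ a' = ψ (pureVec ya') := by
      rw [powAlg_mulVec, site_mulVec]
      congr 2
    obtain ⟨p, hp⟩ : ∃ p, (E *ᵥ v) p ≠ 0 := Function.ne_iff.1 hEv
    have hl : l₁ ≠ z₀ := by simp [l₁, z₀, Fin.ext_iff]
    have hev : ∀ r, pureVec yu (Function.update (Function.update (fun _ => z₀) i₀ p) i₁ r) =
        (E *ᵥ v) p * (Pi.single z₀ 1 : Fin k → F) r := fun r => twoSite_apply hi _ _ _ _ _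
    have hev' : ∀ r, pureVec ya' (Function.update (Function.update (fun _ => z₀) i₀ p) i₁ r) =
        (E *ᵥ v) p * (Pi.single l₁ 1 : Fin k → F) r := fun r => by
      rw [show ya' = twoSite i₀ i₁ z₀ (E *ᵥ v) (Pi.single l₁ 1) from by
        simp only [ya', ya, twoSite]
        rw [Function.update_comm hi.symm, Function.update_idem]]
      exact twoSite_apply hi _ _ _ _ _
    have hind : ∀ c : F, u ≠ c • (Y *ᵥ a') := by
      intro c hc
      rw [hYa, ← map_smul] at hc
      have := congrFun (powVec_injective e P hc) (Function.update (Function.update (fun _ => z₀) i₀ p) i₁ z₀)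
      rw [Pi.smul_apply, hev, hev', Pi.single_eq_same, Pi.single_eq_of_ne hl.symm, mul_zero, smul_zero, mul_one] at this
      exact hp this
    have hB0 : BNondeg Qf := bNondeg_toQF hQ
    obtain ⟨v', hv1, hv2⟩ : ∃ v', polar Qf u v' = 0 ∧ polar Qf (Y *ᵥ a') v' = 1 := by
      obtain ⟨w, hw⟩ : ∃ w, polar Qf u w = 0 ∧ polar Qf (Y *ᵥ a') w ≠ 0 := by
        by_contra hno
        push Not at hno
        have hker : LinearMap.ker (polarBilin Qf u) ≤ LinearMap.ker (polarBilin Qf (Y *ᵥ a')) :=
          fun x hx => hno x hx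
        have hu0 : u ≠ 0 := fun h0 => hind 0 (by rw [h0, zero_smul])
        obtain ⟨z, hz⟩ : ∃ z, polar Qf u z ≠ 0 := by
          by_contra hz
          push Not at hz
          exact hu0 (hB0 u hz)
        have heq : Y *ᵥ a' = (polar Qf (Y *ᵥ a') z / polar Qf u z) • u := by
          refine sub_eq_zero.1 (hB0 _ fun x => ?_)
          have hx : x - (polar Qf u x / polar Qf u z) • z ∈ LinearMap.ker (polarBilin Qf u) := by
            show polar Qf u _ = 0
            rw [polar_sub_right, polar_smul_right, smul_eq_mul, div_mul_cancel₀ _ hz, sub_self]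
          have h2' : polar Qf (Y *ᵥ a') (x - (polar Qf u x / polar Qf u z) • z) = 0 := hker hx
          rw [polar_sub_right, polar_smul_right, smul_eq_mul] at h2'
          rw [polar_sub_left, polar_smul_left, smul_eq_mul]
          linear_combination h2'
        have hc : polar Qf (Y *ᵥ a') z / polar Qf u z ≠ 0 := by
          intro h0
          rw [h0, zero_smul] at heq
          rw [hYa] at heq
          have := congrFun (powVec_injective e P (heq.trans (map_zero ψ).symm))
            (Function.update (Function.update (fun _ => z₀) i₀ p) i₁ l₁)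
          rw [hev', Pi.single_eq_same, mul_one] at this
          exact hp this
        exact hind _ (eq_inv_smul_iff₀ hc |>.2 heq.symm)
      exact ⟨(polar Qf (Y *ᵥ a') w)⁻¹ • w, by rw [polar_smul_right, hw.1, smul_zero],
        by rw [polar_smul_right, smul_eq_mul, inv_mul_cancel₀ hw.2]⟩
    set s := siegel Qf hu hua
    refine ⟨s, siegel_mem_commutator hB0 hn5 hu hua, fun hX => ?_⟩
    have hYL : Y ∈ L := hgenS _ _ hdata.elem
    have hs : ∀ x, s.1 x = x + (polar Qf u x • a' - polar Qf a' x • u) := fun x => by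
      rw [siegel_apply, hQa, zero_mul, zero_smul, sub_zero]; abel
    set gs := oqToGL Qf s
    set Z := (gs : Matrix ι ι F) * Y * ((gs⁻¹ : GL ι F) : Matrix ι ι F) - Y
    have hZL : Z ∈ L := L.sub_mem ((hX Y).1 hYL) hYL
    have hnv : ∀ v : ι → F, -v = v := fun v => by
      funext i
      exact hneg _
    have hss : ∀ x, s.1 (s.1 x) = x := fun x => by
      have h1 : polar Qf u (s.1 x) = polar Qf u x := by
        rw [hs, polar_add_right, polar_sub_right, polar_smul_right, polar_smul_right, hua,
          OrthGen.polar_self_two, hu]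
        simp
      have h3 : polar Qf a' (s.1 x) = polar Qf a' x := by
        rw [hs, polar_add_right, polar_sub_right, polar_smul_right, polar_smul_right,
          polar_comm Qf a' u, hua, OrthGen.polar_self_two, hQa]
        simp
      rw [hs (s.1 x), h1, h3, hs, add_assoc, ← two_smul F (polar Qf u x • a' - polar Qf a' x • u), h2,
        zero_smul, add_zero]
    have hZ : ∀ x, Z *ᵥ x = polar Qf u x • (Y *ᵥ a') + polar Qf (Y *ᵥ a') x • u +
        (polar Qf u x * polar Qf a' (Y *ᵥ a')) • u := by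
      intro x
      have hinv : ((gs⁻¹ : GL ι F) : Matrix ι ι F) *ᵥ x = s.1 x := by
        conv_lhs => rw [← hss x, ← oqToGL_mulVec]
        rw [Matrix.mulVec_mulVec, Units.inv_mul, Matrix.one_mulVec]
      have hYs : Y *ᵥ s.1 x = Y *ᵥ x + polar Qf u x • (Y *ᵥ a') := by
        rw [hs, Matrix.mulVec_add, Matrix.mulVec_sub, Matrix.mulVec_smul, Matrix.mulVec_smul, hYu, smul_zero,
          sub_zero]
      have hu1 : polar Qf u (Y *ᵥ x) = 0 := by rw [← hYadj, hYu, polar_zero_left]
      have hu2 : polar Qf u (Y *ᵥ a') = 0 := by rw [← hYadj, hYu, polar_zero_left]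
      rw [Matrix.sub_mulVec, ← Matrix.mulVec_mulVec, ← Matrix.mulVec_mulVec, hinv, hYs, oqToGL_mulVec, map_add,
        map_smul, hs, hs, hu1, hu2, ← hYadj a' x, sub_eq_add_neg, sub_eq_add_neg, sub_eq_add_neg, hnv, hnv, hnv]
      simp only [zero_smul, smul_add, smul_smul, zero_add]
      rw [show Y *ᵥ x + polar Qf (Y *ᵥ a') x • u + (polar Qf u x • Y *ᵥ a' +
        (polar Qf u x * polar Qf a' (Y *ᵥ a')) • u) + Y *ᵥ x = (Y *ᵥ x + Y *ᵥ x) + (polar Qf u x • Y *ᵥ a' +
        polar Qf (Y *ᵥ a') x • u + (polar Qf u x * polar Qf a' (Y *ᵥ a')) • u) by abel,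
        ← two_smul F (Y *ᵥ x), h2, zero_smul, zero_add]
    obtain ⟨Z', hZ'S, hZ'⟩ : ∃ Z', Z' ∈ Submodule.span F {W | ∃ i X, W = site (F := F) i X} ∧ φ Z' = Z := by
      refine ⟨φ.symm Z, ?_, φ.apply_symm_apply Z⟩
      have : L.map φ.symm.toLinearMap ≤ Submodule.span F {W | ∃ i X, W = site (F := F) (k := k) i X} := by
        rw [Submodule.map_span, Submodule.span_le]
        rintro _ ⟨_, ⟨i, X, -, rfl⟩, rfl⟩
        exact Submodule.subset_span ⟨i, X, φ.symm_apply_apply _⟩
      exact this ⟨Z, hZL, rfl⟩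
    obtain ⟨h, hh⟩ := sum_sites_exists (fun W hW => hW) hZ'S
    refine three_le_of_sum_sites hh (fun h0 => ?_) (exists_rooms hcase)
      (u := Classical.choose (powVec_surjective e P u))
      (w := Classical.choose (powVec_surjective e P (Y *ᵥ a'))) fun x => ?_
    · have := hZ v'
      rw [← hZ', h0, map_zero, Matrix.zero_mulVec, hv1, hv2, zero_smul, one_smul, zero_mul, zero_smul, add_zero,
        zero_add] at this
      exact hind 0 (by rw [zero_smul]; exact this.symm)
    · set u' := Classical.choose (powVec_surjective e P u)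
      set w' := Classical.choose (powVec_surjective e P (Y *ᵥ a'))
      have hu' : ψ u' = u := Classical.choose_spec (powVec_surjective e P u)
      have hw' : ψ w' = Y *ᵥ a' := Classical.choose_spec (powVec_surjective e P (Y *ᵥ a'))
      have : ψ (Z' *ᵥ x) = ψ ((polar Qf (Y *ᵥ a') (ψ x) + polar Qf u (ψ x) * polar Qf a' (Y *ᵥ a')) • u' +
          polar Qf u (ψ x) • w') := by
        rw [← powAlg_mulVec, hZ', hZ, map_add, map_smul, map_smul, hu', hw', add_smul]
        abel
      rw [powVec_injective e P this]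
      exact Submodule.add_mem _ (Submodule.smul_mem _ _ (Submodule.subset_span ⟨0, rfl⟩))
        (Submodule.smul_mem _ _ (Submodule.subset_span ⟨1, rfl⟩))

end Cfsg.Agent.NotMax
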