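import Mathlib
import Cfsg.Agent.GeoClasses.Tensor
import Cfsg.Agent.GeoClasses.FormDecomp
import Cfsg.Agent.GeoClasses.QuadCharTwo
import Cfsg.Agent.GeoClasses.UnitWreathExc

/-!
Matrices acting on one site of a tensor power, and normalisers of spaces of matrices.
-/

set_option autoImplicit false
set_option linter.style.haveILetI false
set_option linter.unusedSectionVars false

namespace Cfsg.Agent.NotMax

open Matrix Module Cfsg.Geo Cfsg.Agent.GeoClasses
open scoped MatrixGroups Matrix

variable {F : Type*} [Field F] {k t : ℕ}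

/-- The action of a matrix on one tensor site. -/
def site (i : Fin t) (Y : Matrix (Fin k) (Fin k) F) : Matrix (Fin t → Fin k) (Fin t → Fin k) F :=
  pureMat (Function.update 1 i Y)

theorem site_mul (i : Fin t) (X Y : Matrix (Fin k) (Fin k) F) :
    site i X * site i Y = site i (X * Y) := by
  rw [site, site, site, pureMat_mul]
  congr 1
  funext j
  by_cases h : j = i
  · subst h; simp
  · simp [h]

theorem site_one (i : Fin t) : site i (1 : Matrix (Fin k) (Fin k) F) = 1 := by
  rw [site, show Function.update (1 : Fin t → Matrix (Fin k) (Fin k) F) i 1 = fun _ => 1 from by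
    funext j; by_cases h : j = i <;> simp [h]]
  exact pureMat_one k t

theorem site_comm {i j : Fin t} (h : i ≠ j) (X Y : Matrix (Fin k) (Fin k) F) :
    site i X * site j Y = site j Y * site i X := by
  rw [site, site, pureMat_mul, pureMat_mul]
  congr 1
  funext l
  by_cases hi : l = i
  · subst hi; simp [h]
  · simp [hi]

theorem prod_update_apply (i : Fin t) (Y : Matrix (Fin k) (Fin k) F) (x y : Fin t → Fin k) :
    site i Y x y = Y (x i) (y i) * ∏ j ∈ Finset.univ.erase i, (if x j = y j then (1 : F) else 0) := by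
  rw [site, pureMat, ← Finset.mul_prod_erase Finset.univ _ (Finset.mem_univ i), Function.update_self]
  congr 1
  refine Finset.prod_congr rfl fun j hj => ?_
  rw [Function.update_of_ne (Finset.ne_of_mem_erase hj), Pi.one_apply, Matrix.one_apply]

theorem site_add (i : Fin t) (X Y : Matrix (Fin k) (Fin k) F) : site i (X + Y) = site i X + site i Y := by
  ext x y
  rw [Matrix.add_apply, prod_update_apply, prod_update_apply, prod_update_apply, Matrix.add_apply, add_mul]

theorem site_smul (i : Fin t) (c : F) (Y : Matrix (Fin k) (Fin k) F) : site i (c • Y) = c • site i Y :=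
  pureMat_update_smul i c Y

theorem site_zero (i : Fin t) : site i (0 : Matrix (Fin k) (Fin k) F) = 0 := by
  have := site_smul i (0 : F) (0 : Matrix (Fin k) (Fin k) F)
  rwa [zero_smul, zero_smul] at this

theorem site_apply_of_ne {i : Fin t} (Y : Matrix (Fin k) (Fin k) F) {x y : Fin t → Fin k} {j : Fin t}
    (hj : j ≠ i) (h : x j ≠ y j) : site i Y x y = 0 := by
  rw [prod_update_apply, Finset.prod_eq_zero (Finset.mem_erase.2 ⟨hj, Finset.mem_univ j⟩)
    (if_neg h), mul_zero]

theorem site_apply_of_eq {i : Fin t} (Y : Matrix (Fin k) (Fin k) F) {x y : Fin t → Fin k}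
    (h : ∀ j, j ≠ i → x j = y j) : site i Y x y = Y (x i) (y i) := by
  rw [prod_update_apply, Finset.prod_eq_one fun j hj => by
    exact if_pos (h j (Finset.ne_of_mem_erase hj)), mul_one]

theorem pureMat_mulVec (Ys : Fin t → Matrix (Fin k) (Fin k) F) (y : Fin t → Fin k → F) :
    pureMat Ys *ᵥ pureVec y = pureVec fun i => Ys i *ᵥ y i := by
  ext x
  simp only [pureVec, Matrix.mulVec, dotProduct, pureMat, ← Finset.prod_mul_distrib]
  exact (Fintype.prod_sum fun i (l : Fin k) => Ys i (x i) l * y i l).symm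

theorem site_mulVec (i : Fin t) (Y : Matrix (Fin k) (Fin k) F) (y : Fin t → Fin k → F) :
    site i Y *ᵥ pureVec y = pureVec (Function.update y i (Y *ᵥ y i)) := by
  rw [site, pureMat_mulVec]
  congr 1
  funext j
  by_cases h : j = i
  · subst h; simp
  · simp [h]

theorem single_eq_pureVec (z : Fin t → Fin k) :
    (Pi.single z (1 : F) : (Fin t → Fin k) → F) = pureVec fun i => Pi.single (z i) 1 := by
  ext x
  by_cases h : x = z
  · subst h; simp [pureVec]
  · obtain ⟨i, hi⟩ := Function.ne_iff.1 h
    rw [Pi.single_eq_of_ne h]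
    exact (Finset.prod_eq_zero (Finset.mem_univ i) (by simp [hi])).symm

theorem pureMat_mulVec_single (Ys : Fin t → Matrix (Fin k) (Fin k) F) (z : Fin t → Fin k) :
    pureMat Ys *ᵥ Pi.single z 1 = pureVec fun i l => Ys i l (z i) := by
  ext x
  simp [pureVec, pureMat]

/-- A non-zero sum of site matrices has three columns which are independent. -/
theorem three_le_of_sum_sites [NeZero k] {Z : Matrix (Fin t → Fin k) (Fin t → Fin k) F}
    {h : Fin t → Matrix (Fin k) (Fin k) F} (hZ : Z = ∑ i, site i (h i)) (hne : Z ≠ 0)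
    (hroom : ∀ i : Fin t, ∃ r : Fin 3 → Fin t → Fin k, ∀ a b, a ≠ b → ∃ j, j ≠ i ∧ r a j ≠ r b j)
    {u w : (Fin t → Fin k) → F}
    (hr : ∀ v, Z *ᵥ v ∈ Submodule.span F (Set.range ![u, w])) : False := by
  classical
  have happ : ∀ x y, Z x y = ∑ i, site i (h i) x y := fun x y => by rw [hZ, Matrix.sum_apply]
  suffices hxy : ∃ (x y : Fin 3 → Fin t → Fin k), (∀ a b, a ≠ b → Z (x a) (y b) = 0) ∧
      ∀ a, Z (x a) (y a) ≠ 0 by
    obtain ⟨x, y, h0, h1⟩ := hxy
    have hli : LinearIndependent F fun b => Z *ᵥ Pi.single (y b) 1 := by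
      rw [Fintype.linearIndependent_iff]
      intro c hc a
      have := congrFun hc (x a)
      simp only [Finset.sum_apply, Pi.smul_apply, Matrix.mulVec_single_one, Matrix.col_apply, smul_eq_mul,
        Pi.zero_apply] at this
      rw [Finset.sum_eq_single a (fun b _ hb => by rw [h0 a b hb.symm, mul_zero]) (by simp)] at this
      exact (mul_eq_zero.1 this).resolve_right (h1 a)
    have h3 : finrank F (Submodule.span F (Set.range fun b => Z *ᵥ Pi.single (y b) 1)) = 3 :=
      (finrank_span_eq_card hli).trans (Fintype.card_fin 3)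
    have h2 := (Submodule.finrank_mono (Submodule.span_le.2 (by
      rintro _ ⟨b, rfl⟩; exact hr _) : Submodule.span F (Set.range fun b => Z *ᵥ Pi.single (y b) 1) ≤
        Submodule.span F (Set.range ![u, w]))).trans (finrank_range_le_card ![u, w])
    rw [h3, Fintype.card_fin] at h2
    omega
  have hfar : ∀ {i : Fin t} {x y : Fin t → Fin k} {j : Fin t}, j ≠ i → x j ≠ y j → x i ≠ y i →
      Z x y = 0 := by
    intro i x y j hji hj hi
    rw [happ]
    refine Finset.sum_eq_zero fun l _ => ?_
    by_cases hl : l = i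
    · exact site_apply_of_ne _ (hl ▸ hji) hj
    · exact site_apply_of_ne _ (Ne.symm hl) hi
  by_cases hoff : ∃ i a b, a ≠ b ∧ h i a b ≠ 0
  · obtain ⟨i, a, b, hab, hne'⟩ := hoff
    obtain ⟨r, hr'⟩ := hroom i
    refine ⟨fun s => Function.update (r s) i a, fun s => Function.update (r s) i b, fun s s' hs => ?_, fun s => ?_⟩
    · obtain ⟨j, hji, hj⟩ := hr' s s' hs
      exact hfar hji (by simpa [hji] using hj) (by simpa using hab)
    · rw [happ, Finset.sum_eq_single i (fun l _ hl => site_apply_of_ne _ (Ne.symm hl) (by simpa using hab))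
        (by simp), site_apply_of_eq _ (fun j hj => by simp [hj])]
      simpa using hne'
  push Not at hoff
  have hdiag : ∀ x y, x ≠ y → Z x y = 0 := by
    intro x y hxy
    rw [happ]
    refine Finset.sum_eq_zero fun i _ => ?_
    by_cases hx : ∀ j, j ≠ i → x j = y j
    · rw [site_apply_of_eq _ hx]
      refine hoff i _ _ fun e => hxy (funext fun j => ?_)
      by_cases hj : j = i
      · rw [hj, e]
      · exact hx j hj
    · push Not at hx
      obtain ⟨j, hj, hj'⟩ := hx
      exact site_apply_of_ne _ hj hj'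
  have hd : ∀ x, Z x x = ∑ i, h i (x i) (x i) := fun x => by
    rw [happ]
    exact Finset.sum_congr rfl fun i _ => site_apply_of_eq _ fun _ _ => rfl
  suffices hthree : ∃ x : Fin 3 → Fin t → Fin k, Function.Injective x ∧ ∀ a, Z (x a) (x a) ≠ 0 by
    obtain ⟨x, hx, hx'⟩ := hthree
    exact ⟨x, x, fun a b hab => hdiag _ _ (hx.ne hab), hx'⟩
  by_cases hvar : ∃ i a b, h i a a ≠ h i b b
  · obtain ⟨i, a, b, hab⟩ := hvar
    obtain ⟨r, hr'⟩ := hroom i
    have hpick : ∀ s, ∃ c, Z (Function.update (r s) i c) (Function.update (r s) i c) ≠ 0 := by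
      intro s
      by_contra hno
      push Not at hno
      have h1 := hno a
      have h2 := hno b
      rw [hd, ← Finset.add_sum_erase Finset.univ _ (Finset.mem_univ i), Function.update_self] at h1 h2
      rw [Finset.sum_congr rfl fun l hl => by rw [Function.update_of_ne (Finset.ne_of_mem_erase hl)]] at h1 h2
      exact hab (add_right_cancel (h1.trans h2.symm))
    choose c hc using hpick
    refine ⟨fun s => Function.update (r s) i (c s), fun s s' e => ?_, hc⟩
    by_contra hs
    obtain ⟨j, hji, hj⟩ := hr' s s' hs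
    exact hj (by simpa [hji] using congrFun e j)
  push Not at hvar
  obtain ⟨x₀, hx₀⟩ : ∃ x, Z x x ≠ 0 := by
    by_contra hno
    push Not at hno
    exact hne (Matrix.ext fun x y => by
      by_cases e : x = y
      · subst e; simpa using hno x
      · simpa using hdiag x y e)
  have hconst : ∀ x, Z x x = Z x₀ x₀ := fun x => by
    rw [hd, hd]
    exact Finset.sum_congr rfl fun i _ => hvar i _ _
  rcases Nat.eq_zero_or_pos t with rfl | ht
  · simp [hd] at hx₀
  obtain ⟨r, hr'⟩ := hroom ⟨0, ht⟩
  refine ⟨r, fun s s' e => ?_, fun s => by rw [hconst]; exact hx₀⟩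
  by_contra hs
  obtain ⟨j, -, hj⟩ := hr' s s' hs
  exact hj (by rw [e])

theorem sum_sites_exists {S : Set (Matrix (Fin t → Fin k) (Fin t → Fin k) F)}
    (hS : ∀ Z ∈ S, ∃ i Y, Z = site i Y) {Z : Matrix (Fin t → Fin k) (Fin t → Fin k) F}
    (hZ : Z ∈ Submodule.span F S) : ∃ h : Fin t → Matrix (Fin k) (Fin k) F, Z = ∑ i, site i (h i) := by
  classical
  induction hZ using Submodule.span_induction with
  | mem x hx =>
    obtain ⟨i, Y, rfl⟩ := hS x hx
    refine ⟨Function.update 0 i Y, ?_⟩
    rw [Finset.sum_eq_single i (fun j _ hj => by simp [hj, site_zero]) (by simp), Function.update_self]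
  | zero => exact ⟨0, by simp [site_zero]⟩
  | add x y _ _ hx hy =>
    obtain ⟨h, rfl⟩ := hx
    obtain ⟨h', rfl⟩ := hy
    exact ⟨h + h', by simp [site_add, Finset.sum_add_distrib]⟩
  | smul c x _ hx =>
    obtain ⟨h, rfl⟩ := hx
    exact ⟨c • h, by simp [site_smul, Finset.smul_sum]⟩

variable {ι : Type} [Fintype ι] [DecidableEq ι]

/-- The elements normalising a space of matrices. -/
def spaceNormalizer (L : Submodule F (Matrix ι ι F)) : Subgroup (GL ι F) where
  carrier := {g | ∀ Y : Matrix ι ι F, Y ∈ L ↔ (g : Matrix ι ι F) * Y * ((g⁻¹ : GL ι F) : Matrix ι ι F) ∈ L}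
  mul_mem' {a b} ha hb := by
    intro Y
    rw [hb Y, ha, Units.val_mul, _root_.mul_inv_rev, Units.val_mul]
    constructor <;> intro h <;> simpa [mul_assoc] using h
  one_mem' := by
    intro Y
    simp
  inv_mem' {a} ha := by
    intro Y
    have h := ha (((a⁻¹ : GL ι F) : Matrix ι ι F) * Y * (a : Matrix ι ι F))
    rw [inv_inv]
    rw [h]
    constructor <;> intro h' <;>
      simpa [mul_assoc, ← Units.val_mul] using h'

theorem mem_spaceNormalizer_of_gens {S : Set (Matrix ι ι F)} {g : GL ι F}
    (h : ∀ Y ∈ S, (g : Matrix ι ι F) * Y * ((g⁻¹ : GL ι F) : Matrix ι ι F) ∈ Submodule.span F S) :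
    g ∈ spaceNormalizer (Submodule.span F S) := by
  let c : Matrix ι ι F →ₗ[F] Matrix ι ι F :=
    (LinearMap.mulRight F ((g⁻¹ : GL ι F) : Matrix ι ι F)).comp (LinearMap.mulLeft F (g : Matrix ι ι F))
  have hinj : Function.Injective c := by
    intro a b hab
    have := congrArg (fun X => ((g⁻¹ : GL ι F) : Matrix ι ι F) * X * (g : Matrix ι ι F)) hab
    simpa [c, mul_assoc] using this
  set L := Submodule.span F S
  have hle : L.map c ≤ L := by
    rw [Submodule.map_span, Submodule.span_le]
    rintro _ ⟨Y, hY, rfl⟩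
    exact h Y hY
  have heq : L.map c = L := Submodule.eq_of_le_of_finrank_eq hle
    (Submodule.equivMapOfInjective c hinj L).finrank_eq.symm
  intro Y
  refine ⟨fun hY => hle ⟨Y, hY, rfl⟩, fun hY => ?_⟩
  rw [← heq] at hY
  obtain ⟨Y', hY', e⟩ := hY
  exact hinj e ▸ hY'

end Cfsg.Agent.NotMax
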