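import Mathlib
import Cfsg.Agent.ClassicalMax.Decomp
import Cfsg.Agent.ClassicalMax.FormProper

/-!
Tools for non-maximality of members of geometric classes: a strictly intermediate member, elements
outside decomposition stabilisers, coordinates.
-/

set_option autoImplicit false
set_option linter.style.haveILetI false

namespace Cfsg.Agent.NotMax

open Matrix Cfsg.Geo Module Cfsg.Agent.GeoClasses Cfsg.Agent.ClassicalMax
open scoped MatrixGroups Matrix

/-- `X ⊓ Ω` is strictly between `S ⊓ Ω` and `Ω`. -/
theorem exists_between {G : Type*} [Group G] {Ω S X : Subgroup G} (hle : S ⊓ Ω ≤ X)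
    (h1 : ∃ g, g ∈ X ∧ g ∈ Ω ∧ g ∉ S) (h2 : ¬ Ω ≤ X) : ∃ K, S ⊓ Ω < K ∧ K < Ω := by
  refine ⟨X ⊓ Ω, lt_of_le_not_ge (le_inf hle inf_le_right) fun h => ?_, lt_of_le_not_ge inf_le_right
    fun h => h2 (h.trans inf_le_left)⟩
  obtain ⟨g, hgX, hgΩ, hgS⟩ := h1
  exact hgS (h ⟨hgX, hgΩ⟩).1

variable {ι : Type} [Fintype ι] [DecidableEq ι] {F : Type*} [Field F]
variable {t m : ℕ} {D : Fin t → Submodule F (ι → F)} {b : Basis (Fin m × Fin t) F (ι → F)}

theorem isTransvec_transv (φ : (ι → F) →ₗ[F] F) (w : ι → F) (h : φ w = 0) :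
    IsTransvec (transv φ w h) φ w := ⟨h, fun u => transv_mulVec φ w h u⟩

/-- An image of a basis vector meeting two blocks excludes the element from the stabiliser. -/
theorem not_mem_of_two_blocks (hb : ∀ i, D i = Submodule.span F (Set.range fun k => b (k, i)))
    {g : GL ι F} (z p q : Fin m × Fin t) (hpq : p.2 ≠ q.2)
    (hp : b.equivFun ((g : Matrix ι ι F) *ᵥ b z) p ≠ 0)
    (hq : b.equivFun ((g : Matrix ι ι F) *ᵥ b z) q ≠ 0) : g ∉ decompositionStabilizer D := by
  classical
  intro hg
  obtain ⟨B⟩ := exists_blockData hb hg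
  have key : ∀ r, b.equivFun ((g : Matrix ι ι F) *ᵥ b z) r ≠ 0 → r.2 = B.perm z.2 := by
    intro r hr
    by_contra hne
    apply hr
    obtain ⟨i, hi⟩ := B.perm.surjective r.2
    have hiz : i ≠ z.2 := fun e => hne (by rw [← hi, e])
    rw [show r = (r.1, B.perm i) by rw [hi], B.repr_mulVec]
    refine Finset.sum_eq_zero fun k _ => ?_
    rw [Basis.equivFun_self, if_neg (fun e => hiz (congrArg Prod.snd e).symm), mul_zero]
  exact hpq ((key p hp).trans (key q hq).symm)

theorem mem_block_iff (hb : ∀ i, D i = Submodule.span F (Set.range fun k => b (k, i))) {i : Fin t}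
    {v : ι → F} : v ∈ D i ↔ ∀ r, r.2 ≠ i → b.equivFun v r = 0 := by
  classical
  constructor
  · intro hv
    rw [hb, Submodule.mem_span_range_iff_exists_fun] at hv
    obtain ⟨c, rfl⟩ := hv
    intro r hr
    simp only [map_sum, map_smul, Finset.sum_apply, Pi.smul_apply, Basis.equivFun_self, smul_eq_mul]
    exact Finset.sum_eq_zero fun k _ => by rw [if_neg (fun e => hr (congrArg Prod.snd e).symm), mul_zero]
  · intro h
    rw [← b.sum_equivFun v]
    refine Submodule.sum_mem _ fun r _ => ?_
    by_cases hr : r.2 = i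
    · refine Submodule.smul_mem _ _ ?_
      rw [hb]
      exact Submodule.subset_span ⟨r.1, by rw [← hr]⟩
    · rw [h r hr, zero_smul]
      exact zero_mem _

/-- With blocks of dimension at least two, a transvection in the stabiliser has its centre in one block. -/
theorem transvec_not_mem_of_two_blocks (hD : IsMDecomposition m D) (hm : 2 ≤ m)
    (hb : ∀ i, D i = Submodule.span F (Set.range fun k => b (k, i))) {g : GL ι F}
    {φ : (ι → F) →ₗ[F] F} {v : ι → F} (h : IsTransvec g φ v) (hφ : φ ≠ 0) (p q : Fin m × Fin t)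
    (hpq : p.2 ≠ q.2) (hp : b.equivFun v p ≠ 0) (hq : b.equivFun v q ≠ 0) :
    g ∉ decompositionStabilizer D := by
  intro hg
  obtain ⟨i, j, hv, hij⟩ := transvec_centre_mem_sup hD h hφ hg
  obtain rfl := hij hm
  rw [sup_idem, mem_block_iff hb] at hv
  by_cases hpi : p.2 = i
  · exact hq (hv q fun e => hpq (hpi.trans e.symm))
  · exact hp (hv p hpi)

/-- Positions among at least `n` indices. -/
theorem exists_injective_fin {t : ℕ} (n : ℕ) (h : n ≤ t) : ∃ j : Fin n → Fin t, Function.Injective j :=
  ⟨Fin.castLE h, Fin.castLE_injective h⟩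

theorem card_eq_mul (b : Basis (Fin m × Fin t) F (ι → F)) : Fintype.card ι = m * t := by
  have h := Module.finrank_eq_card_basis b
  rw [Module.finrank_fintype_fun_eq_card, Fintype.card_prod, Fintype.card_fin, Fintype.card_fin] at h
  exact h

theorem eq_zero_or_one_of_two [Fintype F] (h : Fintype.card F = 2) (a : F) : a = 0 ∨ a = 1 := by
  classical
  by_contra hc
  push Not at hc
  have : ({0, 1, a} : Finset F).card = 3 := by
    rw [Finset.card_insert_of_notMem (by simp [hc.1.symm]), Finset.card_pair hc.2.symm]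
  have := Finset.card_le_univ ({0, 1, a} : Finset F)
  omega

theorem two_eq_zero_of_even_card [Fintype F] (h : Even (Fintype.card F)) : (2 : F) = 0 := by
  have h2 : ringChar F = 2 := FiniteField.even_card_iff_char_two.mpr (Nat.even_iff.mp h)
  haveI : CharP F 2 := h2 ▸ ringChar.charP F
  exact CharTwo.two_eq_zero

theorem three_eq_zero_of_card [Fintype F] (h : Fintype.card F = 3) : (3 : F) = 0 := by
  have := Nat.cast_card_eq_zero F
  rw [h] at this
  simpa using this

end Cfsg.Agent.NotMax
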