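import Cfsg.Agent.NotMax.Frame

/-!
Plus planes over the fields with two and four elements: the vectors of value one span a lattice over the
field with two elements which is preserved by the stabiliser of the decomposition.
-/

set_option autoImplicit false
set_option linter.style.haveILetI false
set_option linter.unusedSectionVars false

namespace Cfsg.Agent.NotMax

open QuadraticMap Module Cfsg.Agent.Classical Cfsg.Agent.GeoClasses Cfsg.Geo Cfsg.Agent.DecompMax
open scoped MatrixGroups Matrix

variable {F : Type*} [Field F] [Fintype F] {ι : Type} [Fintype ι] [DecidableEq ι]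
variable {t k : ℕ} {D : Fin t → Submodule F (ι → F)}

/-- The additive group generated by the vectors of value one in the members. -/
def oneLattice (Q : (ι → F) → F) (D : Fin t → Submodule F (ι → F)) : AddSubgroup (ι → F) :=
  AddSubgroup.closure {v | ∃ i, v ∈ D i ∧ Q v = 1}

theorem lattice_between {Q : (ι → F) → F} (hQ : IsNondegenerateQuadraticForm Q)
    (hn : 13 ≤ Fintype.card ι) (hD : IsOrthogonalMDecomposition Q k D) (h2 : (2 : F) = 0) (ht : 4 ≤ t)
    (hpair : ∀ i, ∃ e f, e ∈ D i ∧ f ∈ D i ∧ Q e = 0 ∧ Q f = 0 ∧ polar Q e f = 1)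
    (A : AddSubgroup F) (hA : ∀ a ∈ A, a = 0 ∨ a = 1) (c : F) (hc : c ∉ A)
    (hval : ∀ i, ∀ v ∈ D i, ∀ w ∈ D i, Q v = 1 → Q w = 1 → polar Q v w ∈ A) :
    ∃ K, decompositionStabilizer D ⊓ omegaGL Q < K ∧ K < omegaGL Q := by
  classical
  let Qf := toQF hQ
  have hdec : IsOrthDec Qf k D := isOrthDec_toQF hQ (le_trans (by norm_num) hn) hD
  have hn5 : 5 ≤ finrank F (ι → F) := by rw [Module.finrank_fintype_fun_eq_card]; omega
  choose e f he hf hQe hQf hef using hpair
  have hQe' : ∀ i, Qf (e i) = 0 := hQe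
  have hex : ∀ i, ∃ w, w ∈ D i ∧ Qf w = 1 ∧ polar Qf w (e i) = 1 := fun i => by
    have hQf' : Qf (f i) = 0 := hQf i
    have hef' : polar Qf (e i) (f i) = 1 := hef i
    refine ⟨e i + f i, (D i).add_mem (he i) (hf i), ?_, ?_⟩
    · rw [qf_add, hQe', hQf', hef', zero_add, zero_add]
    · rw [polar_add_left, OrthGen.polar_self_two, hQe', polar_comm Qf (f i), hef', mul_zero, zero_add]
  choose w hw hQw hwe using hex
  have ho : ∀ i j, i ≠ j → ∀ x ∈ D i, ∀ y ∈ D j, polar Qf x y = 0 := hdec.orth
  have hgen : ∀ i, w i ∈ oneLattice Q D := fun i => AddSubgroup.subset_closure ⟨i, hw i, hQw i⟩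
  have hR : ∀ r ∈ oneLattice Q D, ∀ i, polar Qf r (w i) ∈ A := by
    intro r hr i
    induction hr using AddSubgroup.closure_induction with
    | mem x hx =>
      obtain ⟨j, hx, hQx⟩ := hx
      rcases eq_or_ne j i with rfl | hji
      · exact hval j x hx _ (hw j) hQx (hQw j)
      · rw [ho j i hji x hx _ (hw i)]; exact A.zero_mem
    | zero => rw [polar_zero_left]; exact A.zero_mem
    | add x y _ _ hx hy => rw [polar_add_left]; exact A.add_mem hx hy
    | neg x _ hx => rw [polar_neg_left]; exact A.neg_mem hx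
  have hmap : ∀ g : OQ Qf, (∀ i, ∀ v ∈ D i, Q v = 1 → g.1 v ∈ oneLattice Q D) →
      ∀ v ∈ oneLattice Q D, g.1 v ∈ oneLattice Q D := by
    intro g hg v hv
    induction hv using AddSubgroup.closure_induction with
    | mem x hx => obtain ⟨i, hx, hQx⟩ := hx; exact hg i x hx hQx
    | zero => rw [map_zero]; exact zero_mem _
    | add x y _ _ hx hy => rw [map_add]; exact add_mem hx hy
    | neg x _ hx => rw [map_neg]; exact neg_mem hx
  have hX : ∀ g : OQ Qf, oqToGL Qf g ∈ stabilizing (glToMat ι F) (oneLattice Q D : Set (ι → F)) ↔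
      ∀ v, v ∈ oneLattice Q D ↔ g.1 v ∈ oneLattice Q D := by
    intro g
    refine forall_congr' fun v => ?_
    show (_ ↔ (oqToGL Qf g : Matrix ι ι F) *ᵥ v ∈ oneLattice Q D) ↔ _
    rw [oqToGL_mulVec]
    rfl
  obtain ⟨j, hj⟩ := exists_injective_fin (t := t) 4 ht
  have hjn : ∀ a b : Fin 4, a ≠ b → j a ≠ j b := fun a b h e => h (hj e)
  refine exists_between_omega (Qf := Qf)
    (X := stabilizing (glToMat ι F) (oneLattice Q D : Set (ι → F))) ?_ ?_ ?_
  · intro g _ hg
    have key : ∀ g : OQ Qf, oqToGL Qf g ∈ decompositionStabilizer D →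
        ∀ v ∈ oneLattice Q D, g.1 v ∈ oneLattice Q D := by
      intro g hg
      obtain ⟨σ, hσ⟩ := oqToGL_mem_decomp_iff.1 hg
      exact hmap g fun i v hv hQv => AddSubgroup.subset_closure
        ⟨σ i, hσ i ▸ Submodule.mem_map_of_mem hv, (OQ_map_app g v).trans hQv⟩
    rw [hX]
    refine fun v => ⟨key g hg v, fun h => ?_⟩
    have := key g⁻¹ (by rw [map_inv]; exact inv_mem hg) _ h
    rwa [show g⁻¹.1 (g.1 v) = v from (g.1 : (ι → F) ≃ₗ[F] (ι → F)).symm_apply_apply v] at this
  · set u := w (j 0) + w (j 1) with hu_def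
    set a := w (j 2) + w (j 3) with ha_def
    have hww : ∀ p q : Fin 4, p ≠ q → polar Qf (w (j p)) (w (j q)) = 0 := fun p q h =>
      ho _ _ (hjn p q h) _ (hw _) _ (hw _)
    have hu : Qf u = 0 := by
      rw [qf_add, hQw, hQw, hww 0 1 (by decide)]; linear_combination h2
    have ha0 : Qf a = 0 := by
      rw [qf_add, hQw, hQw, hww 2 3 (by decide)]; linear_combination h2
    have hua : polar Qf u a = 0 := by
      rw [polar_add_left, polar_add_right, polar_add_right, hww 0 2 (by decide), hww 0 3 (by decide),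
        hww 1 2 (by decide), hww 1 3 (by decide), add_zero, add_zero]
    set s := siegel Qf hu hua
    have hs : ∀ v, s.1 v = v + (polar Qf u v • a - polar Qf a v • u) := fun v => by
      rw [siegel_apply, ha0, zero_mul, zero_smul, sub_zero]; abel
    refine ⟨s, siegel_mem_commutator hdec.bnd hn5 hu hua, ?_, ?_⟩
    · have hmem : ∀ v ∈ oneLattice Q D, s.1 v ∈ oneLattice Q D := by
        intro v hv
        have hsc : ∀ x ∈ A, ∀ y ∈ oneLattice Q D, x • y ∈ oneLattice Q D := by
          intro x hx y hy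
          rcases hA x hx with rfl | rfl
          · rw [zero_smul]; exact zero_mem _
          · rw [one_smul]; exact hy
        rw [hs]
        refine add_mem hv (sub_mem (hsc _ ?_ _ (add_mem (hgen _) (hgen _))) (hsc _ ?_ _ (add_mem (hgen _) (hgen _)))) <;>
          rw [polar_comm, polar_add_right] <;> exact A.add_mem (hR v hv _) (hR v hv _)
      rw [hX]
      refine fun v => ⟨hmem v, fun h => ?_⟩
      have hss : s.1 (s.1 v) = v := by
        rw [hs (s.1 v)]
        have h1 : polar Qf u (s.1 v) = polar Qf u v := by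
          rw [hs, polar_add_right, polar_sub_right, polar_smul_right, polar_smul_right, hua,
            OrthGen.polar_self_two, hu]
          simp
        have h3 : polar Qf a (s.1 v) = polar Qf a v := by
          rw [hs, polar_add_right, polar_sub_right, polar_smul_right, polar_smul_right,
            polar_comm Qf a u, hua, OrthGen.polar_self_two, ha0]
          simp
        rw [h1, h3, hs, add_assoc, ← two_smul F (polar Qf u v • a - polar Qf a v • u), h2, zero_smul, add_zero]
      exact hss ▸ hmem _ h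
    · intro hS
      obtain ⟨σ, hσ⟩ := oqToGL_mem_decomp_iff.1 hS
      have hse : s.1 (e (j 0)) = e (j 0) + a := by
        rw [hs, polar_add_left, hwe, ho _ _ (hjn 1 0 (by decide)) _ (hw _) _ (he _), add_zero, one_smul,
          polar_add_left, ho _ _ (hjn 2 0 (by decide)) _ (hw _) _ (he _),
          ho _ _ (hjn 3 0 (by decide)) _ (hw _) _ (he _), add_zero, zero_smul, sub_zero]
      have hm : s.1 (e (j 0)) ∈ D (σ (j 0)) := hσ (j 0) ▸ Submodule.mem_map_of_mem (he _)
      rw [hse] at hm
      obtain ⟨C⟩ := exists_components hdec.dec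
      have hz : ∀ p, σ (j 0) ≠ p → C.proj p (e (j 0) + a) = 0 := fun p hp => C.of_mem_ne hp hm
      have hp : ∀ p : Fin 4, p = 2 ∨ p = 3 → C.proj (j p) (e (j 0) + a) = w (j p) := by
        intro p hp
        rw [ha_def, map_add, map_add, C.of_mem_ne (hjn 0 p (by rintro rfl; simp at hp)) (he _)]
        rcases hp with rfl | rfl
        · rw [C.of_mem (hw _), C.of_mem_ne (hjn 3 2 (by decide)) (hw _), zero_add, add_zero]
        · rw [C.of_mem (hw _), C.of_mem_ne (hjn 2 3 (by decide)) (hw _), zero_add, zero_add]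
      have hw0 : ∀ i, w i ≠ 0 := fun i h => by
        have := hQw i; rw [h, QuadraticMap.map_zero] at this; exact zero_ne_one this
      by_cases h : σ (j 0) = j 2
      · exact hw0 _ ((hp 3 (Or.inr rfl)).symm.trans (hz _ (h ▸ hjn 2 3 (by decide))))
      · exact hw0 _ ((hp 2 (Or.inl rfl)).symm.trans (hz _ h))
  · set u := c • e (j 3)
    have hu : Qf u = 0 := by rw [QuadraticMap.map_smul, hQe', smul_zero]
    have hua : polar Qf u (e (j 2)) = 0 := by
      rw [polar_smul_left, ho _ _ (hjn 3 2 (by decide)) _ (he _) _ (he _), smul_zero]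
    refine ⟨siegel Qf hu hua, siegel_mem_commutator hdec.bnd hn5 hu hua, fun h => ?_⟩
    rw [hX] at h
    have h1 := (h (w (j 3))).1 (hgen _)
    have h2' : (siegel Qf hu hua).1 (w (j 3)) = w (j 3) + c • e (j 2) := by
      rw [siegel_apply, hQe', zero_mul, zero_smul, sub_zero, polar_smul_left, polar_comm Qf (e (j 3)),
        hwe, ho _ _ (hjn 2 3 (by decide)) _ (he _) _ (hw _), zero_smul, sub_zero, smul_eq_mul, mul_one]
    rw [h2'] at h1
    have h3 := sub_mem h1 (hgen (j 3))
    rw [add_sub_cancel_left] at h3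
    have h4 := hR _ h3 (j 2)
    rw [polar_smul_left, polar_comm Qf (e (j 2)), hwe, smul_eq_mul, mul_one] at h4
    exact hc h4

end Cfsg.Agent.NotMax

namespace Cfsg.Agent.NotMax

open QuadraticMap Module Cfsg.Agent.Classical Cfsg.Agent.GeoClasses Cfsg.Geo Cfsg.Agent.DecompMax
open scoped MatrixGroups

variable {F : Type*} [Field F] [Fintype F] {ι : Type} [Fintype ι] [DecidableEq ι]
variable {t : ℕ} {D : Fin t → Submodule F (ι → F)}

/-- Orthogonal decompositions into plus planes over the fields with two and four elements. -/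
theorem plus_planes_two_four {Q : (ι → F) → F} (hQ : IsNondegenerateQuadraticForm Q)
    (hn : 13 ≤ Fintype.card ι) (hD : IsOrthogonalMDecomposition Q 2 D)
    (hplus : ∀ i, IsPlusTypeOn Q (D i)) (hq : Fintype.card F = 2 ∨ Fintype.card F = 4) :
    ∃ K, decompositionStabilizer D ⊓ omegaGL Q < K ∧ K < omegaGL Q := by
  classical
  let Qf := toQF hQ
  have hdec : IsOrthDec Qf 2 D := isOrthDec_toQF hQ (le_trans (by norm_num) hn) hD
  have h2 : (2 : F) = 0 := two_eq_zero_of_even_card (by rcases hq with h | h <;> rw [h] <;> decide)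
  obtain ⟨b, -⟩ := ClassicalMax.exists_adapted_basis hdec.dec
  have hcard := card_eq_mul b
  have hpair : ∀ i, ∃ e f, e ∈ D i ∧ f ∈ D i ∧ Q e = 0 ∧ Q f = 0 ∧ polar Q e f = 1 := by
    intro i
    obtain ⟨U, hU, hUs, hUd⟩ := hplus i
    obtain ⟨e, he, he0⟩ := U.exists_mem_ne_zero_of_ne_bot (fun h => by
      rw [h, finrank_bot, hdec.dec.finrank_eq] at hUd; omega)
    obtain ⟨f, hf, hQf, hef⟩ := (hdec.nd i).exists_partner (hU he) he0 (hUs e he)
    exact ⟨e, f, hU he, hf, hUs e he, hQf, hef⟩
  have hval : ∀ i, ∀ v ∈ D i, ∀ w ∈ D i, Q v = 1 → Q w = 1 →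
      ∃ r : F, r ≠ 0 ∧ polar Q v w = r + r⁻¹ := by
    intro i v hv w hw hQv hQw
    obtain ⟨e, f, he, hf, hQe, hQf, hef⟩ := hpair i
    have hQe' : Qf e = 0 := hQe
    have hQf' : Qf f = 0 := hQf
    have hef' : polar Qf e f = 1 := hef
    have hsp : D i ≤ Submodule.span F (Set.range ![e, f]) :=
      (Submodule.eq_of_le_of_finrank_eq (Submodule.span_le.2 (by rintro _ ⟨l, rfl⟩; fin_cases l <;> assumption))
        (by rw [(ndOn_pair (Q := Qf) hef' (by rw [hQe', hQf']; simp)).2, hdec.dec.finrank_eq])).ge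
    have hco : ∀ x ∈ D i, ∃ p q : F, x = p • e + q • f := fun x hx => by
      obtain ⟨z, hz⟩ := (Submodule.mem_span_range_iff_exists_fun F).1 (hsp hx)
      exact ⟨z 0, z 1, by rw [← hz, Fin.sum_univ_two]; rfl⟩
    obtain ⟨p, q, rfl⟩ := hco v hv
    obtain ⟨p', q', rfl⟩ := hco w hw
    have hQ1 : ∀ x y : F, Qf (x • e + y • f) = x * y := fun x y => by
      rw [qf_add, QuadraticMap.map_smul, QuadraticMap.map_smul, polar_smul_left, polar_smul_right, hQe', hQf',
        hef']
      simp
    have h1 : p * q = 1 := (hQ1 p q).symm.trans hQv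
    have h1' : p' * q' = 1 := (hQ1 p' q').symm.trans hQw
    refine ⟨p * q', mul_ne_zero (left_ne_zero_of_mul_eq_one h1) (right_ne_zero_of_mul_eq_one h1'), ?_⟩
    show polar Qf _ _ = _
    rw [mul_inv, ← eq_inv_of_mul_eq_one_right h1, ← eq_inv_of_mul_eq_one_left h1', polar_add_left, polar_add_right,
      polar_add_right, polar_smul_left, polar_smul_left, polar_smul_left, polar_smul_left, polar_smul_right,
      polar_smul_right, polar_smul_right, polar_smul_right, OrthGen.polar_self_two, OrthGen.polar_self_two,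
      polar_comm Qf f e, hef', hQe', hQf']
    simp [mul_comm]
  rcases hq with hq | hq
  · refine lattice_between hQ hn hD h2 (by omega) hpair ⊥ (fun a ha => Or.inl (AddSubgroup.mem_bot.1 ha)) 1
      (fun h => one_ne_zero (AddSubgroup.mem_bot.1 h)) fun i v hv w hw hQv hQw => ?_
    obtain ⟨r, hr, he⟩ := hval i v hv w hw hQv hQw
    rw [AddSubgroup.mem_bot, he, (eq_zero_or_one_of_two hq r).resolve_left hr, inv_one]
    linear_combination h2
  · let A : AddSubgroup F :=
      { carrier := {x | x = 0 ∨ x = 1}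
        zero_mem' := Or.inl rfl
        add_mem' := by
          rintro x y (rfl | rfl) (rfl | rfl)
          exacts [Or.inl (add_zero _), Or.inr (zero_add _), Or.inr (add_zero _), Or.inl (by linear_combination h2)]
        neg_mem' := by
          rintro x (rfl | rfl)
          exacts [Or.inl neg_zero, Or.inr (by linear_combination -h2)] }
    obtain ⟨c, hc⟩ : ∃ c : F, c ∉ A := by
      by_contra h
      push Not at h
      have : (Finset.univ : Finset F) ⊆ {0, 1} := fun x _ => by simpa [A] using h x
      have := (Finset.card_le_card this).trans Finset.card_le_two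
      rw [Finset.card_univ] at this
      omega
    refine lattice_between hQ hn hD h2 (by omega) hpair A (fun a ha => ha) c hc
      fun i v hv w hw hQv hQw => ?_
    obtain ⟨r, hr, he⟩ := hval i v hv w hw hQv hQw
    have h3 : r * r * r = 1 := by
      have := FiniteField.pow_card_sub_one_eq_one r hr
      rw [hq] at this
      linear_combination this
    have hinv : r⁻¹ = r * r := inv_eq_of_mul_eq_one_right (by linear_combination h3)
    rw [he, hinv]
    have hid : (r + r * r) * (r + r * r - 1) = 0 := by linear_combination r * h3 + r ^ 3 * h2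
    rcases mul_eq_zero.1 hid with h | h
    · exact Or.inl h
    · exact Or.inr (sub_eq_zero.1 h)

end Cfsg.Agent.NotMax
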