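import Cfsg.Agent.NotMax.Frame

/-!
Plus spaces of dimension four over the field with two elements split uniquely into two minus planes.
-/

set_option autoImplicit false
set_option linter.style.haveILetI false
set_option linter.unusedSectionVars false

namespace Cfsg.Agent.NotMax

open QuadraticMap Module Cfsg.Agent.Classical Cfsg.Agent.GeoClasses Cfsg.Geo Cfsg.Agent.DecompMax
open scoped MatrixGroups commutatorElement

variable {F : Type*} [Field F] [Fintype F] {ι : Type} [Fintype ι] [DecidableEq ι]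
variable {t : ℕ} {D : Fin t → Submodule F (ι → F)}

/-- A plus space of dimension four over two elements has two orthogonal minus planes. -/
theorem exists_two_minus_planes {Q : QuadraticForm F (ι → F)} (h2 : (2 : F) = 0) {W : Submodule F (ι → F)}
    (hW : NdOn Q W) (hd : finrank F W = 4) {U : Submodule F (ι → F)} (hU : U ≤ W)
    (hUs : ∀ x ∈ U, Q x = 0) (hUd : finrank F U = 2) :
    ∃ v : Fin 2 × Fin 2 → ι → F, (∀ p, v p ∈ W) ∧ (∀ p, Q (v p) = 1) ∧
      ∀ p p', polar Q (v p) (v p') = if p.2 = p'.2 ∧ p.1 ≠ p'.1 then 1 else 0 := by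
  obtain ⟨x₁, hx₁, hx₁0⟩ := U.exists_mem_ne_zero_of_ne_bot (fun h => by
    rw [h, finrank_bot] at hUd; omega)
  obtain ⟨f₁, hf₁, hQf₁, h11⟩ := hW.exists_partner (hU hx₁) hx₁0 (hUs _ hx₁)
  obtain ⟨y, hy, hyx⟩ : ∃ y ∈ U, y ∉ Submodule.span F {x₁} := by
    by_contra hno
    push Not at hno
    have := Submodule.finrank_mono (show U ≤ Submodule.span F {x₁} from hno)
    rw [hUd, finrank_span_singleton hx₁0] at this
    omega
  set x₂ := y - polar Q y f₁ • x₁
  have hx₂ : x₂ ∈ U := U.sub_mem hy (U.smul_mem _ hx₁)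
  have hQx₁ := hUs _ hx₁
  have hQx₂ := hUs _ hx₂
  have hx12 : polar Q x₁ x₂ = 0 := Forms.polar_eq_zero_of_totallySingular hUs hx₁ hx₂
  have hx2f : polar Q x₂ f₁ = 0 := by
    rw [polar_sub_left, polar_smul_left, h11, smul_eq_mul, mul_one, sub_self]
  have hx₂0 : x₂ ≠ 0 := fun h => hyx (by
    rw [sub_eq_zero.1 h]; exact Submodule.smul_mem _ _ (Submodule.mem_span_singleton_self _))
  have hP := (ndOn_pair (Q := Q) h11 (by rw [hQx₁, hQf₁]; simp)).1
  have hPW : Submodule.span F (Set.range ![x₁, f₁]) ≤ W := Submodule.span_le.2 (by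
    rintro _ ⟨i, rfl⟩; fin_cases i <;> [exact hU hx₁; exact hf₁])
  have hW' := (hW.inf_perp hPW hP).1
  have hx₂W : x₂ ∈ W ⊓ OrthGen.perpSub Q (Submodule.span F (Set.range ![x₁, f₁])) := by
    refine ⟨hU hx₂, fun n hn => ?_⟩
    obtain ⟨c, rfl⟩ := (Submodule.mem_span_range_iff_exists_fun F).1 hn
    show polar Q (∑ i, c i • ![x₁, f₁] i) x₂ = 0
    rw [Fin.sum_univ_two, polar_add_left, polar_smul_left, polar_smul_left]
    simp [hx12, polar_comm Q f₁ x₂, hx2f]
  obtain ⟨f₂, hf₂, hQf₂, h22⟩ := hW'.exists_partner hx₂W hx₂0 hQx₂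
  have h1f2 : polar Q x₁ f₂ = 0 := hf₂.2 x₁ (Submodule.subset_span ⟨0, rfl⟩)
  have hf12 : polar Q f₁ f₂ = 0 := hf₂.2 f₁ (Submodule.subset_span ⟨1, rfl⟩)
  set a := x₁ + f₁
  set a' := x₂ + f₂
  have hax : polar Q a x₁ = 1 := by
    rw [polar_add_left, OrthGen.polar_self_two, hQx₁, polar_comm Q f₁, h11, mul_zero, zero_add]
  have hax' : polar Q a' x₂ = 1 := by
    rw [polar_add_left, OrthGen.polar_self_two, hQx₂, polar_comm Q f₂, h22, mul_zero, zero_add]
  have hax2 : polar Q a x₂ = 0 := by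
    rw [polar_add_left, hx12, polar_comm Q f₁, hx2f, add_zero]
  have ha'x : polar Q a' x₁ = 0 := by
    rw [polar_add_left, polar_comm Q x₂, hx12, polar_comm Q f₂, h1f2, add_zero]
  have haa : polar Q a a' = 0 := by
    rw [polar_add_right, hax2, polar_add_left, h1f2, hf12, add_zero, add_zero]
  have hQa : Q a = 1 := by rw [qf_add, hQx₁, hQf₁, h11, zero_add, zero_add]
  have hQa' : Q a' = 1 := by rw [qf_add, hQx₂, hQf₂, h22, zero_add, zero_add]
  have hQb : Q (x₁ + a') = 1 := by rw [qf_add, hQx₁, hQa', polar_comm, ha'x, zero_add, add_zero]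
  have hQb' : Q (x₂ + a) = 1 := by rw [qf_add, hQx₂, hQa, polar_comm, hax2, zero_add, add_zero]
  have hab : polar Q a (x₁ + a') = 1 := by rw [polar_add_right, hax, haa, add_zero]
  have hab' : polar Q a' (x₂ + a) = 1 := by rw [polar_add_right, hax', polar_comm Q a', haa, add_zero]
  have hself : ∀ z, polar Q z z = 0 := fun z => by rw [OrthGen.polar_self_two, h2, zero_mul]
  have ha_b' : polar Q a (x₂ + a) = 0 := by rw [polar_add_right, hax2, hself, add_zero]
  have hb_a' : polar Q (x₁ + a') a' = 0 := by rw [polar_add_left, polar_comm Q x₁, ha'x, hself, add_zero]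
  have hbb : polar Q (x₁ + a') (x₂ + a) = 0 := by
    rw [polar_add_left, polar_add_right, hab', hx12, polar_comm Q x₁, hax]
    linear_combination h2
  have haW : a ∈ W := W.add_mem (hU hx₁) hf₁
  have ha'W : a' ∈ W := W.add_mem (hU hx₂) hf₂.1
  refine ⟨fun p => ![![a, a'], ![x₁ + a', x₂ + a]] p.1 p.2, ?_, ?_, ?_⟩
  · rintro ⟨l, s⟩; fin_cases l <;> fin_cases s
    exacts [haW, ha'W, W.add_mem (hU hx₁) ha'W, W.add_mem (hU hx₂) haW]
  · rintro ⟨l, s⟩; fin_cases l <;> fin_cases s
    exacts [hQa, hQa', hQb, hQb']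
  · rintro ⟨l, s⟩ ⟨l', s'⟩
    fin_cases l <;> fin_cases s <;> fin_cases l' <;> fin_cases s' <;>
      simp [hself, hab, hab', haa, ha_b', hb_a', hbb, polar_comm Q (x₁ + a') a, polar_comm Q (x₂ + a) a',
        polar_comm Q a' a, polar_comm Q (x₂ + a) a, polar_comm Q a' (x₁ + a'), polar_comm Q (x₂ + a) (x₁ + a')]

/-- Permutations of planes with equal shapes are isometries. -/
theorem exists_perm_isometries {P : Type*} [Fintype P] [DecidableEq P] {Q : QuadraticForm F (ι → F)}
    (B : Basis (Fin 2 × P) F (ι → F))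
    (hsum : ∀ c : Fin 2 × P → F,
      Q (∑ x, c x • B x) = ∑ p, (c (0, p) ^ 2 + c (1, p) ^ 2 + c (0, p) * c (1, p))) :
    ∃ L : Equiv.Perm P →* OQ Q, ∀ π l p, (L π).1 (B (l, p)) = B (l, π p) := by
  classical
  let f : Equiv.Perm P → (ι → F) ≃ₗ[F] (ι → F) := fun π => B.equiv B ((Equiv.refl (Fin 2)).prodCongr π)
  have hf : ∀ π l p, f π (B (l, p)) = B (l, π p) := fun π l p => Basis.equiv_apply _ _ _ _
  have hQ : ∀ π z, Q (f π z) = Q z := by
    intro π z
    have h1 : f π z = ∑ x, B.equivFun z ((Equiv.refl (Fin 2)).prodCongr π.symm x) • B x := by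
      conv_lhs => rw [← B.sum_equivFun z, map_sum]
      refine Fintype.sum_equiv ((Equiv.refl (Fin 2)).prodCongr π) _ _ fun x => ?_
      obtain ⟨l, p⟩ := x
      rw [map_smul, hf]
      simp
    have h2 := hsum (fun x => B.equivFun z x)
    rw [B.sum_equivFun] at h2
    rw [h1, hsum, h2]
    exact Equiv.sum_comp π.symm fun p => B.equivFun z (0, p) ^ 2 + B.equivFun z (1, p) ^ 2 +
      B.equivFun z (0, p) * B.equivFun z (1, p)
  refine ⟨MonoidHom.mk' (fun π => ⟨f π, hQ π⟩) fun π π' => Subtype.ext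
    (LinearEquiv.toLinearMap_injective (B.ext ?_)), hf⟩
  rintro ⟨l, p⟩
  show f (π * π') (B (l, p)) = f π (f π' (B (l, p)))
  rw [hf, hf, hf]
  rfl

theorem four_planes_between {Q : (ι → F) → F} (hQ : IsNondegenerateQuadraticForm Q)
    (hn : 13 ≤ Fintype.card ι) (hD : IsOrthogonalMDecomposition Q 4 D)
    (hplus : ∀ i, IsPlusTypeOn Q (D i)) (hq : Fintype.card F = 2) :
    ∃ K, decompositionStabilizer D ⊓ omegaGL Q < K ∧ K < omegaGL Q := by
  classical
  let Qf := toQF hQ
  have hdec : IsOrthDec Qf 4 D := isOrthDec_toQF hQ (le_trans (by norm_num) hn) hD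
  have h2 : (2 : F) = 0 := two_eq_zero_of_even_card (by rw [hq]; decide)
  obtain ⟨b₀, -⟩ := ClassicalMax.exists_adapted_basis hdec.dec
  have hcard := card_eq_mul b₀
  have hW : ∀ i, ∃ v : Fin 2 × Fin 2 → ι → F, (∀ p, v p ∈ D i) ∧ (∀ p, Qf (v p) = 1) ∧
      ∀ p p', polar Qf (v p) (v p') = if p.2 = p'.2 ∧ p.1 ≠ p'.1 then 1 else 0 := by
    intro i
    obtain ⟨U, hU, hUs, hUd⟩ := hplus i
    exact exists_two_minus_planes h2 (hdec.nd i) (hdec.dec.finrank_eq i) hU hUs
      (by rw [hdec.dec.finrank_eq] at hUd; omega)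
  choose w hwD hwQ hwP using hW
  obtain ⟨v, hvw⟩ : ∃ v : Fin 2 × (Fin 2 × Fin t) → ι → F, ∀ x, v x = w x.2.2 (x.1, x.2.1) :=
    ⟨_, fun _ => rfl⟩
  have hvD : ∀ x, v x ∈ D x.2.2 := fun x => by rw [hvw]; exact hwD _ _
  have hvQ : ∀ x, Qf (v x) = 1 := fun x => by rw [hvw]; exact hwQ _ _
  have hvP : ∀ x y, polar Qf (v x) (v y) = if x.2 = y.2 ∧ x.1 ≠ y.1 then 1 else 0 := by
    rintro ⟨l, s, i⟩ ⟨l', s', i'⟩
    rcases eq_or_ne i i' with rfl | hii
    · rw [hvw, hvw, hwP]
      simp
    · rw [hdec.orth i i' hii _ (hvD (l, s, i)) _ (hvD (l', s', i'))]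
      simp [hii]
  have hli : LinearIndependent F v := by
    rw [Fintype.linearIndependent_iff]
    rintro c hc ⟨l, p⟩
    have h1 := congrArg (fun z => polar Qf z (v (l + 1, p))) hc
    simp only [polar_sum_left, polar_smul_left, polar_zero_left, hvP] at h1
    rw [Finset.sum_eq_single (l, p) (fun y _ hy => ?_) (by simp)] at h1
    · have hl : l ≠ l + 1 := by fin_cases l <;> decide
      simpa [hl] using h1
    · obtain ⟨l', p'⟩ := y
      have : ¬ (p' = p ∧ l' ≠ l + 1) := by
        rintro ⟨rfl, hl'⟩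
        exact hy (by fin_cases l <;> fin_cases l' <;> simp_all)
      simp only [if_neg this, smul_zero]
  haveI : Nonempty (Fin t) := ⟨⟨0, by omega⟩⟩
  let B : Basis (Fin 2 × (Fin 2 × Fin t)) F (ι → F) := basisOfLinearIndependentOfCardEqFinrank hli (by
    simp only [Fintype.card_prod, Fintype.card_fin, Module.finrank_fintype_fun_eq_card]; omega)
  have hB : ∀ x, B x = v x := fun x => by simp [B]
  have hQsum : ∀ c : Fin 2 × (Fin 2 × Fin t) → F,
      Qf (∑ x, c x • v x) = ∑ p, (c (0, p) ^ 2 + c (1, p) ^ 2 + c (0, p) * c (1, p)) := by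
    intro c
    rw [Fintype.sum_prod_type_right, qf_sum_orth Qf]
    · refine Finset.sum_congr rfl fun p _ => ?_
      rw [Fin.sum_univ_two, qf_add, QuadraticMap.map_smul, QuadraticMap.map_smul, polar_smul_left,
        polar_smul_right, hvQ, hvQ, hvP]
      simp [pow_two]
    · intro p p' hne
      simp only [Fin.sum_univ_two, polar_add_left, polar_add_right, polar_smul_left, polar_smul_right, hvP]
      simp [hne]
  -- the planes
  let E : Fin (2 * t) ≃ Fin 2 × Fin t := finProdFinEquiv.symm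
  let D' : Fin (2 * t) → Submodule F (ι → F) := fun j => Submodule.span F (Set.range fun l => v (l, E j))
  have hD' : IsMDecomposition 2 D' := by
    refine ⟨by omega, two_pos, fun j => ?_, ?_, eq_top_iff.2 ?_⟩
    · exact (finrank_span_eq_card (hli.comp (fun l => (l, E j)) fun a a' h => congrArg Prod.fst h)).trans
        (Fintype.card_fin 2)
    · rw [iSupIndep_def]
      intro j
      have : (⨆ i, ⨆ (_ : i ≠ j), D' i) ≤ Submodule.span F (v '' {x | x.2 ≠ E j}) := by
        refine iSup₂_le fun i hi => Submodule.span_le.2 ?_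
        rintro _ ⟨l, rfl⟩
        exact Submodule.subset_span ⟨(l, E i), E.injective.ne hi, rfl⟩
      refine Disjoint.mono_right this ?_
      refine Disjoint.mono_left ?_ (hli.disjoint_span_image (s := {x | x.2 = E j})
        (Set.disjoint_left.2 fun x hx hx' => hx' hx))
      refine Submodule.span_le.2 ?_
      rintro _ ⟨l, rfl⟩
      exact Submodule.subset_span ⟨(l, E j), rfl, rfl⟩
    · rw [← B.span_eq, Submodule.span_le]
      rintro _ ⟨⟨l, p⟩, rfl⟩
      refine Submodule.mem_iSup_of_mem (E.symm p) ?_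
      rw [hB]
      exact Submodule.subset_span ⟨l, by simp only [Equiv.apply_symm_apply]⟩
  have hto : ∀ g : OQ Qf, (∀ p, ∃ q, ∀ l, g.1 (v (l, p)) ∈ D' q) →
      oqToGL Qf g ∈ decompositionStabilizer D' := by
    intro g hg
    refine mem_decSub_of_forall hD' fun j x hx => ?_
    obtain ⟨q, hq'⟩ := hg (E j)
    refine ⟨q, ?_⟩
    obtain ⟨c, rfl⟩ := (Submodule.mem_span_range_iff_exists_fun F).1 hx
    rw [map_sum]
    exact Submodule.sum_mem _ fun l _ => by rw [map_smul]; exact Submodule.smul_mem _ _ (hq' l)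
  have hvmem : ∀ l p, v (l, p) ∈ D' (E.symm p) := fun l p =>
    Submodule.subset_span ⟨l, by simp only [Equiv.apply_symm_apply]⟩
  refine exists_between_omega (Qf := Qf) (X := decompositionStabilizer D') ?_ ?_ ?_
  · intro g _ hgS
    obtain ⟨σ, hσ⟩ := oqToGL_mem_decomp_iff.1 hgS
    have hone : ∀ x, ∃ p, g.1 (v x) ∈ D' (E.symm p) := by
      intro x
      have him : g.1 (v x) ∈ D (σ x.2.2) := hσ x.2.2 ▸ Submodule.mem_map_of_mem (hvD x)
      set i := σ x.2.2
      obtain ⟨C⟩ := exists_components hdec.dec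
      set z := g.1 (v x)
      have hz : z = ∑ y, (if y.2.2 = i then B.equivFun z y else 0) • v y := by
        conv_lhs => rw [← C.of_mem him, ← B.sum_equivFun z, map_sum]
        refine Finset.sum_congr rfl fun y _ => ?_
        rw [map_smul, hB]
        split_ifs with hy
        · rw [C.of_mem (hy ▸ hvD y)]
        · rw [C.of_mem_ne hy (hvD y), smul_zero, zero_smul]
      have hQz : Qf z = 1 := (OQ_map_app g (v x)).trans (hvQ x)
      set c : Fin 2 × (Fin 2 × Fin t) → F := fun y => if y.2.2 = i then B.equivFun z y else 0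
      rw [hz, hQsum] at hQz
      let m : Fin 2 × Fin t → F := fun p => c (0, p) ^ 2 + c (1, p) ^ 2 + c (0, p) * c (1, p)
      have hm0 : ∀ p : Fin 2 × Fin t, p.2 ≠ i → m p = 0 := fun p hp => by simp [m, c, hp]
      have hm1 : ∀ p, m p = 0 → c (0, p) = 0 ∧ c (1, p) = 0 := by
        intro p hp
        simp only [m] at hp
        rcases eq_zero_or_one_of_two hq (c (0, p)) with a | a <;>
          rcases eq_zero_or_one_of_two hq (c (1, p)) with b | b <;> simp [a, b] at hp ⊢
        exact one_ne_zero (by linear_combination hp - h2)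
      rw [Fintype.sum_prod_type, Fin.sum_univ_two] at hQz
      rw [Finset.sum_eq_single i (fun j _ hj => hm0 (0, j) hj) (by simp),
        Finset.sum_eq_single i (fun j _ hj => hm0 (1, j) hj) (by simp)] at hQz
      change m (0, i) + m (1, i) = 1 at hQz
      obtain ⟨s, hs⟩ : ∃ s : Fin 2, m (s, i) = 0 := by
        by_contra hno
        push Not at hno
        rw [(eq_zero_or_one_of_two hq _).resolve_left (hno 0), (eq_zero_or_one_of_two hq _).resolve_left (hno 1)] at hQz
        exact one_ne_zero (by linear_combination -hQz + h2)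
      refine ⟨(s + 1, i), ?_⟩
      rw [hz]
      refine Submodule.sum_mem _ fun y _ => ?_
      obtain ⟨l, p⟩ := y
      show c (l, p) • v (l, p) ∈ _
      rcases eq_or_ne p (s + 1, i) with rfl | hp
      · exact Submodule.smul_mem _ _ (hvmem l _)
      · have : c (l, p) = 0 := by
          by_cases hpi : p.2 = i
          · have : p = (s, i) := by
              obtain ⟨s', i'⟩ := p
              obtain rfl : i' = i := hpi
              have h2' : ∀ a b : Fin 2, a ≠ b + 1 → a = b := by decide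
              have : s' = s := h2' _ _ fun e => hp (by rw [e])
              rw [this]
            subst this
            obtain ⟨e0, e1⟩ := hm1 _ hs
            fin_cases l
            exacts [e0, e1]
          · simp [c, hpi]
        rw [this, zero_smul]
        exact zero_mem _
    refine hto g fun p => ?_
    obtain ⟨q₀, h0⟩ := hone (0, p)
    obtain ⟨q₁, h1⟩ := hone (1, p)
    have hqq : q₀ = q₁ := by
      by_contra hne'
      obtain ⟨c0, e0⟩ := (Submodule.mem_span_range_iff_exists_fun F).1 h0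
      obtain ⟨c1, e1⟩ := (Submodule.mem_span_range_iff_exists_fun F).1 h1
      have hP : polar Qf (g.1 (v (0, p))) (g.1 (v (1, p))) = 1 := by
        rw [OQ_polar, hvP]; simp
      rw [← e0, ← e1] at hP
      simp only [Fin.sum_univ_two, Equiv.apply_symm_apply, polar_add_left, polar_add_right, polar_smul_left,
        polar_smul_right, hvP] at hP
      simp [hne'] at hP
    refine ⟨E.symm q₀, fun l => ?_⟩
    fin_cases l
    exacts [h0, hqq ▸ h1]
  · obtain ⟨j, hj⟩ := exists_injective_fin (t := t) 3 (by omega)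
    let P : Fin 3 → Fin 2 × Fin t := fun a => (0, j a)
    obtain ⟨L, hL'⟩ := exists_perm_isometries (Q := Qf) B fun c => by simp only [hB]; exact hQsum c
    have hL : ∀ π l p, (L π).1 (v (l, p)) = v (l, π p) := fun π l p => by
      have := hL' π l p
      rwa [hB, hB] at this
    have hinv : ∀ π, (L π)⁻¹ = L π⁻¹ := fun π => (map_inv L π).symm
    let π₁ := Equiv.swap (P 0) (P 1)
    let π₂ := Equiv.swap (P 1) (P 2)
    let g : OQ Qf := ⁅L π₁, L π₂⁆
    have hg : ∀ l p, g.1 (v (l, p)) = v (l, π₁ (π₂ (π₁⁻¹ (π₂⁻¹ p)))) := by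
      intro l p
      simp only [g, commutatorElement_def, hinv, Subgroup.coe_mul, LinearEquiv.mul_apply, hL]
    refine ⟨g, Subgroup.commutator_mem_commutator (Subgroup.mem_top _) (Subgroup.mem_top _),
      hto g fun p => ⟨_, fun l => by rw [hg]; exact hvmem l _⟩, ?_⟩
    intro hS
    obtain ⟨σ, hσ⟩ := oqToGL_mem_decomp_iff.1 hS
    have hP : ∀ a b, a ≠ b → P a ≠ P b := fun a b h e => h (hj (congrArg Prod.snd e))
    have h1' : ∀ a, P a ≠ (1, j 2) := fun a e => by simp [P] at e
    have e1 : π₁ (π₂ (π₁⁻¹ (π₂⁻¹ (P 2)))) = P 1 := by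
      simp only [π₁, π₂, Equiv.swap_inv, Equiv.swap_apply_right, Equiv.swap_apply_of_ne_of_ne (hP 0 1 (by decide)) (hP 0 2 (by decide)),
        Equiv.swap_apply_left]
    have e2 : π₁ (π₂ (π₁⁻¹ (π₂⁻¹ (1, j 2)))) = (1, j 2) := by
      simp only [π₁, π₂, Equiv.swap_inv, Equiv.swap_apply_of_ne_of_ne (h1' _).symm (h1' _).symm]
    have m : ∀ x, x.2.2 = j 2 → g.1 (v x) ∈ D (σ (j 2)) := fun x hx => by
      rw [← hσ (j 2)]
      exact Submodule.mem_map_of_mem (hx ▸ hvD x)
    have hm1 : v (0, P 1) ∈ D (σ (j 2)) := by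
      have := m (0, P 2) rfl
      rwa [hg, e1] at this
    have hm2 : v (0, (1, j 2)) ∈ D (σ (j 2)) := by
      have := m (0, (1, j 2)) rfl
      rwa [hg, e2] at this
    obtain ⟨C⟩ := exists_components hdec.dec
    have key : ∀ x, v x ∈ D (σ (j 2)) → x.2.2 = σ (j 2) := fun x hx => by
      by_contra hx2
      exact hli.ne_zero x ((C.of_mem hx).symm.trans (C.of_mem_ne hx2 (hvD x)))
    have h12 : j 1 = j 2 := (key _ hm1).trans (key _ hm2).symm
    exact absurd (hj h12) (by decide)
  · have hnot := OrthMax.omega_not_le_decompositionStabilizer hdec.bnd (by omega) hD'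
    by_contra hno
    push Not at hno
    refine hnot fun g hg => ?_
    rw [← map_oqToGL_commutator] at hg
    obtain ⟨x, hx, rfl⟩ := hg
    exact hno x hx

end Cfsg.Agent.NotMax
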