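import Cfsg.Agent.NotMax.OrthBase
import Cfsg.Agent.DecompMax.OrthMat
import Cfsg.Agent.OrthMax.ProperBlocks
import Cfsg.Agent.Forms.Orthogonal

/-!
Orthogonal decompositions whose members carry a distinguished frame over a tiny field of odd order:
the stabiliser of the decomposition is properly contained in the stabiliser of the union of the frames.
-/

set_option autoImplicit false
set_option linter.style.haveILetI false
set_option linter.unusedSectionVars false

namespace Cfsg.Agent.NotMax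

open QuadraticMap Module Cfsg.Agent.Classical Cfsg.Agent.GeoClasses Cfsg.Geo Cfsg.Agent.DecompMax
open scoped MatrixGroups

variable {F : Type*} [Field F] [Fintype F] {ι : Type} [Fintype ι] [DecidableEq ι]
variable {t k : ℕ} {D : Fin t → Submodule F (ι → F)}

theorem polar_sum_left {V : Type*} [AddCommGroup V] [Module F V] (Q : QuadraticForm F V) {κ : Type*}
    (s : Finset κ) (v : κ → V) (w : V) : polar Q (∑ a ∈ s, v a) w = ∑ a ∈ s, polar Q (v a) w := by
  rw [← polarBilin_apply_apply, map_sum, LinearMap.sum_apply]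
  rfl

theorem qf_sum_orth {V : Type*} [AddCommGroup V] [Module F V] (Q : QuadraticForm F V) {κ : Type*}
    (s : Finset κ) (v : κ → V) (h : ∀ a b, a ≠ b → polar Q (v a) (v b) = 0) :
    Q (∑ a ∈ s, v a) = ∑ a ∈ s, Q (v a) := by
  classical
  induction s using Finset.induction with
  | empty => simp
  | insert a s ha ih =>
    rw [Finset.sum_insert ha, Finset.sum_insert ha, qf_add, ih, polar_comm, polar_sum_left,
      Finset.sum_eq_zero fun b hb => h b a (fun e => ha (e ▸ hb)), add_zero]

/-- Orthogonal vectors with non-zero values in odd characteristic are independent. -/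
theorem linearIndependent_of_orth {V : Type*} [AddCommGroup V] [Module F V] (Q : QuadraticForm F V)
    (h2 : (2 : F) ≠ 0) {κ : Type*} (v : κ → V) (h : ∀ a b, a ≠ b → polar Q (v a) (v b) = 0)
    (h0 : ∀ a, Q (v a) ≠ 0) : LinearIndependent F v := by
  classical
  rw [linearIndependent_iff']
  intro s c hc a ha
  have h1 := congrArg (fun x => polar Q x (v a)) hc
  simp only [polar_sum_left, polar_smul_left, polar_zero_left] at h1
  rw [Finset.sum_eq_single_of_mem a ha fun b _ hb => by rw [h b a hb, smul_zero],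
    OrthGen.polar_self_two, smul_eq_mul, mul_eq_zero] at h1
  exact h1.resolve_right (mul_ne_zero h2 (h0 a))

/-- The reflection in the difference of two orthogonal vectors of equal value. -/
theorem refl_sub_apply {V : Type*} [AddCommGroup V] [Module F V] (Q : QuadraticForm F V) {x y : V}
    (hQ : Q y = Q x) (hxy : polar Q x y = 0) (h : Q (x - y) ≠ 0) :
    (reflQ Q (x - y) h).1 x = y ∧ (reflQ Q (x - y) h).1 y = x ∧
      ∀ z, polar Q x z = 0 → polar Q y z = 0 → (reflQ Q (x - y) h).1 z = z := by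
  have hv : Q (x - y) = 2 * Q x := by rw [qf_sub, hQ, hxy, sub_zero, two_mul]
  refine ⟨?_, ?_, fun z hz hz' => ?_⟩
  · rw [reflQ_apply, polar_sub_left, OrthGen.polar_self_two, polar_comm Q y x, hxy, sub_zero, hv,
      inv_mul_cancel₀ (hv ▸ h), one_smul, sub_sub_cancel]
  · rw [reflQ_apply, polar_sub_left, OrthGen.polar_self_two, hxy, zero_sub, hQ, hv, mul_neg,
      inv_mul_cancel₀ (hv ▸ h), neg_smul, one_smul, sub_neg_eq_add]
    abel
  · rw [reflQ_apply, polar_sub_left, hz, hz', sub_zero, mul_zero, zero_smul, sub_zero]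

/-- A decomposition whose members have a frame recognised by the values of its vectors. -/
theorem frame_between {Q : (ι → F) → F} (hQ : IsNondegenerateQuadraticForm Q)
    (hn : 13 ≤ Fintype.card ι) (hD : IsOrthogonalMDecomposition Q k D) (h2 : (2 : F) ≠ 0)
    (hk : 2 ≤ k) (ht : 3 ≤ t) (i₀ : Fin t) (f : Fin k → ι → F) (hfD : ∀ l, f l ∈ D i₀)
    (hf : ∀ a b, a ≠ b → polar Q (f a) (f b) = 0) (hf0 : ∀ l, Q (f l) ≠ 0)
    (huniq : ∀ (c : Fin k → F) (r : Fin k), ∑ l, c l ^ 2 * Q (f l) = Q (f r) →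
      ∃ l₀, ∀ l, l ≠ l₀ → c l = 0) :
    ∃ K, decompositionStabilizer D ⊓ omegaGL Q < K ∧ K < omegaGL Q := by
  classical
  let Qf := toQF hQ
  have hdec : IsOrthDec Qf k D := isOrthDec_toQF hQ (le_trans (by norm_num) hn) hD
  choose e he using fun i => hD.isometric i₀ i
  let v : Fin k × Fin t → ι → F := fun p => (e p.2 ⟨f p.1, hfD p.1⟩ : D p.2)
  have hvD : ∀ p, v p ∈ D p.2 := fun p => (e p.2 ⟨f p.1, hfD p.1⟩).2
  have hvQ : ∀ p, Qf (v p) = Q (f p.1) := fun p => he p.2 ⟨f p.1, hfD p.1⟩
  have horth : ∀ p p', p ≠ p' → polar Qf (v p) (v p') = 0 := by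
    rintro ⟨a, i⟩ ⟨b, j⟩ hne
    rcases eq_or_ne i j with rfl | hij
    · show polar Q (v (a, i)) (v (b, i)) = 0
      have : v (a, i) + v (b, i) = (e i (⟨f a, hfD a⟩ + ⟨f b, hfD b⟩) : D i) := by
        rw [map_add, Submodule.coe_add]
      have hsum : Q (v (a, i) + v (b, i)) = Q (f a + f b) := by rw [this]; exact he i _
      rw [QuadraticMap.polar, hsum, show Q (v (a, i)) = Q (f a) from hvQ (a, i),
        show Q (v (b, i)) = Q (f b) from hvQ (b, i)]
      exact hf a b fun e => hne (by rw [e])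
    · exact hdec.orth i j hij _ (hvD (a, i)) _ (hvD (b, j))
  have hv0 : ∀ p, Qf (v p) ≠ 0 := fun p => by rw [hvQ]; exact hf0 _
  have hvne : ∀ p, v p ≠ 0 := fun p h => hv0 p (by rw [h, QuadraticMap.map_zero])
  have hspan : ∀ i, D i ≤ Submodule.span F (Set.range fun l => v (l, i)) := fun i => by
    refine (Submodule.eq_of_le_of_finrank_eq ?_ ?_).ge
    · rw [Submodule.span_le]
      rintro _ ⟨l, rfl⟩
      exact hvD (l, i)
    · rw [finrank_span_eq_card (linearIndependent_of_orth Qf h2 _
        (fun a b h => horth _ _ (by simp [h])) fun l => hv0 _), Fintype.card_fin, hdec.dec.finrank_eq]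
  have hli : LinearIndependent F v := linearIndependent_of_orth Qf h2 v horth hv0
  let E : Fin (k * t) ≃ Fin k × Fin t := finProdFinEquiv.symm
  let D' : Fin (k * t) → Submodule F (ι → F) := fun j => F ∙ v (E j)
  have hD' : IsMDecomposition 1 D' := by
    refine ⟨by nlinarith, one_pos, fun j => finrank_span_singleton (hvne _),
      (hli.iSupIndep_span_singleton).comp E.injective, eq_top_iff.2 ?_⟩
    rw [← hdec.dec.iSup_eq_top, iSup_le_iff]
    intro i
    refine (hspan i).trans (Submodule.span_le.2 ?_)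
    rintro _ ⟨l, rfl⟩
    exact Submodule.mem_iSup_of_mem (E.symm (l, i))
      (by simp only [D', Equiv.apply_symm_apply]; exact Submodule.mem_span_singleton_self _)
  have hmem : ∀ p, ∀ (a : F), a • v p ∈ D' (E.symm p) := fun p a =>
    Submodule.smul_mem _ _ (by simp only [D', Equiv.apply_symm_apply]; exact Submodule.mem_span_singleton_self _)
  have hto : ∀ g : OQ Qf, (∀ p, ∃ (p' : Fin k × Fin t) (a : F), g.1 (v p) = a • v p') →
      oqToGL Qf g ∈ decompositionStabilizer D' := by
    intro g hg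
    refine mem_decSub_of_forall hD' fun j x hx => ?_
    obtain ⟨s, rfl⟩ := Submodule.mem_span_singleton.1 hx
    obtain ⟨p', a, hp'⟩ := hg (E j)
    exact ⟨E.symm p', by rw [map_smul, hp', smul_smul]; exact hmem _ _⟩
  refine exists_between_omega (Qf := Qf) (X := decompositionStabilizer D') ?_ ?_ ?_
  · intro g _ hgS
    obtain ⟨σ, hσ⟩ := oqToGL_mem_decomp_iff.1 hgS
    refine hto g fun p => ?_
    have him : g.1 (v p) ∈ D (σ p.2) := hσ p.2 ▸ Submodule.mem_map_of_mem (hvD p)
    obtain ⟨c, hc⟩ := (Submodule.mem_span_range_iff_exists_fun F).1 (hspan _ him)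
    have hQc : ∑ l, c l ^ 2 * Q (f l) = Q (f p.1) := by
      rw [← hvQ p, ← OQ_map_app g (v p), ← hc, qf_sum_orth Qf _ _ fun a b hab => by
        rw [polar_smul_left, polar_smul_right, horth _ _ (by simp [hab]), smul_zero, smul_zero]]
      refine Finset.sum_congr rfl fun l _ => ?_
      rw [QuadraticMap.map_smul, hvQ, smul_eq_mul, pow_two]
    obtain ⟨l₀, hl₀⟩ := huniq c p.1 hQc
    refine ⟨(l₀, σ p.2), c l₀, ?_⟩
    rw [← hc, Finset.sum_eq_single l₀ (fun l _ hl => by rw [hl₀ l hl, zero_smul]) (by simp)]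
  · obtain ⟨j, hj⟩ := exists_injective_fin (t := t) 3 ht
    let l0 : Fin k := ⟨0, by omega⟩
    let l1 : Fin k := ⟨1, by omega⟩
    let u : Fin 3 → Fin k × Fin t := fun s => (l0, j s)
    have hu : ∀ a b, a ≠ b → u a ≠ u b := fun a b h e => h (hj (congrArg Prod.snd e))
    have hq : ∀ a b : Fin 3, Qf (v (u b)) = Qf (v (u a)) := fun a b => by rw [hvQ, hvQ]
    have hne : ∀ a b : Fin 3, a ≠ b → Qf (v (u a) - v (u b)) ≠ 0 := fun a b h => by
      rw [qf_sub, hq a b, horth _ _ (hu a b h), sub_zero, ← two_mul]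
      exact mul_ne_zero h2 (hv0 _)
    let r : ∀ a b : Fin 3, a ≠ b → OQ Qf := fun a b h => reflQ Qf _ (hne a b h)
    have hr : ∀ a b (h : a ≠ b), oqToGL Qf (r a b h) ∈ decompositionStabilizer D' := by
      intro a b h
      obtain ⟨h1, h1', h1''⟩ := refl_sub_apply Qf (hq a b) (horth _ _ (hu a b h)) (hne a b h)
      refine hto _ fun p => ?_
      by_cases hpa : p = u a
      · exact ⟨u b, 1, by rw [hpa, one_smul]; exact h1⟩
      by_cases hpb : p = u b
      · exact ⟨u a, 1, by rw [hpb, one_smul]; exact h1'⟩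
      exact ⟨p, 1, by rw [one_smul]; exact h1'' _ (horth _ _ (Ne.symm hpa)) (horth _ _ (Ne.symm hpb))⟩
    refine ⟨r 0 1 (by decide) * r 1 2 (by decide), refl_pair_mem_commutator hdec _ _ ?_, ?_, ?_⟩
    · refine ⟨2 * Qf (v (u 0)), ?_⟩
      rw [qf_sub, qf_sub, hq 0 1, hq 0 2, horth _ _ (hu 0 1 (by decide)), horth _ _ (hu 1 2 (by decide))]
      ring
    · rw [map_mul]
      exact mul_mem (hr 0 1 (by decide)) (hr 1 2 (by decide))
    · intro hS
      obtain ⟨σ, hσ⟩ := oqToGL_mem_decomp_iff.1 hS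
      obtain ⟨h12, h21, h12'⟩ := refl_sub_apply Qf (hq 1 2) (horth _ _ (hu 1 2 (by decide)))
        (hne 1 2 (by decide))
      obtain ⟨h01, h10, h01'⟩ := refl_sub_apply Qf (hq 0 1) (horth _ _ (hu 0 1 (by decide)))
        (hne 0 1 (by decide))
      have hl : ∀ s, (l1, j 2) ≠ u s := fun s e => by
        have := congrArg Prod.fst e
        simp [u, l0, l1, Fin.ext_iff] at this
      have e1 : (r 0 1 (by decide) * r 1 2 (by decide)).1 (v (u 2)) = v (u 0) := by
        rw [Subgroup.coe_mul, LinearEquiv.mul_apply, h21]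
        exact h10
      have e2 : (r 0 1 (by decide) * r 1 2 (by decide)).1 (v (l1, j 2)) = v (l1, j 2) := by
        rw [Subgroup.coe_mul, LinearEquiv.mul_apply, h12' _ (horth _ _ (hl 1).symm) (horth _ _ (hl 2).symm)]
        exact h01' _ (horth _ _ (hl 0).symm) (horth _ _ (hl 1).symm)
      have hm1 : v (u 0) ∈ D (σ (j 2)) := e1 ▸ hσ (j 2) ▸ Submodule.mem_map_of_mem (hvD (u 2))
      have hm2 : v (l1, j 2) ∈ D (σ (j 2)) := e2 ▸ hσ (j 2) ▸ Submodule.mem_map_of_mem (hvD (l1, j 2))
      obtain ⟨C⟩ := exists_components hdec.dec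
      have key : ∀ p, v p ∈ D (σ (j 2)) → p.2 = σ (j 2) := fun p hp => by
        by_contra hp2
        exact hvne p ((C.of_mem hp).symm.trans (C.of_mem_ne hp2 (hvD p)))
      have h02 : j 0 = j 2 := (key _ hm1).trans (key _ hm2).symm
      exact absurd (hj h02) (by decide)
  · have hnot := OrthMax.omega_not_le_decompositionStabilizer hdec.bnd (by omega) hD'
    by_contra hno
    push Not at hno
    refine hnot fun g hg => ?_
    rw [← map_oqToGL_commutator] at hg
    obtain ⟨x, hx, rfl⟩ := hg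
    exact hno x hx

end Cfsg.Agent.NotMax
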