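import Cfsg.Agent.NotMax.Frame

/-!
The frames of the non-degenerate spaces of dimension two and three over the fields with three elements,
and of the plus planes over the field with five elements.
-/

set_option autoImplicit false
set_option linter.style.haveILetI false
set_option linter.unusedSectionVars false

namespace Cfsg.Agent.NotMax

open QuadraticMap Module Cfsg.Agent.Classical Cfsg.Agent.GeoClasses Cfsg.Geo Cfsg.Agent.DecompMax
open scoped MatrixGroups

variable {F : Type*} [Field F] [Fintype F]

theorem sq_eq_of_card_three (hq : Fintype.card F = 3) (a : F) : a = 0 ∨ a ^ 2 = 1 := by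
  refine or_iff_not_imp_left.2 fun ha => ?_
  simpa [hq] using FiniteField.pow_card_sub_one_eq_one a ha

theorem sq_eq_of_card_five (hq : Fintype.card F = 5) (a : F) : a = 0 ∨ a ^ 2 = 1 ∨ a ^ 2 = -1 := by
  refine or_iff_not_imp_left.2 fun ha => ?_
  have h := FiniteField.pow_card_sub_one_eq_one a ha
  rw [hq] at h
  norm_num at h
  have h0 : (a ^ 2 - 1) * (a ^ 2 + 1) = 0 := by linear_combination h
  rcases mul_eq_zero.1 h0 with e | e
  · exact Or.inl (sub_eq_zero.1 e)
  · exact Or.inr (eq_neg_of_add_eq_zero_left e)

theorem ringChar_ne_two_of_odd (h : Odd (Fintype.card F)) : ringChar F ≠ 2 := fun e => by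
  have := FiniteField.even_card_iff_char_two.mp e
  rw [Nat.odd_iff] at h
  omega

theorem two_ne_zero_of_odd' (h : Odd (Fintype.card F)) : (2 : F) ≠ 0 :=
  Ring.two_ne_zero (ringChar_ne_two_of_odd h)

variable {ι : Type} [Fintype ι] [DecidableEq ι] {t k : ℕ} {D : Fin t → Submodule F (ι → F)}

/-- Orthogonal decompositions into members of dimension two or three over the field with three elements,
and into plus planes over the field with five elements. -/
theorem odd_small_between {Q : (ι → F) → F} (hQ : IsNondegenerateQuadraticForm Q)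
    (hn : 13 ≤ Fintype.card ι) (hD : IsOrthogonalMDecomposition Q k D)
    (hcase : (Fintype.card F = 3 ∧ (k = 2 ∨ k = 3)) ∨
      (Fintype.card F = 5 ∧ k = 2 ∧ ∀ i, IsPlusTypeOn Q (D i))) :
    ∃ K, decompositionStabilizer D ⊓ omegaGL Q < K ∧ K < omegaGL Q := by
  classical
  let Qf := toQF hQ
  have hdec : IsOrthDec Qf k D := isOrthDec_toQF hQ (le_trans (by norm_num) hn) hD
  have hodd : Odd (Fintype.card F) := by
    rcases hcase with ⟨h, -⟩ | ⟨h, -⟩ <;> rw [h] <;> decide
  have h2 := two_ne_zero_of_odd' hodd
  obtain ⟨b, hb⟩ := ClassicalMax.exists_adapted_basis hdec.dec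
  have hcard := card_eq_mul b
  have ht : 3 ≤ t := by
    by_contra h
    have : k * t ≤ 3 * 2 := Nat.mul_le_mul (by omega) (by omega)
    omega
  let i₀ : Fin t := ⟨0, by omega⟩
  obtain ⟨α, hα⟩ := FiniteField.exists_nonsquare (F := F) (ringChar_ne_two_of_odd hodd)
  obtain ⟨n, rfl⟩ : ∃ n, k = n + 1 := ⟨k - 1, by omega⟩
  obtain ⟨f, hfD, hfo, hf1, hfl⟩ := Forms.exists_orthogonal_family_symm h2 (polarBilin Qf)
    ⟨fun x y => polar_comm Qf x y⟩ hα n (D i₀) (fun x hx h => hdec.nd i₀ x hx h) (hdec.dec.finrank_eq i₀)
  have hval : ∀ v, polarBilin Qf v v = 2 * Q v := fun v => OrthGen.polar_self_two Qf v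
  have hα0 : α ≠ 0 := fun h => hα (h ▸ IsSquare.zero)
  have hα1 : α ≠ 1 := fun h => hα (h ▸ IsSquare.one)
  have hf0 : ∀ l, Q (f l) ≠ 0 := fun l h => by
    have h' := hval (f l)
    rw [h, mul_zero] at h'
    by_cases hl : l = Fin.last n
    · subst hl
      rcases hfl with e | e <;> rw [e] at h'
      · exact one_ne_zero h'
      · exact hα0 h'
    · rw [hf1 l hl] at h'
      exact one_ne_zero h'
  rcases hcase with ⟨hq, hk⟩ | ⟨hq, hk, hplus⟩
  · have h3 := three_eq_zero_of_card hq
    rcases hk with hk | hk
    · obtain rfl : n = 1 := by omega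
      refine frame_between hQ hn hD h2 le_rfl ht i₀ f hfD hfo hf0 fun c r hc => ?_
      replace hc : c 0 ^ 2 * Q (f 0) + c 1 ^ 2 * Q (f 1) = Q (f r) := (Fin.sum_univ_two _).symm.trans hc
      rcases sq_eq_of_card_three hq (c 0) with h | h
      · exact ⟨1, fun l hl => by fin_cases l <;> simp_all⟩
      rcases sq_eq_of_card_three hq (c 1) with h' | h'
      · exact ⟨0, fun l hl => by fin_cases l <;> simp_all⟩
      exfalso
      rw [h, h', one_mul, one_mul] at hc
      fin_cases r
      · exact hf0 1 (add_eq_left.1 hc)
      · exact hf0 0 (add_eq_right.1 hc)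
    · obtain rfl : n = 2 := by omega
      obtain ⟨g, hgD, hgo, hg0, hgeq⟩ : ∃ g : Fin 3 → ι → F, (∀ l, g l ∈ D i₀) ∧
          (∀ a b, a ≠ b → polar Q (g a) (g b) = 0) ∧ (∀ l, Q (g l) ≠ 0) ∧ ∀ l, Q (g l) = Q (g 0) := by
        have e0 : 2 * Q (f 0) = 1 := (hval _).symm.trans (hf1 0 (by decide))
        have e1 : 2 * Q (f 1) = 1 := (hval _).symm.trans (hf1 1 (by decide))
        rcases hfl with e | e
        · refine ⟨f, hfD, hfo, hf0, fun l => mul_left_cancel₀ h2 ?_⟩
          have e2 : 2 * Q (f 2) = 1 := (hval _).symm.trans e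
          fin_cases l
          exacts [rfl, e1.trans e0.symm, e2.trans e0.symm]
        · have hαn : α = -1 := by
            have h := (sq_eq_of_card_three hq α).resolve_left hα0
            have h' : (α - 1) * (α + 1) = 0 := by linear_combination h
            exact eq_neg_of_add_eq_zero_left ((mul_eq_zero.1 h').resolve_left (sub_ne_zero.2 hα1))
          have e2 : 2 * Q (f 2) = α := (hval _).symm.trans e
          have ho : ∀ a b, a ≠ b → polar Qf (f a) (f b) = 0 := hfo
          have hp : Q (f 0 + f 1) = Q (f 2) := by
            show Qf _ = _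
            rw [qf_add, ho 0 1 (by decide)]
            apply mul_left_cancel₀ h2
            rw [e2, hαn]
            show 2 * (Q (f 0) + Q (f 1) + 0) = -1
            linear_combination e0 + e1 + h3
          have hm : Q (f 0 - f 1) = Q (f 2) := by
            rw [← hp]
            show Qf _ = Qf _
            rw [qf_add, qf_sub, ho 0 1 (by decide), sub_zero, add_zero]
          refine ⟨![f 0 + f 1, f 0 - f 1, f 2], fun l => ?_, fun a b hab => ?_, fun l => ?_, fun l => ?_⟩
          · fin_cases l
            exacts [(D i₀).add_mem (hfD 0) (hfD 1), (D i₀).sub_mem (hfD 0) (hfD 1), hfD 2]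
          · have hsub : polar Qf (f 0 + f 1) (f 0 - f 1) = 0 := by
              rw [polar_add_left, polar_sub_right, polar_sub_right, OrthGen.polar_self_two,
                OrthGen.polar_self_two, ho 0 1 (by decide), ho 1 0 (by decide)]
              show 2 * Q (f 0) - 0 + (0 - 2 * Q (f 1)) = 0
              linear_combination e0 - e1
            have h20 : polar Qf (f 0 + f 1) (f 2) = 0 := by
              rw [polar_add_left, ho 0 2 (by decide), ho 1 2 (by decide), add_zero]
            have h21 : polar Qf (f 0 - f 1) (f 2) = 0 := by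
              rw [polar_sub_left, ho 0 2 (by decide), ho 1 2 (by decide), sub_zero]
            show polar Qf _ _ = 0
            fin_cases a <;> fin_cases b <;>
              first | exact absurd rfl hab | assumption | (rw [polar_comm]; assumption)
          · fin_cases l
            exacts [hp ▸ hf0 2, hm ▸ hf0 2, hf0 2]
          · fin_cases l
            exacts [rfl, hm.trans hp.symm, hp.symm]
      refine frame_between hQ hn hD h2 (by norm_num) ht i₀ g hgD hgo hg0 fun c r hc => ?_
      simp only [hgeq _] at hc
      rw [← Finset.sum_mul, Fin.sum_univ_three] at hc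
      have hc' : c 0 ^ 2 + c 1 ^ 2 + c 2 ^ 2 = 1 := mul_right_cancel₀ (hg0 0) (hc.trans (one_mul _).symm)
      rcases sq_eq_of_card_three hq (c 0) with a | a <;>
        rcases sq_eq_of_card_three hq (c 1) with b | b <;>
          rcases sq_eq_of_card_three hq (c 2) with d | d
      all_goals
        first
        | (refine ⟨0, fun l hl => ?_⟩
           fin_cases l <;> first | assumption | exact absurd rfl hl
           done)
        | (refine ⟨1, fun l hl => ?_⟩
           fin_cases l <;> first | assumption | exact absurd rfl hl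
           done)
        | (refine ⟨2, fun l hl => ?_⟩
           fin_cases l <;> first | assumption | exact absurd rfl hl
           done)
        | (exfalso
           simp only [a, b, d, ne_eq, OfNat.ofNat_ne_zero, not_false_eq_true, zero_pow, zero_add, add_zero] at hc'
           first
           | exact one_ne_zero (show (1 : F) = 0 by linear_combination hc')
           | exact one_ne_zero (show (1 : F) = 0 by linear_combination h3 - hc'))
  · obtain rfl : n = 1 := by omega
    have h5 : (5 : F) = 0 := by
      have := Nat.cast_card_eq_zero F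
      rwa [hq] at this
    have e0 : 2 * Q (f 0) = 1 := (hval _).symm.trans (hf1 0 (by decide))
    have e1 : 2 * Q (f 1) = 1 := by
      rcases hfl with e | e
      · exact (hval _).symm.trans e
      exfalso
      have e2 : 2 * Q (f 1) = α := (hval _).symm.trans e
      obtain ⟨U, hU, hUs, hUd⟩ := hplus i₀
      obtain ⟨u, hu, hu0⟩ := U.exists_mem_ne_zero_of_ne_bot (fun h => by
        rw [h, finrank_bot, hdec.dec.finrank_eq] at hUd; omega)
      have hspan : D i₀ ≤ Submodule.span F (Set.range f) := by
        refine (Submodule.eq_of_le_of_finrank_eq ?_ ?_).ge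
        · rw [Submodule.span_le]; rintro _ ⟨l, rfl⟩; exact hfD l
        · rw [finrank_span_eq_card (linearIndependent_of_orth Qf h2 f hfo hf0), Fintype.card_fin,
            hdec.dec.finrank_eq]
      obtain ⟨c, hc⟩ := (Submodule.mem_span_range_iff_exists_fun F).1 (hspan (hU hu))
      have ho : polar Qf (f 0) (f 1) = 0 := hfo 0 1 (by decide)
      have h0 : Q u = c 0 ^ 2 * Q (f 0) + c 1 ^ 2 * Q (f 1) := by
        rw [← hc, Fin.sum_univ_two]
        show Qf _ = _
        rw [qf_add, QuadraticMap.map_smul, QuadraticMap.map_smul, polar_smul_left, polar_smul_right, ho]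
        show c 0 * c 0 * Q (f 0) + c 1 * c 1 * Q (f 1) + c 0 * (c 1 * 0) = _
        ring
      rw [hUs u hu] at h0
      have h1 : c 0 ^ 2 + c 1 ^ 2 * α = 0 := by linear_combination (-2 : F) * h0 - c 0 ^ 2 * e0 - c 1 ^ 2 * e2
      by_cases hc1 : c 1 = 0
      · rw [hc1] at h1
        have hc0 : c 0 = 0 := by simpa using h1
        exact hu0 (by rw [← hc, Fin.sum_univ_two, hc0, hc1, zero_smul, zero_smul, add_zero])
      · refine hα ⟨2 * c 0 / c 1, ?_⟩
        field_simp
        linear_combination h1 - c 0 ^ 2 * h5
    have heq : ∀ l, Q (f l) = Q (f 0) := fun l => mul_left_cancel₀ h2 (by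
      fin_cases l
      exacts [rfl, e1.trans e0.symm])
    refine frame_between hQ hn hD h2 le_rfl ht i₀ f hfD hfo hf0 fun c r hc => ?_
    simp only [heq _] at hc
    rw [← Finset.sum_mul, Fin.sum_univ_two] at hc
    have hc' : c 0 ^ 2 + c 1 ^ 2 = 1 := mul_right_cancel₀ (hf0 0) (hc.trans (one_mul _).symm)
    rcases sq_eq_of_card_five hq (c 0) with a | a | a
    · exact ⟨1, fun l hl => by fin_cases l <;> simp_all⟩
    all_goals
      rcases sq_eq_of_card_five hq (c 1) with b | b | b
      · exact ⟨0, fun l hl => by fin_cases l <;> simp_all⟩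
      all_goals
        exfalso
        rw [a, b] at hc'
        first
        | exact one_ne_zero (show (1 : F) = 0 by linear_combination hc')
        | exact one_ne_zero (show (1 : F) = 0 by linear_combination -hc')
        | exact h2 (by linear_combination h5 + hc')

end Cfsg.Agent.NotMax
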