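import Cfsg.Agent.NotMax.Basic
import Cfsg.Agent.ClassicalMax.LinearExceptions
import Cfsg.Agent.MaxSub.Proper

/-!
Decompositions over tiny fields: the stabiliser is not maximal in the special linear group.
-/

set_option autoImplicit false
set_option linter.style.haveILetI false

namespace Cfsg.Agent.NotMax

open Matrix Cfsg.Geo Module Cfsg.Agent.GeoClasses Cfsg.Agent.ClassicalMax
open scoped MatrixGroups Matrix

variable {ι : Type} [Fintype ι] [DecidableEq ι] {F : Type*} [Field F] [Fintype F]
variable {t m : ℕ} {D : Fin t → Submodule F (ι → F)}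

/-- Blocks of dimension one, two elements. -/
theorem decomposition_two (hn : 13 ≤ Fintype.card ι) (hD : IsMDecomposition 1 D) (hF : Fintype.card F = 2) :
    ∃ K : Subgroup (GL ι F), decompositionStabilizer D ⊓ specialLinear ι F < K ∧ K < specialLinear ι F := by
  classical
  obtain ⟨b, hb⟩ := exists_adapted_basis hD
  have hcard := card_eq_mul b
  obtain ⟨j, hj⟩ := exists_injective_fin (t := t) 5 (by omega)
  let c := b.equivFun
  let w : ι → F := ∑ i, b (0, i)
  have hw : ∀ r, c w r = 1 := by
    intro r
    obtain ⟨l, i⟩ := r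
    obtain rfl : l = 0 := Subsingleton.elim _ _
    simp only [w, c, map_sum, Finset.sum_apply, Basis.equivFun_self]
    rw [Finset.sum_eq_single i (fun j _ hj => by simp [hj]) (by simp)]
    simp
  have hW0 : Submodule.span F {w} ≠ ⊥ := by
    rw [Ne, Submodule.span_singleton_eq_bot]
    intro h
    have := hw (0, j 0)
    simp [h] at this
  have hW1 : Submodule.span F {w} ≠ ⊤ := by
    intro h
    have h1 := congrArg (fun S : Submodule F (ι → F) => Module.finrank F S) h
    simp only [finrank_top, Module.finrank_fintype_fun_eq_card] at h1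
    rw [finrank_span_singleton (by simpa using hW0)] at h1
    omega
  let π : Fin 5 → (Fin 1 × Fin t → F) →ₗ[F] F := fun a => LinearMap.proj ((0 : Fin 1), j a)
  let φ : (ι → F) →ₗ[F] F := (π 0 - π 1).comp c.toLinearMap
  let v : ι → F := b (0, j 2) + b (0, j 3)
  have hφ : ∀ x, φ x = c x (0, j 0) - c x (0, j 1) := fun x => rfl
  have hcb : ∀ a a', c (b (0, j a)) (0, j a') = if a = a' then 1 else 0 := fun a a' => by
    simp only [c, Basis.equivFun_self, Prod.mk.injEq, true_and, hj.eq_iff]
  have hφv : φ v = 0 := by simp [hφ, v, hcb]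
  refine exists_between (X := subspaceStabilizer (Submodule.span F {w})) ?_ ⟨transv φ v hφv,
    mem_subspaceStabilizer_of_le fun x hx => ?_, transv_mem_specialLinear _ _ _, ?_⟩
    (specialLinear_not_le_stabilizer hW0 hW1)
  · rintro g ⟨hg, -⟩
    obtain ⟨B⟩ := exists_blockData hb hg
    have hfix : (g : Matrix ι ι F) *ᵥ w = w := by
      apply c.injective
      funext r
      obtain ⟨l, i'⟩ := r
      obtain rfl : l = 0 := Subsingleton.elim _ _
      obtain ⟨i, rfl⟩ := B.perm.surjective i'
      rw [show c = b.equivFun from rfl, B.repr_mulVec, Fin.sum_univ_one, hw, hw, mul_one]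
      have := B.det_blk_ne_zero i
      rw [Matrix.det_fin_one] at this
      simpa [hF] using FiniteField.pow_card_sub_one_eq_one _ this
    refine mem_subspaceStabilizer_of_le fun x hx => ?_
    obtain ⟨s, rfl⟩ := Submodule.mem_span_singleton.mp hx
    rw [Matrix.mulVec_smul, hfix]
    exact hx
  · obtain ⟨s, rfl⟩ := Submodule.mem_span_singleton.mp hx
    have : φ w = 0 := by rw [hφ, hw, hw, sub_self]
    rw [transv_mulVec, map_smul, this, smul_zero, zero_smul, add_zero]
    exact hx
  · refine not_mem_of_two_blocks hb (0, j 0) (0, j 0) (0, j 2) (hj.ne (by decide)) ?_ ?_ <;>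
      · show c _ _ ≠ 0
        simp [transv_mulVec, hφ, v, hcb]

/-- Blocks of dimension one, three elements. -/
theorem decomposition_three (hn : 13 ≤ Fintype.card ι) (hD : IsMDecomposition 1 D) (hF : Fintype.card F = 3) :
    ∃ K : Subgroup (GL ι F), decompositionStabilizer D ⊓ specialLinear ι F < K ∧ K < specialLinear ι F := by
  classical
  obtain ⟨b, hb⟩ := exists_adapted_basis hD
  have hcard := card_eq_mul b
  obtain ⟨j, hj⟩ := exists_injective_fin (t := t) 6 (by omega)
  let c := b.equivFun
  have h3 := three_eq_zero_of_card hF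
  have h2 : (2 : F) ≠ 0 := fun h => one_ne_zero (show (1 : F) = 0 by linear_combination h3 - h)
  let Q : (ι → F) → F := fun x => ∑ i, c x (0, i) ^ 2
  let B : (ι → F) → (ι → F) →ₗ[F] F := fun x =>
    { toFun := fun y => ∑ i, 2 * (c x (0, i) * c y (0, i))
      map_add' := fun y y' => by simp [mul_add, Finset.sum_add_distrib]
      map_smul' := fun a y => by simp [Finset.mul_sum, mul_left_comm] }
  have hB : ∀ x y, B x y = ∑ i, 2 * (c x (0, i) * c y (0, i)) := fun x y => rfl
  have hpol : ∀ x y, QuadraticMap.polar Q x y = B x y := by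
    intro x y
    simp only [QuadraticMap.polar, Q, hB, map_add, Pi.add_apply, ← Finset.sum_sub_distrib]
    refine Finset.sum_congr rfl fun i _ => ?_
    ring
  have hQ : IsNondegenerateQuadraticForm Q := by
    refine ⟨fun a x => by simp [Q, Finset.mul_sum, mul_pow], ?_, fun x hx => ?_⟩
    · rw [show QuadraticMap.polar Q = fun x y => B x y from funext₂ hpol]
      constructor <;> intros <;>
        simp [hB, Finset.mul_sum, Finset.sum_add_distrib, mul_add, add_mul, mul_left_comm, mul_assoc]
    · obtain ⟨⟨l, i⟩, hi⟩ : ∃ z, c x z ≠ 0 := by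
        by_contra h
        push Not at h
        exact hx (c.injective (funext fun z => by simp [h]))
      obtain rfl : l = 0 := Subsingleton.elim _ _
      have key : B x (b (0, i)) = 2 * c x (0, i) := by
        rw [hB, Finset.sum_eq_single i (fun k _ hk => by simp [c, Finsupp.single_apply, hk.symm]) (by simp)]
        simp [c]
      refine ⟨⟨b (0, i), ?_⟩, ⟨b (0, i), ?_⟩⟩
      · rw [QuadraticMap.polar_comm, hpol, key]; exact mul_ne_zero h2 hi
      · rw [hpol, key]; exact mul_ne_zero h2 hi
  let u : ι → F := b (0, j 0) + b (0, j 1) + b (0, j 2)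
  let a : ι → F := b (0, j 3) + b (0, j 4) + b (0, j 5)
  have hcb : ∀ k k', c (b (0, j k)) (0, j k') = if k = k' then 1 else 0 := fun k k' => by
    simp only [c, Basis.equivFun_self, Prod.mk.injEq, true_and, hj.eq_iff]
  have hBb : ∀ x k, B x (b (0, j k)) = 2 * c x (0, j k) := by
    intro x k
    rw [hB, Finset.sum_eq_single (j k) (fun l _ hl => by simp [c, Finsupp.single_apply, hl.symm]) (by simp)]
    simp [c]
  have hBs : ∀ x y, B x y = B y x := fun x y => by simp [hB, mul_comm]
  have hua : B u a = 0 := by simp [a, u, hBb, hcb, map_add]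
  have huu : B u u = 0 := by simp [u, hBb, hcb, map_add]; linear_combination 2 * h3
  have haa : B a a = 0 := by simp [a, hBb, hcb, map_add]; linear_combination 2 * h3
  have hQB : ∀ x, 2 * Q x = B x x := fun x => by
    simp only [Q, hB, Finset.mul_sum]; exact Finset.sum_congr rfl fun i _ => by ring
  have hQu : Q u = 0 := mul_left_cancel₀ h2 (by rw [hQB, huu, mul_zero])
  have hQa : Q a = 0 := mul_left_cancel₀ h2 (by rw [hQB, haa, mul_zero])
  have hQadd : ∀ x y, Q (x + y) = Q x + Q y + B x y := fun x y => by
    rw [← hpol, QuadraticMap.polar]; ring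
  have hau : (-B a) u = 0 := by simp [hBs a u, hua]
  let g : GL ι F := transv (B u) a hua * transv (-B a) u hau
  have hg : ∀ x, (g : Matrix ι ι F) *ᵥ x = x - B a x • u + B u x • a := by
    intro x
    simp only [g, Units.val_mul, ← Matrix.mulVec_mulVec, transv_mulVec, LinearMap.neg_apply, neg_smul,
      map_add, map_neg, map_smul, huu, smul_zero, neg_zero, add_zero, ← sub_eq_add_neg, map_sub, sub_zero]
  refine exists_between (X := quadSimilarityGroup Q) ?_ ⟨g, ⟨1, fun x => ?_⟩,
    mul_mem (transv_mem_specialLinear _ _ _) (transv_mem_specialLinear _ _ _), ?_⟩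
    (MaxSub.not_le_quadSimilarityGroup (by omega) hQ)
  · rintro g ⟨hg, -⟩
    obtain ⟨Bd⟩ := exists_blockData hb hg
    refine ⟨1, fun v => ?_⟩
    simp only [Units.val_one, one_mul, Q]
    conv_lhs => rw [← Equiv.sum_comp Bd.perm]
    refine Finset.sum_congr rfl fun i _ => ?_
    simp only [c, Bd.repr_mulVec, Fin.sum_univ_one]
    have := Bd.det_blk_ne_zero i
    rw [Matrix.det_fin_one] at this
    rw [mul_pow, sq_eq_one_of_card_three hF this, one_mul]
  · rw [hg, Units.val_one, one_mul, sub_eq_add_neg, add_assoc, hQadd, hQadd, ← neg_smul, hQ.smul, hQ.smul,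
      hQu, hQa]
    simp only [map_add, map_smul, LinearMap.neg_apply, smul_eq_mul, mul_zero, zero_add, hBs x u, hBs x a]
    have e : B (-B a x • u) a = -B a x * B u a := by
      rw [hBs, map_smul, hBs a u, smul_eq_mul]
    rw [hBs (-B a x • u), map_smul, smul_eq_mul, hBs a u, hua]
    ring
  · refine not_mem_of_two_blocks hb (0, j 0) (0, j 0) (0, j 3) (hj.ne (by decide)) ?_ ?_ <;>
      · show c _ _ ≠ 0
        simp [hg, hBb, hBs a, hBs u, u, a, hcb, h2]

/-- Blocks of dimension one, four elements. -/
theorem decomposition_four (hn : 13 ≤ Fintype.card ι) (hD : IsMDecomposition 1 D) (hF : Fintype.card F = 4) :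
    ∃ K : Subgroup (GL ι F), decompositionStabilizer D ⊓ specialLinear ι F < K ∧ K < specialLinear ι F := by
  classical
  obtain ⟨b, hb⟩ := exists_adapted_basis hD
  have hcard := card_eq_mul b
  obtain ⟨j, hj⟩ := exists_injective_fin (t := t) 4 (by omega)
  let c := b.equivFun
  have h2 : (2 : F) = 0 := two_eq_zero_of_even_card (by rw [hF]; decide)
  haveI : CharP F 2 := (CharP.charP_iff_prime_eq_zero Nat.prime_two).2 (by exact_mod_cast h2)
  have h4 : ∀ a : F, a ^ 4 = a := fun a => by simpa [hF] using FiniteField.pow_card a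
  let σ : F ≃+* F := RingEquiv.ofBijective (frobenius F 2)
    ⟨(frobenius F 2).injective, Finite.surjective_of_injective (frobenius F 2).injective⟩
  have hσ : ∀ a, σ a = a ^ 2 := fun a => rfl
  have hσσ : ∀ a, σ (σ a) = a := fun a => by rw [hσ, hσ, ← pow_mul, h4]
  let f : (ι → F) → (ι → F) → F := fun x y => ∑ i, c x (0, i) * σ (c y (0, i))
  have hne : σ ≠ RingEquiv.refl F := by
    intro h
    have hall : ∀ a : F, a ^ 2 = a := fun a => by rw [← hσ, h]; rfl
    have hsub : (Finset.univ : Finset F) ⊆ {0, 1} := fun a _ => by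
      have h' : a * (a - 1) = 0 := by linear_combination hall a
      rcases mul_eq_zero.mp h' with h'' | h''
      · simp [h'']
      · simp [sub_eq_zero.mp h'']
    have : Fintype.card F ≤ 2 := (Finset.card_le_card hsub).trans Finset.card_le_two
    omega
  have al : ∀ x y z, f (x + y) z = f x z + f y z := fun x y z => by simp [f, add_mul, Finset.sum_add_distrib]
  have sl : ∀ (s : F) x z, f (s • x) z = s * f x z := fun s x z => by simp [f, Finset.mul_sum, mul_assoc]
  have hherm : ∀ x y, f x y = σ (f y x) := fun x y => by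
    simp only [f, map_sum, map_mul, hσσ]; exact Finset.sum_congr rfl fun i _ => mul_comm _ _
  have ar : ∀ z x y, f z (x + y) = f z x + f z y := fun z x y => by
    rw [hherm, al, map_add, ← hherm, ← hherm]
  have sr : ∀ (s : F) z x, f z (s • x) = σ s * f z x := fun s z x => by
    rw [hherm, sl, map_mul, ← hherm]
  have hcb : ∀ k k', c (b (0, j k)) (0, j k') = if k = k' then 1 else 0 := fun k k' => by
    simp only [c, Basis.equivFun_self, Prod.mk.injEq, true_and, hj.eq_iff]
  have hfb : ∀ x i, f x (b (0, i)) = c x (0, i) := by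
    intro x i
    show (∑ l, c x (0, l) * σ (c (b (0, i)) (0, l))) = _
    rw [Finset.sum_eq_single i (fun l _ hl => by simp [c, Finsupp.single_apply, hl.symm]) (by simp)]
    simp [c]
  have hU : IsUnitaryForm σ f := by
    refine ⟨hne, hσσ, al, sl, hherm, fun x hx => ?_⟩
    obtain ⟨⟨l, i⟩, hi⟩ : ∃ z, c x z ≠ 0 := by
      by_contra h
      push Not at h
      exact hx (c.injective (funext fun z => by simp [h]))
    obtain rfl : l = 0 := Subsingleton.elim _ _
    refine ⟨⟨b (0, i), ?_⟩, ⟨b (0, i), by rwa [hfb]⟩⟩
    rw [hherm, hfb]; simpa using hi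
  let v : ι → F := b (0, j 0) + b (0, j 1) + b (0, j 2) + b (0, j 3)
  let φ : (ι → F) →ₗ[F] F :=
    { toFun := fun x => f x v
      map_add' := fun x y => al x y v
      map_smul' := fun s x => sl s x v }
  have hvv : φ v = 0 := by
    show f v v = 0
    simp only [v, ar, hfb, map_add, Pi.add_apply, hcb]
    simp
    linear_combination 2 * h2
  refine exists_between (X := similarityGroup f) ?_ ⟨transv φ v hvv, ⟨1, fun x y => ?_⟩,
    transv_mem_specialLinear _ _ _, ?_⟩ (MaxSub.not_le_similarityGroup_unitary (by omega) hU)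
  · rintro g ⟨hg, -⟩
    obtain ⟨B⟩ := exists_blockData hb hg
    refine ⟨1, fun x y => ?_⟩
    simp only [Units.val_one, one_mul, f]
    conv_lhs => rw [← Equiv.sum_comp B.perm]
    refine Finset.sum_congr rfl fun i _ => ?_
    simp only [c, B.repr_mulVec, Fin.sum_univ_one]
    have := B.det_blk_ne_zero i
    rw [Matrix.det_fin_one] at this
    have h3 : B.blk i 0 0 ^ 3 = 1 := by simpa [hF] using FiniteField.pow_card_sub_one_eq_one _ this
    simp only [hσ]
    linear_combination (b.equivFun x (0, i) * b.equivFun y (0, i) ^ 2) * h3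
  · have hv0 : f v v = 0 := hvv
    rw [transv_mulVec, transv_mulVec]
    show f (x + f x v • v) (y + f y v • v) = _
    simp only [Units.val_one, one_mul, al, ar, sl, sr, hv0]
    show f x y + σ (f y v) * f x v + (f x v * f v y + f x v * (σ (f y v) * 0)) = f x y
    rw [← hherm v y]
    linear_combination (f x v * f v y) * h2
  · refine not_mem_of_two_blocks hb (0, j 0) (0, j 1) (0, j 2) (hj.ne (by decide)) ?_ ?_ <;>
      · show c _ _ ≠ 0
        have e : φ (b (0, j 0)) = 1 := by
          show f _ v = 1
          simp [v, ar, hfb, hcb]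
        simp [transv_mulVec, e, v, hcb]

/-- Blocks of dimension two, two elements. -/
theorem decomposition_two_two (hn : 13 ≤ Fintype.card ι) (hD : IsMDecomposition 2 D) (hF : Fintype.card F = 2) :
    ∃ K : Subgroup (GL ι F), decompositionStabilizer D ⊓ specialLinear ι F < K ∧ K < specialLinear ι F := by
  classical
  obtain ⟨b, hb⟩ := exists_adapted_basis hD
  have hcard := card_eq_mul b
  obtain ⟨j, hj⟩ := exists_injective_fin (t := t) 2 (by omega)
  obtain ⟨f, hf, hle⟩ := decomposition_le_similarityGroup_symplectic hD (Or.inl hF)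
  let v : ι → F := b (0, j 0) + b (0, j 1)
  have hv : ∀ k, b.equivFun v (0, j k) = 1 := fun k => by
    fin_cases k <;> simp [v, Finsupp.single_apply, hj.eq_iff]
  have hv0 : v ≠ 0 := fun h => by simpa [h] using hv 0
  let φ : (ι → F) →ₗ[F] F :=
    { toFun := fun x => f x v
      map_add' := fun x y => hf.bilinear.add_left x y v
      map_smul' := fun s x => hf.bilinear.smul_left s x v }
  have hφ : φ ≠ 0 := by
    obtain ⟨⟨x, hx⟩, -⟩ := hf.nondegenerate v hv0
    exact fun h => hx (LinearMap.congr_fun h x)
  have hvv : φ v = 0 := hf.alternating v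
  refine exists_between (X := similarityGroup f) hle ⟨transv φ v hvv, ⟨1, fun x y => ?_⟩,
    transv_mem_specialLinear _ _ _, ?_⟩ (MaxSub.not_le_similarityGroup_symplectic (by omega) hf)
  · have hv' : f v v = 0 := hvv
    rw [transv_mulVec, transv_mulVec]
    show f (x + f x v • v) (y + f y v • v) = _
    simp only [Units.val_one, one_mul, hf.bilinear.add_left, hf.bilinear.add_right,
      hf.bilinear.smul_left, hf.bilinear.smul_right, hv']
    show f x y + f y v * f x v + (f x v * f v y + f x v * (f y v * 0)) = f x y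
    rw [hf.skew v y]
    ring
  · exact transvec_not_mem_of_two_blocks hD le_rfl hb (isTransvec_transv φ v hvv) hφ (0, j 0) (0, j 1)
      (hj.ne (by decide)) (by rw [hv]; exact one_ne_zero) (by rw [hv]; exact one_ne_zero)

end Cfsg.Agent.NotMax
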