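import Cfsg.Agent.NotMax.OrthBase
import Cfsg.Agent.DecompMax.OrthMat
import Cfsg.Agent.DecompMax.PlaneSub

/-!
Decompositions whose members carry a distinguished finite set of vectors: the stabiliser of that set
is strictly larger than the stabiliser of the decomposition.
-/

set_option autoImplicit false
set_option linter.style.haveILetI false

namespace Cfsg.Agent.NotMax

open QuadraticMap Module Cfsg.Agent.Classical Cfsg.Agent.GeoClasses Cfsg.Agent.DecompMax
open scoped MatrixGroups Matrix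

universe u

section Defs

variable {ι : Type} [Fintype ι] [DecidableEq ι] {F : Type u} [Field F]

/-- The stabiliser of a set of vectors. -/
def setStab (S : Set (ι → F)) : Subgroup (Matrix.GeneralLinearGroup ι F) where
  carrier := {g | (fun v => (g : Matrix ι ι F) *ᵥ v) '' S = S}
  mul_mem' {a b} ha hb := by
    show (fun v => ((a * b : Matrix.GeneralLinearGroup ι F) : Matrix ι ι F) *ᵥ v) '' S = S
    have : (fun v => ((a * b : Matrix.GeneralLinearGroup ι F) : Matrix ι ι F) *ᵥ v) =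
        (fun v => (a : Matrix ι ι F) *ᵥ v) ∘ (fun v => (b : Matrix ι ι F) *ᵥ v) := by
      ext v; simp [Matrix.mulVec_mulVec]
    rw [this, Set.image_comp, hb, ha]
  one_mem' := by simp
  inv_mem' {a} ha := by
    show (fun v => ((a⁻¹ : Matrix.GeneralLinearGroup ι F) : Matrix ι ι F) *ᵥ v) '' S = S
    conv_lhs => rw [← ha, Set.image_image]
    simp [Matrix.mulVec_mulVec]

theorem mem_setStab_iff [Finite F] {S : Set (ι → F)} {g : Matrix.GeneralLinearGroup ι F} :
    g ∈ setStab S ↔ ∀ v ∈ S, (g : Matrix ι ι F) *ᵥ v ∈ S := by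
  refine ⟨fun h v hv => h ▸ ⟨v, hv, rfl⟩, fun h => ?_⟩
  haveI : Finite (ι → F) := Module.finite_of_finite F
  have hinj : Function.Injective fun v => (g : Matrix ι ι F) *ᵥ v := by
    intro a b hab
    have := congrArg (fun v => ((g⁻¹ : Matrix.GeneralLinearGroup ι F) : Matrix ι ι F) *ᵥ v) hab
    simpa [Matrix.mulVec_mulVec] using this
  refine Set.eq_of_subset_of_ncard_le (by rintro _ ⟨v, hv, rfl⟩; exact h v hv) ?_ (Set.toFinite _)
  rw [Set.ncard_image_of_injective _ hinj]

variable [Finite F] {Q : QuadraticForm F (ι → F)} {t k : ℕ} {D : Fin t → Submodule F (ι → F)}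

/-- A set of vectors fixed by the stabiliser gives a group between it and `Ω`. -/
theorem exists_between_setStab (S : Set (ι → F))
    (h0 : ∀ g : OQ Q, g ∈ decSub Q D → ∀ v ∈ S, g.1 v ∈ S)
    (h1 : ∃ g ∈ commutator (OQ Q), (∀ v ∈ S, g.1 v ∈ S) ∧ g ∉ decSub Q D)
    (h2 : ∃ g ∈ commutator (OQ Q), ∃ v ∈ S, g.1 v ∉ S) :
    ∃ K, Cfsg.Geo.decompositionStabilizer D ⊓ Cfsg.Geo.omegaGL ⇑Q < K ∧
      K < Cfsg.Geo.omegaGL ⇑Q := by
  refine exists_between_omega (Qf := Q) (X := setStab S) (fun g _ hg => ?_) ?_ ?_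
  · refine mem_setStab_iff.2 fun v hv => ?_
    rw [oqToGL_mulVec]
    exact h0 g hg v hv
  · obtain ⟨g, hg, hS, hd⟩ := h1
    exact ⟨g, hg, mem_setStab_iff.2 fun v hv => by rw [oqToGL_mulVec]; exact hS v hv, hd⟩
  · obtain ⟨g, hg, v, hv, hgv⟩ := h2
    exact ⟨g, hg, fun h => hgv (by simpa [oqToGL_mulVec] using mem_setStab_iff.1 h v hv)⟩

/-- The vectors of value `c` lying in a member. -/
def valSet (Q : QuadraticForm F (ι → F)) (D : Fin t → Submodule F (ι → F)) (c : F) : Set (ι → F) :=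
  {v | Q v = c ∧ ∃ i, v ∈ D i}

omit [Finite F] in
theorem valSet_invariant {c : F} {g : OQ Q} (hg : g ∈ decSub Q D) :
    ∀ v ∈ valSet Q D c, g.1 v ∈ valSet Q D c := by
  rintro v ⟨hQ, i, hi⟩
  obtain ⟨σ, hσ⟩ := exists_perm_of_mem_decSub hg
  exact ⟨by rw [OQ_map_app]; exact hQ, σ i, by rw [← hσ i]; exact ⟨v, hi, rfl⟩⟩

variable (h : IsOrthDec Q k D)
include h

/-- A reflection in the difference of two orthogonal vectors of a frame preserves the frame. -/
theorem refl_sub_valSet {c : F}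
    (hframe : ∀ i, ∀ v ∈ D i, ∀ w ∈ D i, Q v = c → Q w = c → w = v ∨ w = -v ∨ polar Q v w = 0)
    {a b : ι → F} (ha : a ∈ valSet Q D c) (hb : b ∈ valSet Q D c) (hab : polar Q a b = 0)
    (h0 : Q (a - b) ≠ 0) : ∀ v ∈ valSet Q D c, (reflQ Q (a - b) h0).1 v ∈ valSet Q D c := by
  have key : ∀ {a v : ι → F}, a ∈ valSet Q D c → v ∈ valSet Q D c →
      v = a ∨ v = -a ∨ polar Q a v = 0 := by
    rintro a v ⟨hQa, i, hi⟩ ⟨hQv, j, hj⟩
    rcases eq_or_ne i j with rfl | hij
    · exact hframe i a hi v hj hQa hQv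
    · exact Or.inr (Or.inr (h.orth i j hij a hi v hj))
  have hneg : ∀ {v : ι → F}, v ∈ valSet Q D c → -v ∈ valSet Q D c := by
    rintro v ⟨hQ, i, hi⟩
    exact ⟨by rw [QuadraticMap.map_neg, hQ], i, (D i).neg_mem hi⟩
  have hsa : (reflQ Q (a - b) h0).1 a = b := OrthGen.refl_sub_apply (ha.1.trans hb.1.symm) h0
  have hsb : (reflQ Q (a - b) h0).1 b = a := by
    have := congrArg (reflQ Q (a - b) h0).1 hsa
    rw [← LinearEquiv.mul_apply, ← Subgroup.coe_mul, reflQ_mul_self] at this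
    exact this.symm
  intro v hv
  rcases key ha hv with rfl | rfl | hva
  · rw [hsa]; exact hb
  · rw [map_neg, hsa]; exact hneg hb
  rcases key hb hv with rfl | rfl | hvb
  · rw [hsb]; exact ha
  · rw [map_neg, hsb]; exact hneg ha
  rw [OrthGen.reflQ_fix Q h0 (by rw [polar_sub_left, hva, hvb, sub_zero])]
  exact hv

/-- The frame lemma: exchanging two frame vectors of different members. -/
theorem exists_between_valSet {c : F} (hc : c ≠ 0) (h2 : (2 : F) ≠ 0) (ht : 4 ≤ t)
    (hμ : ∃ μ ν : F, μ ≠ 0 ∧ 2 + μ * μ + ν * ν = 1) (hex : ∀ i, ∃ v ∈ D i, Q v = c)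
    {i j : Fin t} (hij : i ≠ j) {a b a' b' z : ι → F} (ha : a ∈ D i) (hb : b ∈ D j) (hz : z ∈ D i)
    (hz0 : z ≠ 0) (hQa : Q a ≠ 0) (hQb : Q b = Q a) (hQa' : Q a' = Q a) (hQb' : Q b' = Q a)
    (hab' : polar Q a' b' = 0) (haz : polar Q a z = 0) (ha'a : polar Q a' a = 0)
    (hb'a : polar Q b' a = 0) (ha'z : polar Q a' z = 0) (hb'z : polar Q b' z = 0)
    (hS : ∀ (x : ι → F) (hx : Q x ≠ 0), x = a - b ∨ x = a' - b' →
      ∀ v ∈ valSet Q D c, (reflQ Q x hx).1 v ∈ valSet Q D c) :
    ∃ K, Cfsg.Geo.decompositionStabilizer D ⊓ Cfsg.Geo.omegaGL ⇑Q < K ∧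
      K < Cfsg.Geo.omegaGL ⇑Q := by
  obtain ⟨C⟩ := exists_components h.dec
  have hab : polar Q a b = 0 := h.orth i j hij a ha b hb
  have e1 : Q (a - b) = 2 * Q a := by rw [qf_sub, hab, hQb]; ring
  have e2 : Q (a' - b') = 2 * Q a := by rw [qf_sub, hab', hQa', hQb']; ring
  have h10 : Q (a - b) ≠ 0 := by rw [e1]; exact mul_ne_zero h2 hQa
  have h20 : Q (a' - b') ≠ 0 := by rw [e2]; exact mul_ne_zero h2 hQa
  refine exists_between_setStab (valSet Q D c) (fun g hg => valSet_invariant hg)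
    ⟨reflQ Q (a - b) h10 * reflQ Q (a' - b') h20,
      refl_pair_mem_commutator h h10 h20 ⟨2 * Q a, by rw [e1, e2]⟩, fun v hv => ?_, fun hmem => ?_⟩ ?_
  · rw [Subgroup.coe_mul, LinearEquiv.mul_apply]
    exact hS _ h10 (Or.inl rfl) _ (hS _ h20 (Or.inr rfl) _ hv)
  · obtain ⟨σ, hσ⟩ := exists_perm_of_mem_decSub hmem
    have hga : (reflQ Q (a - b) h10 * reflQ Q (a' - b') h20).1 a = b := by
      rw [Subgroup.coe_mul, LinearEquiv.mul_apply,
        OrthGen.reflQ_fix Q h20 (by rw [polar_sub_left, ha'a, hb'a, sub_zero]),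
        OrthGen.refl_sub_apply hQb.symm h10]
    have hgz : (reflQ Q (a - b) h10 * reflQ Q (a' - b') h20).1 z = z := by
      rw [Subgroup.coe_mul, LinearEquiv.mul_apply,
        OrthGen.reflQ_fix Q h20 (by rw [polar_sub_left, ha'z, hb'z, sub_zero]),
        OrthGen.reflQ_fix Q h10 (by rw [polar_sub_left, haz, h.orth j i hij.symm b hb z hz, sub_zero])]
    have h1 : b ∈ D (σ i) := by rw [← hσ i]; exact ⟨a, ha, hga⟩
    have h3 : z ∈ D (σ i) := by rw [← hσ i]; exact ⟨z, hz, hgz⟩
    have hσj : σ i = j := by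
      by_contra hne
      have := C.of_mem_ne hne h1
      rw [C.of_mem hb] at this
      exact hQa (by rw [← hQb, this, map_zero])
    rw [hσj] at h3
    have := C.of_mem_ne hij.symm h3
    rw [C.of_mem hz] at this
    exact hz0 this
  · obtain ⟨μ, ν, hμ0, hμν⟩ := hμ
    obtain ⟨r, hr⟩ := exists_injective_fin (t := t) 4 ht
    choose v hv hQv using fun p : Fin 4 => hex (r p)
    have ho : ∀ p p' : Fin 4, p ≠ p' → polar Q (v p) (v p') = 0 := fun p p' hp =>
      h.orth _ _ (hr.ne hp) _ (hv p) _ (hv p')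
    set x := v 0 + v 1 + μ • v 2 + ν • v 3 with hx
    have hpx : polar Q x (v 0) = 2 * c := by
      rw [hx, polar_add_left, polar_add_left, polar_add_left, polar_smul_left, polar_smul_left,
        OrthGen.polar_self_two, hQv, ho 1 0 (by decide), ho 2 0 (by decide), ho 3 0 (by decide)]
      simp
    have hQx : Q x = c := by
      rw [hx, qf_add, qf_add, qf_add, polar_add_left, polar_add_left, polar_add_left,
        QuadraticMap.map_smul, QuadraticMap.map_smul, polar_smul_right, polar_smul_right,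
        polar_smul_right, polar_smul_right, polar_smul_right, polar_smul_left, ho 0 1 (by decide),
        ho 0 2 (by decide), ho 1 2 (by decide), ho 0 3 (by decide), ho 1 3 (by decide),
        ho 2 3 (by decide), hQv, hQv, hQv, hQv]
      simp only [smul_eq_mul]
      linear_combination c * hμν
    have hv0 : Q (v 0) ≠ 0 := (hQv 0) ▸ hc
    have hx0 : Q x ≠ 0 := hQx ▸ hc
    refine ⟨reflQ Q x hx0 * reflQ Q (v 0) hv0,
      refl_pair_mem_commutator h hx0 hv0 ⟨c, by rw [hQx, hQv]⟩, v 0, ⟨hQv 0, _, hv 0⟩, ?_⟩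
    rintro ⟨-, l, hl⟩
    have hap : (reflQ Q x hx0 * reflQ Q (v 0) hv0).1 (v 0) = (2 : F) • x - v 0 := by
      rw [Subgroup.coe_mul, LinearEquiv.mul_apply, OrthGen.reflQ_self, map_neg, reflQ_apply, hpx, hQx,
        neg_sub, show c⁻¹ * (2 * c) = 2 by field_simp]
    rw [hap] at hl
    have hcomp : ∀ p : Fin 4, p ≠ 0 → r p ≠ l → C.proj (r p) x = 0 := by
      intro p hp hne
      have h1 := C.of_mem_ne (Ne.symm hne) hl
      rw [map_sub, map_smul, C.of_mem_ne (hr.ne (Ne.symm hp)) (hv 0), sub_zero, smul_eq_zero] at h1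
      exact h1.resolve_left h2
    have hvne : ∀ p, v p ≠ 0 := fun p e => hc (by rw [← hQv p, e, map_zero])
    have hp1 : C.proj (r 1) x = v 1 := by
      rw [hx, map_add, map_add, map_add, map_smul, map_smul, C.of_mem_ne (hr.ne (by decide)) (hv 0),
        C.of_mem (hv 1), C.of_mem_ne (hr.ne (by decide)) (hv 2),
        C.of_mem_ne (hr.ne (by decide)) (hv 3)]
      simp
    have hp2 : C.proj (r 2) x = μ • v 2 := by
      rw [hx, map_add, map_add, map_add, map_smul, map_smul, C.of_mem_ne (hr.ne (by decide)) (hv 0),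
        C.of_mem_ne (hr.ne (by decide)) (hv 1), C.of_mem (hv 2),
        C.of_mem_ne (hr.ne (by decide)) (hv 3)]
      simp
    by_cases e : r 1 = l
    · have := hcomp 2 (by decide) (fun e' => hr.ne (show (2 : Fin 4) ≠ 1 by decide) (e'.trans e.symm))
      rw [hp2] at this
      exact (smul_ne_zero hμ0 (hvne 2)) this
    · exact hvne 1 (hp1 ▸ hcomp 1 (by decide) e)

/-- Members with an orthogonal frame of one value. -/
theorem exists_between_frame {c : F} (hc : c ≠ 0) (h2 : (2 : F) ≠ 0) (ht : 4 ≤ t)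
    (hμ : ∃ μ ν : F, μ ≠ 0 ∧ 2 + μ * μ + ν * ν = 1) (hk : 2 ≤ k)
    (hx : ∀ x : Fin k → F, ∑ r, x r * x r = 1 → ∀ r s, r ≠ s → x r = 0 ∨ x s = 0)
    (hex : ∀ i, ∃ a : Fin k → ι → F, (∀ r, a r ∈ D i) ∧ (∀ r, Q (a r) = c) ∧
      ∀ r s, r ≠ s → polar Q (a r) (a s) = 0) :
    ∃ K, Cfsg.Geo.decompositionStabilizer D ⊓ Cfsg.Geo.omegaGL ⇑Q < K ∧
      K < Cfsg.Geo.omegaGL ⇑Q := by
  classical
  have hframe : ∀ i, ∀ v ∈ D i, ∀ w ∈ D i, Q v = c → Q w = c → w = v ∨ w = -v ∨ polar Q v w = 0 := by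
    intro i v hv w hw hQv hQw
    obtain ⟨a, ha, hQa, ho⟩ := hex i
    have hp : ∀ (x : Fin k → F) r, polar Q (∑ s, x s • a s) (a r) = x r * (2 * c) := fun x r => by
      rw [polar_comm, ← polarBilin_apply_apply, map_sum, Finset.sum_eq_single r
        (fun s _ hs => by rw [map_smul, polarBilin_apply_apply, ho r s hs.symm, smul_zero]) (by simp),
        map_smul, polarBilin_apply_apply, OrthGen.polar_self_two, hQa, smul_eq_mul]
    have hli : LinearIndependent F a := by
      rw [Fintype.linearIndependent_iff]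
      intro x hx0 r
      have := hp x r
      rw [hx0, polar_zero_left] at this
      exact (mul_eq_zero.1 this.symm).resolve_right (mul_ne_zero h2 hc)
    have hspan : Submodule.span F (Set.range a) = D i := by
      refine Submodule.eq_of_le_of_finrank_eq (Submodule.span_le.2 (by rintro _ ⟨r, rfl⟩; exact ha r)) ?_
      rw [finrank_span_eq_card hli, Fintype.card_fin, h.dec.finrank_eq]
    have key : ∀ v ∈ D i, Q v = c → ∃ r, v = a r ∨ v = -a r := by
      intro v hv hQv
      rw [← hspan, Submodule.mem_span_range_iff_exists_fun] at hv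
      obtain ⟨x, rfl⟩ := hv
      have hsq : ∀ s : Finset (Fin k), Q (∑ r ∈ s, x r • a r) = c * ∑ r ∈ s, x r * x r := by
        intro s
        induction s using Finset.induction with
        | empty => simp
        | insert r s hrs ih =>
          rw [Finset.sum_insert hrs, Finset.sum_insert hrs, qf_add, ih, QuadraticMap.map_smul, hQa]
          have : polar Q (x r • a r) (∑ s' ∈ s, x s' • a s') = 0 := by
            rw [← polarBilin_apply_apply, map_sum]
            refine Finset.sum_eq_zero fun s' hs' => ?_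
            rw [polarBilin_apply_apply, polar_smul_left, polar_smul_right,
              ho r s' (fun e => hrs (e ▸ hs')), smul_zero, smul_zero]
          rw [this, smul_eq_mul]; ring
      have hsum : ∑ r, x r * x r = 1 := mul_left_cancel₀ hc (by rw [← hsq, hQv, mul_one])
      obtain ⟨r, hr⟩ : ∃ r, x r ≠ 0 := by
        by_contra hno
        push Not at hno
        rw [Finset.sum_eq_zero fun r _ => by rw [hno r, zero_mul]] at hsum
        exact zero_ne_one hsum
      have hz : ∀ s, s ≠ r → x s = 0 := fun s hs => (hx x hsum s r hs).resolve_right hr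
      rw [Finset.sum_eq_single r (fun s _ hs => by rw [hz s hs, zero_mul]) (by simp)] at hsum
      refine ⟨r, ?_⟩
      rw [Finset.sum_eq_single r (fun s _ hs => by rw [hz s hs, zero_smul]) (by simp)]
      have : (x r - 1) * (x r + 1) = 0 := by linear_combination hsum
      rcases mul_eq_zero.1 this with e | e
      · exact Or.inl (by rw [sub_eq_zero.1 e, one_smul])
      · exact Or.inr (by rw [eq_neg_of_add_eq_zero_left e, neg_one_smul])
    obtain ⟨r, rfl | rfl⟩ := key v hv hQv <;> obtain ⟨s, rfl | rfl⟩ := key w hw hQw <;>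
      rcases eq_or_ne r s with rfl | hrs
    all_goals first
      | exact Or.inl rfl
      | exact Or.inr (Or.inl rfl)
      | exact Or.inr (Or.inl (neg_neg _).symm)
      | (refine Or.inr (Or.inr ?_); simp [ho _ _ hrs])
  choose a ha hQa ho using hex
  obtain ⟨r, hr⟩ := exists_injective_fin (t := t) 3 (by omega)
  obtain ⟨p, hp⟩ := exists_injective_fin (t := k) 2 hk
  refine exists_between_valSet h hc h2 ht hμ (fun i => ⟨_, ha i (p 0), hQa i _⟩)
    (hr.ne (show (0 : Fin 3) ≠ 1 by decide)) (ha (r 0) (p 0)) (ha (r 1) (p 0)) (ha (r 0) (p 1))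
    (fun e => hc (by rw [← hQa (r 0) (p 1), e, map_zero])) (by rw [hQa]; exact hc)
    (by rw [hQa, hQa]) (a' := a (r 2) (p 0)) (b' := a (r 2) (p 1)) (by rw [hQa, hQa])
    (by rw [hQa, hQa]) (ho _ _ _ (hp.ne (by decide))) (ho _ _ _ (hp.ne (by decide)))
    (h.orth _ _ (hr.ne (by decide)) _ (ha _ _) _ (ha _ _))
    (h.orth _ _ (hr.ne (by decide)) _ (ha _ _) _ (ha _ _))
    (h.orth _ _ (hr.ne (by decide)) _ (ha _ _) _ (ha _ _))
    (h.orth _ _ (hr.ne (by decide)) _ (ha _ _) _ (ha _ _)) ?_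
  intro x hx0 hx'
  rcases hx' with rfl | rfl
  · exact refl_sub_valSet h hframe ⟨hQa _ _, _, ha _ _⟩ ⟨hQa _ _, _, ha _ _⟩
      (h.orth _ _ (hr.ne (by decide)) _ (ha _ _) _ (ha _ _)) hx0
  · exact refl_sub_valSet h hframe ⟨hQa _ _, _, ha _ _⟩ ⟨hQa _ _, _, ha _ _⟩
      (ho _ _ _ (hp.ne (by decide))) hx0

end Defs

end Cfsg.Agent.NotMax
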