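import Cfsg.Agent.NotMax.OrthFrame

/-!
Non-maximal stabilisers of orthogonal decompositions with tiny members.
-/

set_option autoImplicit false
set_option linter.style.haveILetI false

namespace Cfsg.Agent.NotMax

open QuadraticMap Module Cfsg.Agent.Classical Cfsg.Agent.GeoClasses Cfsg.Agent.DecompMax
open scoped MatrixGroups Matrix

universe u

variable {ι : Type} [Fintype ι] [DecidableEq ι] {F : Type u} [Field F] [Fintype F]
variable {Q : QuadraticForm F (ι → F)} {t k : ℕ} {D : Fin t → Submodule F (ι → F)}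

omit [DecidableEq ι] [Fintype ι] in
/-- The three elements of the field. -/
theorem three_cases (hq : Fintype.card F = 3) : (3 : F) = 0 ∧ (2 : F) ≠ 0 ∧
    ∀ x : F, x = 0 ∨ x = 1 ∨ x = -1 := by
  classical
  have h3 := three_eq_zero_of_card hq
  have h2 : (2 : F) ≠ 0 := fun h => one_ne_zero (α := F) (by linear_combination h3 - h)
  refine ⟨h3, h2, fun x => ?_⟩
  rcases eq_or_ne x 0 with hx | hx
  · exact Or.inl hx
  have h := FiniteField.pow_card_sub_one_eq_one x hx
  rw [hq] at h
  have : (x - 1) * (x + 1) = 0 := by linear_combination h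
  rcases mul_eq_zero.1 this with e | e
  · exact Or.inr (Or.inl (sub_eq_zero.1 e))
  · exact Or.inr (Or.inr (eq_neg_of_add_eq_zero_left e))

variable (h : IsOrthDec Q k D)
include h

theorem transfer_family {κ : Type} {c : κ → κ → F} {v : κ → F} {i : Fin t}
    (hex : ∃ a : κ → ι → F, (∀ r, a r ∈ D i) ∧ (∀ r, Q (a r) = v r) ∧
      ∀ r s, r ≠ s → polar Q (a r) (a s) = c r s) (j : Fin t) :
    ∃ a : κ → ι → F, (∀ r, a r ∈ D j) ∧ (∀ r, Q (a r) = v r) ∧
      ∀ r s, r ≠ s → polar Q (a r) (a s) = c r s := by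
  obtain ⟨a, ha, hQa, hp⟩ := hex
  obtain ⟨e, he⟩ := h.iso i j
  refine ⟨fun r => (e ⟨a r, ha r⟩ : ι → F), fun r => (e _).2, fun r => (he _).trans (hQa r),
    fun r s hrs => ?_⟩
  have h1 : Q ((e ⟨a r, ha r⟩ : ι → F) + (e ⟨a s, ha s⟩ : ι → F)) = Q (a r + a s) := by
    have := he (⟨a r, ha r⟩ + ⟨a s, ha s⟩)
    rwa [map_add, Submodule.coe_add, Submodule.coe_add] at this
  rw [← hp r s hrs]
  simp only [QuadraticMap.polar, h1, he ⟨a r, ha r⟩, he ⟨a s, ha s⟩]

variable (h13 : 13 ≤ finrank F (ι → F))
include h13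

theorem card_le_mul : 13 ≤ t * k := by
  obtain ⟨b, -⟩ := ClassicalMax.exists_adapted_basis h.dec
  have := Module.finrank_eq_card_basis b
  rw [Fintype.card_prod, Fintype.card_fin, Fintype.card_fin] at this
  rw [mul_comm]; omega

omit h13 in
theorem exists_perp_vec (hk : 2 ≤ k) {i : Fin t} {a : ι → F} (ha : a ∈ D i) :
    ∃ b ∈ D i, b ≠ 0 ∧ polar Q a b = 0 := by
  obtain ⟨b, hb, hb0⟩ := (Submodule.ne_bot_iff _).1
    (show D i ⊓ LinearMap.ker (polarBilin Q a) ≠ ⊥ from fun hbot => by
      by_cases hex : ∃ x ∈ D i, polarBilin Q a x ≠ 0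
      · have := Forms.finrank_eq_inf_ker_add_one (D i) (polarBilin Q a) hex
        rw [hbot, finrank_bot, h.dec.finrank_eq] at this
        omega
      · push Not at hex
        have hle : D i ≤ D i ⊓ LinearMap.ker (polarBilin Q a) := le_inf le_rfl hex
        have := Submodule.finrank_mono (hbot ▸ hle)
        rw [finrank_bot, h.dec.finrank_eq] at this
        omega)
  exact ⟨b, hb.1, hb0, hb.2⟩

theorem anisotropic_planes_three (hq : Fintype.card F = 3) (hk : k = 2)
    (ha : ∀ i, ∀ x ∈ D i, Q x = 0 → x = 0) :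
    ∃ K, Cfsg.Geo.decompositionStabilizer D ⊓ Cfsg.Geo.omegaGL ⇑Q < K ∧
      K < Cfsg.Geo.omegaGL ⇑Q := by
  subst hk
  obtain ⟨h3, h2, hall⟩ := three_cases hq
  refine exists_between_frame h one_ne_zero h2 (by have := card_le_mul h h13; omega)
    ⟨1, 1, one_ne_zero, by linear_combination h3⟩ le_rfl ?_ fun i => ?_
  · intro x hx r s hrs
    rw [Fin.sum_univ_two] at hx
    fin_cases r <;> fin_cases s <;> simp only [Fin.zero_eta, Fin.mk_one] at hrs ⊢ <;>
      first
      | exact absurd rfl hrs
      | (rcases hall (x 0) with e | e | e <;> rcases hall (x 1) with e' | e' | e' <;>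
          first
          | exact Or.inl e
          | exact Or.inr e'
          | exact Or.inl e'
          | exact Or.inr e
          | (exfalso; rw [e, e'] at hx; exact one_ne_zero (α := F) (by linear_combination hx)))
  · obtain ⟨a, haD, hQa⟩ := (h.nd i).exists_value (le_of_eq (h.dec.finrank_eq i).symm) 1
    obtain ⟨b, hb, hb0, hab⟩ := exists_perp_vec h le_rfl haD
    have hQb : Q b = 1 := by
      rcases hall (Q b) with e | e | e
      · exact absurd (ha i b hb e) hb0
      · exact e
      · have := ha i (a + b) ((D i).add_mem haD hb) (by rw [qf_add, hQa, e, hab]; ring)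
        rw [eq_neg_of_add_eq_zero_right this, polar_neg_right, OrthGen.polar_self_two, hQa, mul_one,
          neg_eq_zero] at hab
        exact absurd hab h2
    refine ⟨![a, b], fun r => ?_, fun r => ?_, fun r s hrs => ?_⟩
    · fin_cases r <;> assumption
    · fin_cases r <;> assumption
    · fin_cases r <;> fin_cases s <;> simp at hrs ⊢
      · exact hab
      · rw [polar_comm]; exact hab

theorem three_spaces_three (hq : Fintype.card F = 3) (hk : k = 3) :
    ∃ K, Cfsg.Geo.decompositionStabilizer D ⊓ Cfsg.Geo.omegaGL ⇑Q < K ∧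
      K < Cfsg.Geo.omegaGL ⇑Q := by
  subst hk
  obtain ⟨h3, h2, hall⟩ := three_cases hq
  set i0 : Fin t := ⟨0, by have := h.dec.two_le; omega⟩
  obtain ⟨c, hc, hex⟩ : ∃ c : F, c ≠ 0 ∧ ∃ a : Fin 3 → ι → F, (∀ r, a r ∈ D i0) ∧
      (∀ r, Q (a r) = c) ∧ ∀ r s, r ≠ s → polar Q (a r) (a s) = 0 := by
    obtain ⟨a, ha, hQa⟩ := (h.nd i0).exists_value (by rw [h.dec.finrank_eq]; norm_num) 1
    have hne : ∀ {x : ι → F}, Q x = 1 → x ≠ 0 := fun hx e => by
      rw [e, map_zero] at hx; exact zero_ne_one hx
    have haa : polar Q a a ≠ 0 := by rwa [OrthGen.polar_self_two, hQa, mul_one]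
    obtain ⟨hU, hUd⟩ := (h.nd i0).inf_perp ((Submodule.span_singleton_le_iff_mem _ _).2 ha)
      (ndOn_singleton haa)
    rw [finrank_span_singleton (hne hQa), h.dec.finrank_eq] at hUd
    obtain ⟨b, hb, hQb⟩ := hU.exists_value (by omega) 1
    have hbb : polar Q b b ≠ 0 := by rwa [OrthGen.polar_self_two, hQb, mul_one]
    obtain ⟨hU', hUd'⟩ := hU.inf_perp ((Submodule.span_singleton_le_iff_mem _ _).2 hb)
      (ndOn_singleton hbb)
    rw [finrank_span_singleton (hne hQb)] at hUd'
    obtain ⟨d, hd, hQd⟩ := hU'.exists_ne_zero_value (by omega)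
    have hab : polar Q a b = 0 := hb.2 a (Submodule.mem_span_singleton_self a)
    have had : polar Q a d = 0 := hd.1.2 a (Submodule.mem_span_singleton_self a)
    have hbd : polar Q b d = 0 := hd.2 b (Submodule.mem_span_singleton_self b)
    rcases hall (Q d) with e | e | e
    · exact absurd e hQd
    · refine ⟨1, one_ne_zero, ![a, b, d], fun r => ?_, fun r => ?_, fun r s hrs => ?_⟩
      · fin_cases r
        · exact ha
        · exact hb.1
        · exact hd.1.1
      · fin_cases r <;> assumption
      · fin_cases r <;> fin_cases s <;> first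
          | exact absurd rfl hrs
          | assumption
          | (rw [polar_comm]; assumption)
    · have hpm : polar Q (a + b) (a - b) = 0 := by
        simp only [polar_add_left, polar_sub_right, OrthGen.polar_self_two, polar_comm Q b a, hab,
          hQa, hQb]
        ring
      have h1d : polar Q (a + b) d = 0 := by rw [polar_add_left, had, hbd, add_zero]
      have h2d : polar Q (a - b) d = 0 := by rw [polar_sub_left, had, hbd, sub_zero]
      refine ⟨-1, neg_ne_zero.2 one_ne_zero, ![a + b, a - b, d], fun r => ?_, fun r => ?_,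
        fun r s hrs => ?_⟩
      · fin_cases r
        · exact (D i0).add_mem ha hb.1
        · exact (D i0).sub_mem ha hb.1
        · exact hd.1.1
      · fin_cases r
        · show Q (a + b) = -1
          rw [qf_add, hQa, hQb, hab]; linear_combination h3
        · show Q (a - b) = -1
          rw [qf_sub, hQa, hQb, hab]; linear_combination h3
        · exact e
      · fin_cases r <;> fin_cases s <;> first
          | exact absurd rfl hrs
          | assumption
          | (rw [polar_comm]; assumption)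
  refine exists_between_frame h hc h2 (by have := card_le_mul h h13; omega)
    ⟨1, 1, one_ne_zero, by linear_combination h3⟩ (by norm_num) ?_ fun i =>
      transfer_family h (c := fun _ _ => (0 : F)) (v := fun _ => c) hex i
  intro x hx r s hrs
  by_contra hno
  rw [not_or] at hno
  have hsq : ∀ r, x r ≠ 0 → x r * x r = 1 := fun r hr => by
    rcases hall (x r) with e | e | e
    · exact absurd e hr
    · rw [e, one_mul]
    · rw [e, neg_mul_neg, one_mul]
  obtain ⟨u, hur, hus⟩ : ∃ u : Fin 3, u ≠ r ∧ u ≠ s := by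
    revert hrs; fin_cases r <;> fin_cases s <;> decide
  have hsum : x r * x r + x s * x s + x u * x u = 1 := by
    rw [← hx, ← Finset.sum_erase_add _ _ (Finset.mem_univ u)]
    congr 1
    have : (Finset.univ : Finset (Fin 3)).erase u = {r, s} := by
      revert hrs hur hus; fin_cases r <;> fin_cases s <;> fin_cases u <;> decide
    rw [this, Finset.sum_pair hrs]
  rw [hsq r hno.1, hsq s hno.2] at hsum
  by_cases hu : x u = 0
  · rw [hu] at hsum; exact one_ne_zero (α := F) (by linear_combination hsum)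
  · rw [hsq u hu] at hsum
    exact one_ne_zero (α := F) (by linear_combination h3 - hsum)

theorem hyperbolic_planes_three (hq : Fintype.card F = 3) (hk : k = 2)
    (hs : ∀ i, ∃ e ∈ D i, e ≠ 0 ∧ Q e = 0) :
    ∃ K, Cfsg.Geo.decompositionStabilizer D ⊓ Cfsg.Geo.omegaGL ⇑Q < K ∧
      K < Cfsg.Geo.omegaGL ⇑Q := by
  subst hk
  obtain ⟨h3, h2, hall⟩ := three_cases hq
  choose e he he0 hQe using hs
  choose f hf hQf hef using fun i => (h.nd i).exists_partner (he i) (he0 i) (hQe i)
  have hQp : ∀ i, Q (e i + f i) = 1 := fun i => by rw [qf_add, hQe, hQf, hef]; ring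
  have hQm : ∀ i, Q (e i - f i) = -1 := fun i => by rw [qf_sub, hQe, hQf, hef]; ring
  have hpm : ∀ i, polar Q (e i + f i) (e i - f i) = 0 := fun i => by
    simp only [polar_add_left, polar_sub_right, OrthGen.polar_self_two, hQe, hQf,
      polar_comm Q (f i) (e i), hef]
    ring
  have hP : ∀ i, e i + f i ∈ D i := fun i => (D i).add_mem (he i) (hf i)
  have hM : ∀ i, e i - f i ∈ D i := fun i => (D i).sub_mem (he i) (hf i)
  have horth : ∀ i, ∀ v ∈ valSet Q D (1 : F), polar Q (e i - f i) v = 0 := by
    rintro i v ⟨hQv, l, hl⟩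
    rcases eq_or_ne i l with rfl | hil
    swap
    · exact h.orth i l hil _ (hM i) _ hl
    have hfe : f i ∉ F ∙ e i := fun hm => by
      obtain ⟨r, hr⟩ := Submodule.mem_span_singleton.1 hm
      have := hef i
      rw [← hr, polar_smul_right, OrthGen.polar_self_two, hQe, mul_zero, smul_zero] at this
      exact zero_ne_one this
    obtain ⟨a, b, rfl⟩ := plane_span_pair (h.dec.finrank_eq i) (he i) (hf i) (he0 i) hfe hl
    have hab : a * b = 1 := by
      rw [← hQv]
      simp [qf_add, QuadraticMap.map_smul, hQe, hQf, hef, polar_smul_left, polar_smul_right, mul_comm]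
    have hab' : a = b := by
      rcases hall a with ea | ea | ea <;> rw [ea] at hab
      · simp at hab
      · rw [ea]; linear_combination -hab
      · rw [ea]; linear_combination hab
    simp only [polar_sub_left, polar_add_right, polar_smul_right, OrthGen.polar_self_two, hQe, hQf,
      hef, polar_comm Q (f i) (e i), smul_eq_mul]
    rw [hab']; ring
  have ht : 7 ≤ t := by have := card_le_mul h h13; omega
  let r : Fin 4 → Fin t := fun p => ⟨p.1, by omega⟩
  have hr : ∀ {p p' : Fin 4}, p ≠ p' → r p ≠ r p' := fun {p p'} hp e' =>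
    hp (Fin.ext (by simpa [r] using congrArg Fin.val e'))
  have hne : ∀ {p p' : Fin 4}, p ≠ p' → ∀ {x y : ι → F}, x ∈ D (r p) → y ∈ D (r p') →
      polar Q x y = 0 := fun hp _ _ hx hy => h.orth _ _ (hr hp) _ hx _ hy
  refine exists_between_valSet h (one_ne_zero (α := F)) h2 (by omega)
    ⟨1, 1, one_ne_zero, by linear_combination h3⟩ (fun i => ⟨_, hP i, hQp i⟩)
    (hr (show (0 : Fin 4) ≠ 1 by decide)) (hM (r 0)) (hM (r 1)) (hP (r 0))
    (fun e' => by have := hQp (r 0); rw [e', map_zero] at this; exact zero_ne_one this)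
    (by rw [hQm]; exact neg_ne_zero.2 one_ne_zero) (by rw [hQm, hQm])
    (a' := e (r 2) - f (r 2)) (b' := e (r 3) - f (r 3)) (by rw [hQm, hQm]) (by rw [hQm, hQm])
    (hne (by decide) (hM _) (hM _)) (by rw [polar_comm]; exact hpm _)
    (hne (by decide) (hM _) (hM _)) (hne (by decide) (hM _) (hM _))
    (hne (by decide) (hM _) (hP _)) (hne (by decide) (hM _) (hP _)) ?_
  intro x hx0 hx v hv
  rw [OrthGen.reflQ_fix Q hx0 (by
    rcases hx with rfl | rfl <;> rw [polar_sub_left, horth _ v hv, horth _ v hv, sub_zero])]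
  exact hv

theorem hyperbolic_planes_five (hq : Fintype.card F = 5) (hk : k = 2)
    (hs : ∀ i, ∃ e ∈ D i, e ≠ 0 ∧ Q e = 0) :
    ∃ K, Cfsg.Geo.decompositionStabilizer D ⊓ Cfsg.Geo.omegaGL ⇑Q < K ∧
      K < Cfsg.Geo.omegaGL ⇑Q := by
  subst hk
  have h5 : (5 : F) = 0 := by
    have := Nat.cast_card_eq_zero F
    rw [hq] at this
    simpa using this
  have h2 : (2 : F) ≠ 0 := fun h => one_ne_zero (α := F) (by linear_combination h5 - 2 * h)
  have h3 : (3 : F) ≠ 0 := fun h => one_ne_zero (α := F) (by linear_combination 2 * h - h5)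
  have hsq : ∀ x : F, x ≠ 0 → x * x = 1 ∨ x * x = -1 := fun x hx => by
    have h := FiniteField.pow_card_sub_one_eq_one x hx
    rw [hq] at h
    have : (x * x - 1) * (x * x + 1) = 0 := by linear_combination h
    rcases mul_eq_zero.1 this with e | e
    · exact Or.inl (sub_eq_zero.1 e)
    · exact Or.inr (eq_neg_of_add_eq_zero_left e)
  refine exists_between_frame h one_ne_zero h2 (by have := card_le_mul h h13; omega)
    ⟨2, 0, h2, by linear_combination h5⟩ le_rfl ?_ fun i => ?_
  · intro x hx r s hrs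
    rw [Fin.sum_univ_two] at hx
    by_contra hno
    rw [not_or] at hno
    have h0 : x 0 ≠ 0 ∧ x 1 ≠ 0 := by
      fin_cases r <;> fin_cases s <;> simp at hrs hno ⊢ <;> tauto
    rcases hsq _ h0.1 with e | e <;> rcases hsq _ h0.2 with e' | e' <;> rw [e, e'] at hx
    · exact one_ne_zero (α := F) (by linear_combination hx)
    · exact one_ne_zero (α := F) (by linear_combination -hx)
    · exact one_ne_zero (α := F) (by linear_combination -hx)
    · exact h3 (by linear_combination -hx)
  · obtain ⟨e, he, he0, hQe⟩ := hs i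
    obtain ⟨f, hf, hQf, hef⟩ := (h.nd i).exists_partner he he0 hQe
    refine ⟨![e + f, (2 : F) • e + (3 : F) • f], fun r => ?_, fun r => ?_, fun r s hrs => ?_⟩
    · fin_cases r
      · exact (D i).add_mem he hf
      · exact (D i).add_mem ((D i).smul_mem _ he) ((D i).smul_mem _ hf)
    · fin_cases r
      · show Q (e + f) = 1
        rw [qf_add, hQe, hQf, hef]; ring
      · show Q ((2 : F) • e + (3 : F) • f) = 1
        rw [qf_add, QuadraticMap.map_smul, QuadraticMap.map_smul, polar_smul_left, polar_smul_right,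
          hQe, hQf, hef]
        simp only [smul_eq_mul]
        linear_combination h5
    · have hp : polar Q (e + f) ((2 : F) • e + (3 : F) • f) = 0 := by
        simp only [polar_add_left, polar_add_right, polar_smul_right, OrthGen.polar_self_two, hQe, hQf,
          polar_comm Q f e, hef, smul_eq_mul]
        linear_combination h5
      fin_cases r <;> fin_cases s <;> first
        | exact absurd rfl hrs
        | exact hp
        | (rw [polar_comm]; exact hp)

omit [Fintype F] h13 in
theorem two_or_four_move [Finite F] {S : Set (ι → F)} {i j : Fin t} (hij : i ≠ j)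
    {u a w : ι → F} (hu : u ∈ D i) (ha : a ∈ D i) (hw : w ∈ D j) (hQu : Q u = 0) (hQa : Q a = 1)
    (hQw : Q w = 1) (hua : polar Q u a = 1) (haS : a ∈ S) (hS : ∀ v ∈ S, ∃ l, v ∈ D l) :
    ∃ g ∈ commutator (OQ Q), ∃ v ∈ S, g.1 v ∉ S := by
  obtain ⟨C⟩ := exists_components h.dec
  have huw : polar Q u w = 0 := h.orth i j hij u hu w hw
  refine ⟨siegel Q hQu huw, siegel_mem_commutator h.bnd (by have := h.card; omega) hQu huw, a, haS,
    fun hmem => ?_⟩
  rw [siegel_apply, hua, h.orth j i hij.symm w hw a ha, hQw, one_smul, zero_smul, sub_zero, one_mul,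
    one_smul] at hmem
  obtain ⟨l, hl⟩ := hS _ hmem
  rcases eq_or_ne l j with rfl | hlj
  · have := C.of_mem_ne (Ne.symm hij) hl
    rw [map_sub, map_add, C.of_mem ha, C.of_mem_ne hij.symm hw, add_zero, C.of_mem hu,
      sub_eq_zero] at this
    rw [this, hQu] at hQa
    exact zero_ne_one hQa
  · have := C.of_mem_ne hlj hl
    rw [map_sub, map_add, C.of_mem_ne hij ha, C.of_mem hw, C.of_mem_ne hij hu, zero_add, sub_zero] at this
    rw [this, map_zero] at hQw
    exact zero_ne_one hQw

omit [Fintype F] h13 in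
theorem siegel_not_mem_decSub (C : Components D) {p r s : Fin t} (hpr : p ≠ r) (hps : p ≠ s)
    (hrs : r ≠ s) {a₀ a₁ a₂ x : ι → F} (h₀ : a₀ ∈ D p) (h₁ : a₁ ∈ D r) (h₂ : a₂ ∈ D s) (hx : x ∈ D p)
    (hQ₁ : Q a₁ ≠ 0) (hQ₂ : Q a₂ = 1) (hax : polar Q a₀ x = 1) (hu : Q (a₀ + a₁) = 0)
    (hw : polar Q (a₀ + a₁) a₂ = 0) : siegel Q hu hw ∉ decSub Q D := by
  intro hmem
  obtain ⟨σ, hσ⟩ := exists_perm_of_mem_decSub hmem
  have himg : (siegel Q hu hw).1 x ∈ D (σ p) := by rw [← hσ p]; exact ⟨_, hx, rfl⟩
  rw [siegel_apply, polar_add_left Q a₀ a₁ x, hax, h.orth r p hpr.symm a₁ h₁ x hx,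
    h.orth s p hps.symm a₂ h₂ x hx, hQ₂, add_zero, one_smul, zero_smul, sub_zero, one_mul,
    one_smul] at himg
  by_cases e2 : σ p = s
  · rw [e2] at himg
    have := C.of_mem_ne hrs.symm himg
    rw [map_sub, map_add, map_add, C.of_mem_ne hpr hx, C.of_mem_ne hrs.symm h₂, C.of_mem_ne hpr h₀,
      C.of_mem h₁, add_zero, zero_add, zero_sub, neg_eq_zero] at this
    exact hQ₁ (by rw [this, map_zero])
  · have := C.of_mem_ne e2 himg
    rw [map_sub, map_add, map_add, C.of_mem_ne hps hx, C.of_mem h₂, C.of_mem_ne hps h₀,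
      C.of_mem_ne hrs h₁, add_zero, zero_add, sub_zero] at this
    rw [this, map_zero] at hQ₂
    exact zero_ne_one hQ₂

theorem hyperbolic_planes_two (hq : Fintype.card F = 2) (hk : k = 2)
    (hs : ∀ i, ∃ e ∈ D i, e ≠ 0 ∧ Q e = 0) :
    ∃ K, Cfsg.Geo.decompositionStabilizer D ⊓ Cfsg.Geo.omegaGL ⇑Q < K ∧
      K < Cfsg.Geo.omegaGL ⇑Q := by
  subst hk
  obtain ⟨C⟩ := exists_components h.dec
  have h01 := eq_zero_or_one_of_two hq
  have h2 : (2 : F) = 0 := (h01 2).resolve_right fun h => one_ne_zero (α := F) (by linear_combination h)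
  choose e he he0 hQe using hs
  choose f hf hQf hef using fun i => (h.nd i).exists_partner (he i) (he0 i) (hQe i)
  have hQa : ∀ i, Q (e i + f i) = 1 := fun i => by rw [qf_add, hQe, hQf, hef]; ring
  have hA : ∀ i, e i + f i ∈ D i := fun i => (D i).add_mem (he i) (hf i)
  have horth : ∀ i, ∀ v ∈ valSet Q D (1 : F), polar Q (e i + f i) v = 0 := by
    rintro i v ⟨hQv, l, hl⟩
    rcases eq_or_ne i l with rfl | hil
    swap
    · exact h.orth i l hil _ (hA i) _ hl
    have hfe : f i ∉ F ∙ e i := fun hm => by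
      obtain ⟨r, hr⟩ := Submodule.mem_span_singleton.1 hm
      have := hef i
      rw [← hr, polar_smul_right, OrthGen.polar_self_two, hQe, mul_zero, smul_zero] at this
      exact zero_ne_one this
    obtain ⟨a, b, rfl⟩ := plane_span_pair (h.dec.finrank_eq i) (he i) (hf i) (he0 i) hfe hl
    have hab : a * b = 1 := by
      rw [← hQv]
      simp [qf_add, QuadraticMap.map_smul, hQe, hQf, hef, polar_smul_left, polar_smul_right, mul_comm]
    rcases h01 a with ea | ea <;> rw [ea] at hab
    · simp at hab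
    rw [one_mul] at hab
    rw [ea, hab, one_smul, one_smul, OrthGen.polar_self_two, h2, zero_mul]
  have ht : 7 ≤ t := by have := card_le_mul h h13; omega
  let r : Fin 4 → Fin t := fun p => ⟨p.1, by omega⟩
  have hr : ∀ {p p' : Fin 4}, p ≠ p' → r p ≠ r p' := fun {p p'} hp e' =>
    hp (Fin.ext (by simpa [r] using congrArg Fin.val e'))
  refine exists_between_setStab (valSet Q D (1 : F)) (fun g hg => valSet_invariant hg) ?_
    (two_or_four_move h (hr (show (0 : Fin 4) ≠ 1 by decide)) (he _) (hA _) (hA _) (hQe _) (hQa _)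
      (hQa _) (by rw [polar_add_right, OrthGen.polar_self_two, hQe, hef, mul_zero, zero_add])
      ⟨hQa _, _, hA _⟩ fun v hv => hv.2)
  set u := (e (r 0) + f (r 0)) + (e (r 1) + f (r 1)) with hu
  have hQu : Q u = 0 := by
    rw [hu, qf_add, hQa, hQa, h.orth _ _ (hr (by decide)) _ (hA _) _ (hA _)]
    linear_combination h2
  have huw : polar Q u (e (r 2) + f (r 2)) = 0 := by
    rw [hu, polar_add_left, h.orth _ _ (hr (by decide)) _ (hA _) _ (hA _),
      h.orth _ _ (hr (by decide)) _ (hA _) _ (hA _), add_zero]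
  refine ⟨siegel Q hQu huw, siegel_mem_commutator h.bnd (by have := h.card; omega) hQu huw,
    fun v hv => ?_, fun hmem => ?_⟩
  · rw [siegel_fix Q hQu huw (by rw [hu, polar_add_left, horth _ v hv, horth _ v hv, add_zero])
      (horth _ v hv)]
    exact hv
  · exact siegel_not_mem_decSub h C (hr (show (0 : Fin 4) ≠ 1 by decide))
      (hr (show (0 : Fin 4) ≠ 2 by decide)) (hr (show (1 : Fin 4) ≠ 2 by decide)) (hA _) (hA _) (hA _)
      (he _) (by rw [hQa]; exact one_ne_zero) (hQa _)
      (by rw [polar_add_left, OrthGen.polar_self_two, hQe, polar_comm Q (f (r 0)), hef]; ring)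
      hQu huw hmem

theorem hyperbolic_planes_four (hq : Fintype.card F = 4) (hk : k = 2)
    (hs : ∀ i, ∃ e ∈ D i, e ≠ 0 ∧ Q e = 0) :
    ∃ K, Cfsg.Geo.decompositionStabilizer D ⊓ Cfsg.Geo.omegaGL ⇑Q < K ∧
      K < Cfsg.Geo.omegaGL ⇑Q := by
  classical
  subst hk
  obtain ⟨C⟩ := exists_components h.dec
  have h2 : (2 : F) = 0 := two_eq_zero_of_even_card (by rw [hq]; decide)
  have hroot : ∀ x : F, x ≠ 0 → x ≠ 1 → x * x + x + 1 = 0 := fun x h0 h1 => by
    have h' := FiniteField.pow_card_sub_one_eq_one x h0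
    rw [hq] at h'
    have : (x - 1) * (x * x + x + 1) = 0 := by linear_combination h'
    exact (mul_eq_zero.1 this).resolve_left (sub_ne_zero.2 h1)
  obtain ⟨μ, -, hμ⟩ := Finset.exists_mem_notMem_of_card_lt_card
    (s := ({0, 1} : Finset F)) (t := Finset.univ) (by
      rw [Finset.card_univ, hq]; exact lt_of_le_of_lt Finset.card_le_two (by norm_num))
  simp only [Finset.mem_insert, Finset.mem_singleton, not_or] at hμ
  obtain ⟨hμ0, hμ1⟩ := hμ
  have hμr := hroot μ hμ0 hμ1
  choose e he he0 hQe using hs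
  choose f hf hQf hef using fun i => (h.nd i).exists_partner (he i) (he0 i) (hQe i)
  set A : Fin t → ι → F := fun i => e i + f i with hAdef
  set B : Fin t → ι → F := fun i => μ • e i + μ⁻¹ • f i with hBdef
  have hQA : ∀ i, Q (A i) = 1 := fun i => by rw [hAdef]; simp [qf_add, hQe, hQf, hef]
  have hQB : ∀ i, Q (B i) = 1 := fun i => by
    rw [hBdef]
    simp [qf_add, QuadraticMap.map_smul, hQe, hQf, hef, polar_smul_left, polar_smul_right, hμ0]
  have hA : ∀ i, A i ∈ D i := fun i => (D i).add_mem (he i) (hf i)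
  have hB : ∀ i, B i ∈ D i := fun i => (D i).add_mem ((D i).smul_mem _ (he i)) ((D i).smul_mem _ (hf i))
  have hAB : ∀ i, polar Q (A i) (B i) = 1 := fun i => by
    rw [hAdef, hBdef]
    simp only [polar_add_left, polar_add_right, polar_smul_right, OrthGen.polar_self_two, hQe, hQf,
      polar_comm Q (f i) (e i), hef, smul_eq_mul]
    field_simp
    linear_combination hμr - μ * h2
  have h01 : ∀ v ∈ valSet Q D (1 : F), ∀ w ∈ valSet Q D (1 : F),
      polar Q v w = 0 ∨ polar Q v w = 1 := by
    rintro v ⟨hQv, i, hi⟩ w ⟨hQw, j, hj⟩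
    rcases eq_or_ne i j with rfl | hij
    swap
    · exact Or.inl (h.orth i j hij v hi w hj)
    have hfe : f i ∉ F ∙ e i := fun hm => by
      obtain ⟨r, hr⟩ := Submodule.mem_span_singleton.1 hm
      have := hef i
      rw [← hr, polar_smul_right, OrthGen.polar_self_two, hQe, mul_zero, smul_zero] at this
      exact zero_ne_one this
    obtain ⟨a, b, rfl⟩ := plane_span_pair (h.dec.finrank_eq i) (he i) (hf i) (he0 i) hfe hi
    obtain ⟨a', b', rfl⟩ := plane_span_pair (h.dec.finrank_eq i) (he i) (hf i) (he0 i) hfe hj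
    have hab : a * b = 1 := by
      rw [← hQv]
      simp [qf_add, QuadraticMap.map_smul, hQe, hQf, hef, polar_smul_left, polar_smul_right, mul_comm]
    have hab' : a' * b' = 1 := by
      rw [← hQw]
      simp [qf_add, QuadraticMap.map_smul, hQe, hQf, hef, polar_smul_left, polar_smul_right, mul_comm]
    have hp : polar Q (a • e i + b • f i) (a' • e i + b' • f i) = a * b' + b * a' := by
      simp only [polar_add_left, polar_add_right, polar_smul_left, polar_smul_right,
        OrthGen.polar_self_two, hQe, hQf, polar_comm Q (f i) (e i), hef, smul_eq_mul]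
      ring
    rw [hp]
    have hr : a * b' * (b * a') = 1 := by linear_combination (a' * b') * hab + hab'
    by_cases h1 : a * b' = 1
    · refine Or.inl ?_
      rw [h1, one_mul] at hr
      rw [h1, hr]; linear_combination h2
    · refine Or.inr ?_
      have h' := hroot _ (left_ne_zero_of_mul_eq_one hr) h1
      have := left_ne_zero_of_mul_eq_one hr
      apply mul_left_cancel₀ this
      linear_combination h' + hr - (a * b') * h2
  set L := AddSubgroup.closure (valSet Q D (1 : F)) with hL
  have hmL : ∀ {v : ι → F}, v ∈ valSet Q D (1 : F) → v ∈ L := fun hv => AddSubgroup.subset_closure hv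
  have hL01 : ∀ s ∈ valSet Q D (1 : F), ∀ v ∈ L, polar Q v s = 0 ∨ polar Q v s = 1 := by
    intro s hs v hv
    induction hv using AddSubgroup.closure_induction with
    | mem x hx => exact h01 x hx s hs
    | zero => exact Or.inl (polar_zero_left _ _)
    | add x y _ _ hx hy =>
      rw [polar_add_left]
      rcases hx with a | a <;> rcases hy with b | b <;> rw [a, b]
      · exact Or.inl (add_zero _)
      · exact Or.inr (zero_add _)
      · exact Or.inr (add_zero _)
      · exact Or.inl (by linear_combination h2)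
    | neg x _ hx =>
      rw [polar_neg_left]
      rcases hx with a | a <;> rw [a]
      · exact Or.inl neg_zero
      · exact Or.inr (by linear_combination -h2)
  have hmap : ∀ g : OQ Q, (∀ v ∈ valSet Q D (1 : F), g.1 v ∈ L) → ∀ v ∈ L, g.1 v ∈ L := by
    intro g hg v hv
    induction hv using AddSubgroup.closure_induction with
    | mem x hx => exact hg x hx
    | zero => rw [map_zero]; exact L.zero_mem
    | add x y _ _ hx hy => rw [map_add]; exact L.add_mem hx hy
    | neg x _ hx => rw [map_neg]; exact L.neg_mem hx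
  have ht : 7 ≤ t := by have := card_le_mul h h13; omega
  let r : Fin 4 → Fin t := fun p => ⟨p.1, by omega⟩
  have hr : ∀ {p p' : Fin 4}, p ≠ p' → r p ≠ r p' := fun {p p'} hp e' =>
    hp (Fin.ext (by simpa [r] using congrArg Fin.val e'))
  have hne : ∀ {p p' : Fin 4}, p ≠ p' → ∀ {x y : ι → F}, x ∈ D (r p) → y ∈ D (r p') →
      polar Q x y = 0 := fun hp _ _ hx hy => h.orth _ _ (hr hp) _ hx _ hy
  set u := A (r 0) + A (r 1) with hu
  have hQu : Q u = 0 := by
    rw [hu, qf_add, hQA, hQA, hne (by decide) (hA _) (hA _)]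
    linear_combination h2
  have huw : polar Q u (A (r 2)) = 0 := by
    rw [hu, polar_add_left, hne (by decide) (hA _) (hA _), hne (by decide) (hA _) (hA _), add_zero]
  have huB : polar Q u (B (r 0)) = 1 := by
    rw [hu, polar_add_left, hAB, hne (by decide) (hA _) (hB _), add_zero]
  have hn5 : 5 ≤ finrank F (ι → F) := by have := h.card; omega
  refine exists_between_setStab (L : Set (ι → F))
    (fun g hg => hmap g fun v hv => hmL (valSet_invariant hg v hv))
    ⟨siegel Q hQu huw, siegel_mem_commutator h.bnd hn5 hQu huw,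
      hmap _ fun v hv => ?_, fun hmem => ?_⟩ ?_
  · have hval : ∀ i, A i ∈ valSet Q D (1 : F) := fun i => ⟨hQA i, i, hA i⟩
    have huL : u ∈ L := L.add_mem (hmL (hval _)) (hmL (hval _))
    have h1 : ∀ {c : F} {x : ι → F}, x ∈ L → (c = 0 ∨ c = 1) → c • x ∈ L := by
      rintro c x hx (rfl | rfl)
      · rw [zero_smul]; exact L.zero_mem
      · rwa [one_smul]
    rw [siegel_apply, hQA, one_mul]
    refine L.sub_mem (L.sub_mem (L.add_mem (hmL hv) (h1 (hmL (hval _)) ?_)) (h1 huL ?_)) (h1 huL ?_)
    all_goals rw [polar_comm]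
    exacts [hL01 _ hv u huL |>.imp (fun e => by rw [polar_comm]; exact e)
      (fun e => by rw [polar_comm]; exact e), h01 v hv _ (hval _),
      hL01 _ hv u huL |>.imp (fun e => by rw [polar_comm]; exact e)
      (fun e => by rw [polar_comm]; exact e)]
  · exact siegel_not_mem_decSub h C (hr (show (0 : Fin 4) ≠ 1 by decide))
      (hr (show (0 : Fin 4) ≠ 2 by decide)) (hr (show (1 : Fin 4) ≠ 2 by decide)) (hA _) (hA _) (hA _)
      (hB _) (by rw [hQA]; exact one_ne_zero) (hQA _) (hAB _) hQu huw hmem
  · have hu' : Q (μ • u) = 0 := by rw [QuadraticMap.map_smul, hQu, smul_zero]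
    have huw' : polar Q (μ • u) (A (r 2)) = 0 := by rw [polar_smul_left, huw, smul_zero]
    refine ⟨siegel Q hu' huw', siegel_mem_commutator h.bnd hn5 hu' huw', B (r 0),
      hmL ⟨hQB _, _, hB _⟩, fun hmem => ?_⟩
    rw [siegel_apply, polar_smul_left, huB, hne (show (2 : Fin 4) ≠ 0 by decide) (hA _) (hB _),
      smul_eq_mul, mul_one, zero_smul, sub_zero, hQA, one_mul] at hmem
    rcases hL01 (B (r 2)) ⟨hQB _, _, hB _⟩ _ hmem with e1 | e1 <;>
      rw [hu, polar_sub_left, polar_add_left, polar_smul_left, hne (by decide) (hB _) (hB _),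
        hAB, polar_smul_left, polar_smul_left, polar_add_left, hne (by decide) (hA _) (hB _),
        hne (by decide) (hA _) (hB _)] at e1 <;> simp at e1
    · exact hμ0 e1
    · exact hμ1 e1

theorem plus_four_spaces_two (hq : Fintype.card F = 2) (hk : k = 4)
    (hs : ∀ i, ∃ S : Submodule F (ι → F), S ≤ D i ∧ (∀ s ∈ S, Q s = 0) ∧ finrank F S = 2) :
    ∃ K, Cfsg.Geo.decompositionStabilizer D ⊓ Cfsg.Geo.omegaGL ⇑Q < K ∧
      K < Cfsg.Geo.omegaGL ⇑Q := by
  classical
  subst hk
  obtain ⟨C⟩ := exists_components h.dec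
  have h01 := eq_zero_or_one_of_two hq
  have h2 : (2 : F) = 0 := (h01 2).resolve_right fun h => one_ne_zero (α := F) (by linear_combination h)
  -- two orthogonal anisotropic planes in each member
  have hbasis : ∀ i, ∃ a a' b b' e : ι → F, a ∈ D i ∧ a' ∈ D i ∧ b ∈ D i ∧ b' ∈ D i ∧ e ∈ D i ∧
      Q a = 1 ∧ Q a' = 1 ∧ Q b = 1 ∧ Q b' = 1 ∧ Q e = 0 ∧ polar Q e a = 1 ∧
      polar Q a a' = 1 ∧ polar Q b b' = 1 ∧
      polar Q a b = 0 ∧ polar Q a b' = 0 ∧ polar Q a' b = 0 ∧ polar Q a' b' = 0 := by
    intro i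
    obtain ⟨S, hSD, hS0, hS2⟩ := hs i
    have hne : S ≠ ⊥ := fun e => by rw [e, finrank_bot] at hS2; omega
    obtain ⟨e, heS, he0⟩ := (Submodule.ne_bot_iff _).1 hne
    obtain ⟨f, hf, hQf, hef⟩ := (h.nd i).exists_partner (hSD heS) he0 (hS0 e heS)
    obtain ⟨w, hwS, hwn⟩ := plane_exists_not_mem hS2 he0
    set e' := w - polar Q w f • e with he'
    have he'S : e' ∈ S := S.sub_mem hwS (S.smul_mem _ heS)
    have hwe : ∀ {p r : ι → F}, p ∈ S → r ∈ S → polar Q p r = 0 := fun hp hr =>
      Forms.polar_eq_zero_of_totallySingular (fun x hx => hS0 x hx) hp hr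
    have he'0 : e' ≠ 0 := fun e0 => hwn (by
      rw [he', sub_eq_zero] at e0
      rw [e0]; exact Submodule.mem_span_singleton.2 ⟨_, rfl⟩)
    have he'f : polar Q e' f = 0 := by
      rw [he', polar_sub_left, polar_smul_left, hef, smul_eq_mul, mul_one, sub_self]
    have hPW : Submodule.span F (Set.range ![e, f]) ≤ D i := Submodule.span_le.2 (by
      rintro _ ⟨p, rfl⟩; fin_cases p
      · exact hSD heS
      · exact hf)
    obtain ⟨hP, hP2⟩ := ndOn_pair (Q := Q) hef (by rw [hS0 e heS]; simp)
    obtain ⟨hU, -⟩ := (h.nd i).inf_perp hPW hP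
    have he'U : e' ∈ D i ⊓ OrthGen.perpSub Q (Submodule.span F (Set.range ![e, f])) := by
      refine ⟨hSD he'S, fun z hz => ?_⟩
      rw [Matrix.range_cons, Matrix.range_cons, Matrix.range_empty, Set.union_empty,
        Set.singleton_union, Submodule.mem_span_pair] at hz
      obtain ⟨p, r, rfl⟩ := hz
      show polar Q _ e' = 0
      rw [polar_add_left, polar_smul_left, polar_smul_left, hwe heS he'S, polar_comm Q f e', he'f]
      simp
    obtain ⟨f', hf', hQf', hef'⟩ := hU.exists_partner he'U he'0 (hS0 e' he'S)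
    have hef0 : polar Q e f' = 0 := hf'.2 e (Submodule.subset_span ⟨0, rfl⟩)
    have hff' : polar Q f f' = 0 := hf'.2 f (Submodule.subset_span ⟨1, rfl⟩)
    have hQe := hS0 e heS
    have hQe' := hS0 e' he'S
    have hee' := hwe heS he'S
    refine ⟨e + f, e + (e' + f'), e' + f', e' + (e + f), e, (D i).add_mem (hSD heS) hf,
      (D i).add_mem (hSD heS) ((D i).add_mem (hSD he'S) hf'.1), (D i).add_mem (hSD he'S) hf'.1,
      (D i).add_mem (hSD he'S) ((D i).add_mem (hSD heS) hf), hSD heS, ?_, ?_, ?_, ?_, hQe, ?_, ?_,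
      ?_, ?_, ?_, ?_, ?_⟩
    all_goals
      simp only [qf_add, polar_add_left, polar_add_right, OrthGen.polar_self_two, hQe, hQf, hQe',
        hQf', hee', polar_comm Q e' e, polar_comm Q f e, hef, hef', polar_comm Q f' e', he'f,
        polar_comm Q f e', hef0, polar_comm Q f' e, hff', polar_comm Q f' f, h2]
      first
        | linear_combination (0 : F) * h2
        | linear_combination h2
  choose a a' b b' e ha ha' hb hb' he hQa hQa' hQb hQb' hQe hea haa' hbb' hab hab' ha'b ha'b' using hbasis
  have hsplit : ∀ i, ∀ v ∈ D i, Q v = 1 →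
      (∃ p r : F, v = p • a i + r • a' i) ∨ (polar Q (a i) v = 0 ∧ polar Q (a' i) v = 0) := by
    intro i v hv hQv
    set p := polar Q (a' i) v
    set r := polar Q (a i) v
    by_cases h0 : p = 0 ∧ r = 0
    · exact Or.inr ⟨h0.2, h0.1⟩
    refine Or.inl ⟨p, r, ?_⟩
    set w := v - p • a i - r • a' i with hw
    have hwD : w ∈ D i := (D i).sub_mem ((D i).sub_mem hv ((D i).smul_mem _ (ha i)))
      ((D i).smul_mem _ (ha' i))
    have hwa : polar Q (a i) w = 0 := by
      rw [hw, polar_sub_right, polar_sub_right, polar_smul_right, polar_smul_right, haa',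
        OrthGen.polar_self_two, h2]
      simp [r]
    have hwa' : polar Q (a' i) w = 0 := by
      rw [hw, polar_sub_right, polar_sub_right, polar_smul_right, polar_smul_right,
        polar_comm Q (a' i) (a i), haa', OrthGen.polar_self_two, h2]
      simp [p]
    set p' := polar Q (b' i) w
    set r' := polar Q (b i) w
    have hwb : w = p' • b i + r' • b' i := by
      by_contra hne
      apply sub_ne_zero.2 hne
      refine h.nd i _ ((D i).sub_mem hwD ((D i).add_mem ((D i).smul_mem _ (hb i))
        ((D i).smul_mem _ (hb' i)))) ?_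
      have hli : LinearIndependent F ![a i, a' i, b i, b' i] := by
        rw [Fintype.linearIndependent_iff]
        intro g hg
        simp only [Fin.sum_univ_four, Matrix.cons_val_zero, Matrix.cons_val_one, Matrix.cons_val_two,
          Matrix.cons_val_three, Matrix.head_cons, Matrix.tail_cons] at hg
        have k : ∀ z, g 0 * polar Q (a i) z + g 1 * polar Q (a' i) z + g 2 * polar Q (b i) z +
            g 3 * polar Q (b' i) z = 0 := fun z => by
          have := congrArg (fun x => polar Q x z) hg
          simpa [polar_add_left, polar_smul_left, smul_eq_mul] using this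
        have k0 := k (a' i)
        have k1 := k (a i)
        have k2 := k (b' i)
        have k3 := k (b i)
        simp only [OrthGen.polar_self_two, h2, polar_comm Q (a' i) (a i), polar_comm Q (b i) (a i),
          polar_comm Q (b' i) (a i), polar_comm Q (b i) (a' i), polar_comm Q (b' i) (a' i),
          polar_comm Q (b' i) (b i), haa', hbb', hab, hab', ha'b, ha'b', zero_mul, mul_zero, mul_one,
          add_zero, zero_add] at k0 k1 k2 k3
        intro s
        fin_cases s <;> assumption
      have hspan : Submodule.span F (Set.range ![a i, a' i, b i, b' i]) = D i := by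
        refine Submodule.eq_of_le_of_finrank_eq (Submodule.span_le.2 (by
          rintro _ ⟨s, rfl⟩; fin_cases s
          exacts [ha i, ha' i, hb i, hb' i])) ?_
        rw [finrank_span_eq_card hli, Fintype.card_fin, h.dec.finrank_eq]
      intro y hy
      rw [← hspan, Submodule.mem_span_range_iff_exists_fun] at hy
      obtain ⟨g, rfl⟩ := hy
      simp only [Fin.sum_univ_four, Matrix.cons_val_zero, Matrix.cons_val_one, Matrix.cons_val_two,
        Matrix.cons_val_three, Matrix.head_cons, Matrix.tail_cons]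
      simp [polar_sub_left, polar_add_left, polar_add_right, polar_smul_left, polar_smul_right,
        polar_comm Q w, hwa, hwa', polar_comm Q (b i) (a i), polar_comm Q (b i) (a' i),
        polar_comm Q (b' i) (a i), polar_comm Q (b' i) (a' i), hab, hab', ha'b, ha'b', OrthGen.polar_self_two,
        h2, hbb', polar_comm Q (b' i) (b i), p', r']
    have hv' : v = (p • a i + r • a' i) + w := by rw [hw]; abel
    have hQw : Q w = p' * p' + r' * r' + p' * r' := by
      rw [hwb]
      simp [qf_add, QuadraticMap.map_smul, hQb, hQb', polar_smul_left, polar_smul_right, hbb', mul_comm]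
    have hQ1 : Q v = (p * p + r * r + p * r) + Q w := by
      conv_lhs => rw [hv']
      have : polar Q (p • a i + r • a' i) w = 0 := by
        rw [polar_add_left, polar_smul_left, polar_smul_left, hwa, hwa']; simp
      rw [qf_add, this, add_zero]
      simp [qf_add, QuadraticMap.map_smul, hQa, hQa', polar_smul_left, polar_smul_right, haa', mul_comm]
    have hne1 : p * p + r * r + p * r = 1 := by
      rcases h01 p with e1 | e1 <;> rcases h01 r with e2 | e2 <;> rw [e1, e2] at h0 ⊢
      · exact absurd ⟨rfl, rfl⟩ h0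
      · ring
      · ring
      · linear_combination h2
    have hw0 : p' = 0 ∧ r' = 0 := by
      rw [hQv, hne1, hQw] at hQ1
      rcases h01 p' with e1 | e1 <;> rcases h01 r' with e2 | e2 <;> rw [e1, e2] at hQ1 ⊢
      · exact ⟨rfl, rfl⟩
      all_goals exfalso
      all_goals first
        | exact one_ne_zero (α := F) (by linear_combination -hQ1)
        | exact one_ne_zero (α := F) (by linear_combination -hQ1 - h2)
    rw [hv', hwb, hw0.1, hw0.2, zero_smul, zero_smul, add_zero, add_zero]
  have ht : 4 ≤ t := by have := card_le_mul h h13; omega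
  obtain ⟨r, hr⟩ := exists_injective_fin (t := t) 2 (by omega)
  set i := r 0
  set j := r 1
  have hij : i ≠ j := hr.ne (by decide)
  set u := a i + a j with hu
  set w := a' i + a' j with hw
  have hQu : Q u = 0 := by
    rw [hu, qf_add, hQa, hQa, h.orth i j hij _ (ha i) _ (ha j)]; linear_combination h2
  have hQw : Q w = 0 := by
    rw [hw, qf_add, hQa', hQa', h.orth i j hij _ (ha' i) _ (ha' j)]; linear_combination h2
  have huw : polar Q u w = 0 := by
    rw [hu, hw, polar_add_left, polar_add_right, polar_add_right, haa', haa',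
      h.orth i j hij _ (ha i) _ (ha' j), h.orth j i hij.symm _ (ha j) _ (ha' i)]
    linear_combination h2
  set T := siegel Q hQu huw
  have hT : ∀ v, T.1 v = v + polar Q u v • w - polar Q w v • u := fun v => by
    rw [siegel_apply, hQw, zero_mul, zero_smul, sub_zero]
  have hneg : ∀ x : ι → F, -x = x := fun x => by
    rw [neg_eq_iff_add_eq_zero, ← two_smul F x, h2, zero_smul]
  have hxx : ∀ x : ι → F, x + x = 0 := fun x => by rw [← two_smul F x, h2, zero_smul]
  have hTa : T.1 (a i) = a j ∧ T.1 (a' i) = a' j ∧ T.1 (a j) = a i ∧ T.1 (a' j) = a' i := by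
    refine ⟨?_, ?_, ?_, ?_⟩ <;> rw [hT, hu, hw] <;>
      simp only [polar_add_left, OrthGen.polar_self_two, h2, zero_mul, haa', polar_comm Q (a' i) (a i),
        polar_comm Q (a' j) (a j), h.orth i j hij _ (ha i) _ (ha j), h.orth i j hij _ (ha i) _ (ha' j),
        h.orth i j hij _ (ha' i) _ (ha j), h.orth i j hij _ (ha' i) _ (ha' j),
        h.orth j i hij.symm _ (ha j) _ (ha i), h.orth j i hij.symm _ (ha j) _ (ha' i),
        h.orth j i hij.symm _ (ha' j) _ (ha i), h.orth j i hij.symm _ (ha' j) _ (ha' i),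
        add_zero, zero_add, zero_smul, one_smul, sub_eq_add_neg, hneg]
    all_goals
      abel_nf
      simp only [two_nsmul, two_zsmul, hxx, add_zero, zero_add]
  have hfix : ∀ l, ∀ v ∈ D l, (l = i → polar Q (a i) v = 0 ∧ polar Q (a' i) v = 0) →
      (l = j → polar Q (a j) v = 0 ∧ polar Q (a' j) v = 0) → T.1 v = v := by
    intro l v hv hi hj
    have h1 : ∀ {m : Fin t} {x : ι → F}, x ∈ D m → (l = m → polar Q x v = 0) → polar Q x v = 0 := by
      intro m x hx hm
      rcases eq_or_ne l m with e | hlm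
      · exact hm e
      · exact h.orth m l hlm.symm x hx v hv
    refine siegel_fix Q hQu huw ?_ ?_
    · rw [hu, polar_add_left, h1 (ha i) fun e => (hi e).1, h1 (ha j) fun e => (hj e).1, add_zero]
    · rw [hw, polar_add_left, h1 (ha' i) fun e => (hi e).2, h1 (ha' j) fun e => (hj e).2, add_zero]
  refine exists_between_setStab (valSet Q D (1 : F)) (fun g hg => valSet_invariant hg)
    ⟨T, siegel_mem_commutator h.bnd (by have := h.card; omega) hQu huw, ?_, fun hmem => ?_⟩
    (two_or_four_move h hij (he i) (ha i) (ha j) (hQe i) (hQa i) (hQa j) (hea i)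
      ⟨hQa i, i, ha i⟩ fun v hv => hv.2)
  · rintro v ⟨hQv, l, hl⟩
    refine ⟨by rw [OQ_map_app]; exact hQv, ?_⟩
    by_cases hli : l = i
    · subst hli
      rcases hsplit _ v hl hQv with ⟨p, s, rfl⟩ | hp
      · exact ⟨j, by rw [map_add, map_smul, map_smul, hTa.1, hTa.2.1]
                     exact (D j).add_mem ((D j).smul_mem _ (ha j)) ((D j).smul_mem _ (ha' j))⟩
      · exact ⟨_, (hfix _ v hl (fun _ => hp) fun e => absurd e hij).symm ▸ hl⟩
    by_cases hlj : l = j
    · subst hlj
      rcases hsplit _ v hl hQv with ⟨p, s, rfl⟩ | hp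
      · exact ⟨i, by rw [map_add, map_smul, map_smul, hTa.2.2.1, hTa.2.2.2]
                     exact (D i).add_mem ((D i).smul_mem _ (ha i)) ((D i).smul_mem _ (ha' i))⟩
      · exact ⟨_, (hfix _ v hl (fun e => absurd e hij.symm) fun _ => hp).symm ▸ hl⟩
    exact ⟨l, (hfix l v hl (fun e => absurd e hli) fun e => absurd e hlj).symm ▸ hl⟩
  · obtain ⟨σ, hσ⟩ := exists_perm_of_mem_decSub hmem
    have h1 : a j ∈ D (σ i) := by rw [← hσ i]; exact ⟨a i, ha i, hTa.1⟩
    have h3 : b i ∈ D (σ i) := by
      rw [← hσ i]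
      exact ⟨b i, hb i, hfix i (b i) (hb i) (fun _ => ⟨hab i, ha'b i⟩) fun e => absurd e hij⟩
    have hσj : σ i = j := by
      by_contra hne
      have := C.of_mem_ne hne h1
      rw [C.of_mem (ha j)] at this
      have h' := hQa j
      rw [this, map_zero] at h'
      exact zero_ne_one h'
    rw [hσj] at h3
    have := C.of_mem_ne hij.symm h3
    rw [C.of_mem (hb i)] at this
    have h' := hQb i
    rw [this, map_zero] at h'
    exact zero_ne_one h'

end Cfsg.Agent.NotMax
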