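import Cfsg.Agent.NotMax.Basic
import Cfsg.Agent.ClassicalMax.SympExceptions

/-!
Over the field with two elements the stabiliser of a decomposition into non-degenerate planes is not
maximal in the symplectic group.
-/

set_option autoImplicit false
set_option linter.style.haveILetI false

namespace Cfsg.Agent.NotMax

open Matrix Cfsg.Geo Module Cfsg.Agent.GeoClasses Cfsg.Agent.ClassicalMax Cfsg.Agent.Forms
open scoped MatrixGroups Matrix

variable {F : Type*} [Field F] [Fintype F] {m : ℕ}

theorem sp_decomposition_two (hm : 7 ≤ m) (hF : Fintype.card F = 2) {t : ℕ}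
    {D : Fin t → Submodule F (Fin m ⊕ Fin m → F)}
    (hD : IsNondegenerateMDecomposition (Cfsg.sympForm m F) 2 D) :
    ∃ K : Subgroup (GL (Fin m ⊕ Fin m) F),
      decompositionStabilizer D ⊓ Cfsg.spGL m F < K ∧ K < Cfsg.spGL m F := by
  classical
  obtain ⟨Q, hQ, hpol, hle⟩ := decomposition_le_quadSimilarityGroup_of_two hF hD
  have hnot : ¬ Cfsg.spGL m F ≤ quadSimilarityGroup Q := spGL_not_le_quadSimilarityGroup (by omega) hpol
  obtain ⟨b, hb⟩ := exists_adapted_basis hD.decomp
  have hcard := card_eq_mul b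
  rw [Fintype.card_sum, Fintype.card_fin] at hcard
  obtain ⟨j, hj⟩ := exists_injective_fin (t := t) 3 (by omega)
  have h01 : ∀ x : F, x = 0 ∨ x = 1 := fun x => eq_zero_or_one_of_two hF x
  have hadd : ∀ x y, Q (x + y) = Q x + Q y + Cfsg.sympForm m F x y := fun x y => by
    rw [← hpol, QuadraticMap.polar]; ring
  have hmem : ∀ l i, b (l, i) ∈ D i := fun l i => hb i ▸ Submodule.subset_span ⟨l, rfl⟩
  have hone : ∀ i, ∃ x ∈ D i, Q x = 1 ∧ ∃ l, b.equivFun x (l, i) ≠ 0 := by
    intro i
    rcases h01 (Q (b (0, i))) with a | a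
    swap
    · exact ⟨_, hmem 0 i, a, 0, by simp⟩
    rcases h01 (Q (b (1, i))) with c | c
    swap
    · exact ⟨_, hmem 1 i, c, 1, by simp⟩
    refine ⟨_, (D i).add_mem (hmem 0 i) (hmem 1 i), ?_, 0, by simp⟩
    obtain ⟨-, x, hx, hne⟩ := hD.nondegenerate i _ (hmem 0 i) (b.ne_zero _)
    rw [hb, Submodule.mem_span_range_iff_exists_fun] at hx
    obtain ⟨s, rfl⟩ := hx
    simp only [← sympBil_apply, Fin.sum_univ_two, map_add, map_smul, smul_eq_mul] at hne
    simp only [sympBil_apply, sympForm_self, mul_zero, zero_add] at hne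
    rw [hadd, a, c, (h01 _).resolve_left (right_ne_zero_of_mul hne), zero_add, zero_add]
  choose x hxD hxQ l hxl using hone
  obtain ⟨v, hQv, p, q, hpq, hp, hq⟩ : ∃ v, Q v = 1 ∧ ∃ p q : Fin 2 × Fin t, p.2 ≠ q.2 ∧
      b.equivFun v p ≠ 0 ∧ b.equivFun v q ≠ 0 := by
    refine ⟨x (j 0) + x (j 1) + x (j 2), ?_, (l (j 0), j 0), (l (j 1), j 1), hj.ne (by decide), ?_, ?_⟩
    · have ho : ∀ a c : Fin 3, a ≠ c → Cfsg.sympForm m F (x (j a)) (x (j c)) = 0 := fun a c h =>
        hD.orthogonal _ _ (hj.ne h) _ (hxD _) _ (hxD _)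
      have h2 : (2 : F) = 0 := two_eq_zero_of_even_card (by rw [hF]; decide)
      rw [hadd, hadd, hxQ, hxQ, hxQ, ← sympBil_apply, ← sympBil_apply, map_add, LinearMap.add_apply,
        sympBil_apply, sympBil_apply, sympBil_apply, ho 0 1 (by decide), ho 0 2 (by decide),
        ho 1 2 (by decide)]
      linear_combination h2
    · simp only [map_add, Pi.add_apply,
        (mem_block_iff hb).mp (hxD (j 1)) (l (j 0), j 0) (hj.ne (by decide)),
        (mem_block_iff hb).mp (hxD (j 2)) (l (j 0), j 0) (hj.ne (by decide)), add_zero]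
      exact hxl _
    · simp only [map_add, Pi.add_apply,
        (mem_block_iff hb).mp (hxD (j 0)) (l (j 1), j 1) (hj.ne (by decide)),
        (mem_block_iff hb).mp (hxD (j 2)) (l (j 1), j 1) (hj.ne (by decide)), zero_add, add_zero]
      exact hxl _
  have hv0 : v ≠ 0 := fun h => hp (by simp [h])
  refine exists_between (X := quadSimilarityGroup Q) (inf_le_left.trans hle)
    ⟨spTau v 1, ⟨1, fun x => ?_⟩, spTau_mem v 1, transvec_not_mem_of_two_blocks hD.decomp le_rfl hb
      (spTau_isTransvec v 1) (by rw [one_smul]; exact sympDual_ne_zero hv0) p q hpq hp hq⟩ hnot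
  rw [spTau_mulVec, one_mul, Units.val_one, one_mul, hadd, hQ.smul, hQv, ← hpol x (Cfsg.sympForm m F x v • v),
    hQ.polar_bilinear.smul_right, hpol]
  rcases h01 (Cfsg.sympForm m F x v) with h | h
  · simp [h]
  · have h2 : (2 : F) = 0 := two_eq_zero_of_even_card (by rw [hF]; decide)
    simp [h, add_assoc]
    linear_combination h2

end Cfsg.Agent.NotMax
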