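import Cfsg.Agent.NotMax.OrthFrameCases
import Cfsg.Agent.ClassicalMax.SympExceptions

/-!
Over three elements a tensor member `O₃ ⊗ O_n` of an orthogonal group lies in an imprimitive member.
-/

set_option autoImplicit false
set_option linter.style.haveILetI false

namespace Cfsg.Agent.NotMax

open Matrix QuadraticMap Module Cfsg.Agent.Classical Cfsg.Agent.GeoClasses Cfsg.Agent.DecompMax
open Cfsg.Geo
open scoped MatrixGroups Matrix Kronecker

universe u

variable {ι : Type} [Fintype ι] [DecidableEq ι] {F : Type u} [Field F]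

theorem pure_action {n₁ n₂ : ℕ} (e : ι ≃ Fin n₁ × Fin n₂) (P g : GL ι F)
    (hg : g ∈ tensorProductSubgroup n₁ n₂ e P) :
    ∃ (a : GL (Fin n₁) F) (b : GL (Fin n₂) F), ∀ (y : Fin n₁ → F) (z : Fin n₂ → F),
      (g : Matrix ι ι F) *ᵥ ((P : Matrix ι ι F) *ᵥ ((fun p => y p.1 * z p.2) ∘ e)) =
        (P : Matrix ι ι F) *ᵥ ((fun p => ((a : Matrix (Fin n₁) (Fin n₁) F) *ᵥ y) p.1 *
          ((b : Matrix (Fin n₂) (Fin n₂) F) *ᵥ z) p.2) ∘ e) := by
  obtain ⟨_, ⟨k, ⟨a, b, hk⟩, rfl⟩, hg⟩ := hg
  simp only [MulEquiv.toMonoidHom_eq_coe, MonoidHom.coe_coe, MulAut.conj_apply] at hg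
  refine ⟨a, b, fun y z => ?_⟩
  rw [← hg, Matrix.mulVec_mulVec, ← Units.val_mul, inv_mul_cancel_right, Units.val_mul,
    ← Matrix.mulVec_mulVec]
  congr 1
  have hval : ((glReindex e.symm k : GL ι F) : Matrix ι ι F) =
      Matrix.reindex e.symm e.symm (k : Matrix (Fin n₁ × Fin n₂) (Fin n₁ × Fin n₂) F) := rfl
  rw [hval, Matrix.reindex_apply, Equiv.symm_symm, Matrix.submatrix_mulVec_equiv, Function.comp_assoc,
    Equiv.self_comp_symm, Function.comp_id]
  congr 1
  funext p
  rw [hk]
  simp only [Matrix.mulVec, dotProduct, Matrix.kroneckerMap_apply, Finset.sum_mul_sum,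
    Fintype.sum_prod_type]
  exact Finset.sum_congr rfl fun i _ => Finset.sum_congr rfl fun j _ => by ring

/-- Similitudes of a three-dimensional form over three elements are isometries. -/
theorem similitude_eq_one [Fintype F] (hq : Fintype.card F = 3) {B : LinearMap.BilinForm F (Fin 3 → F)}
    {w : Basis (Fin 3) F (Fin 3 → F)} {ε : F} (hε : ε ≠ 0)
    (hw : ∀ i j, B (w i) (w j) = if i = j then ε else 0)
    {A : (Fin 3 → F) →ₗ[F] (Fin 3 → F)} {ν : F} (hν : ν ≠ 0)
    (hA : ∀ y y', B (A y) (A y') = ν * B y y') : ν = 1 := by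
  obtain ⟨-, h2, hall⟩ := three_cases hq
  have he : B.comp A A = ν • B := by
    refine LinearMap.ext fun y => LinearMap.ext fun y' => ?_
    simp [hA]
  have h := congrArg Matrix.det (congrArg (LinearMap.BilinForm.toMatrix w) he)
  rw [LinearMap.BilinForm.toMatrix_comp w w, map_smul, Matrix.det_mul, Matrix.det_mul,
    Matrix.det_transpose, Matrix.det_smul, Fintype.card_fin] at h
  have hdiag : LinearMap.BilinForm.toMatrix w B = Matrix.diagonal fun _ => ε := by
    ext i j
    simp [LinearMap.BilinForm.toMatrix_apply, hw, Matrix.diagonal_apply]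
  have hG : (LinearMap.BilinForm.toMatrix w B).det ≠ 0 := by
    rw [hdiag, Matrix.det_diagonal]; simp [hε]
  set d := (LinearMap.toMatrix w w A).det
  have hd : d * d = ν ^ 3 := mul_right_cancel₀ hG (by linear_combination h)
  rcases hall ν with e | e | e
  · exact absurd e hν
  · exact e
  · exfalso
    rw [e] at hd
    rcases hall d with e' | e' | e' <;> rw [e'] at hd
    · exact one_ne_zero (α := F) (by linear_combination hd)
    · exact h2 (by linear_combination hd)
    · exact h2 (by linear_combination hd)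

/-- Over three elements the stabiliser of a tensor decomposition `3 ⊗ n` is not maximal. -/
theorem orth_tensor_not_maximal [Fintype F] (hq : Fintype.card F = 3) {Q : (ι → F) → F}
    (hQ : IsNondegenerateQuadraticForm Q) (hn : 13 ≤ Fintype.card ι) {n₂ : ℕ} (h4 : 4 ≤ n₂)
    (e : ι ≃ Fin 3 × Fin n₂) (P : GL ι F)
    {f₁ : (Fin 3 → F) → (Fin 3 → F) → F} {f₂ : (Fin n₂ → F) → (Fin n₂ → F) → F}
    (hf₁ : IsSymmetricForm f₁) (hf₂ : IsSymmetricForm f₂)
    (hT : IsTensorFormStructure id (QuadraticMap.polar Q) f₁ f₂ e P) :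
    ∃ K : Subgroup (GL ι F), tensorProductSubgroup 3 n₂ e P ⊓ omegaGL Q < K ∧ K < omegaGL Q := by
  classical
  obtain ⟨h3, h2, hall⟩ := three_cases hq
  obtain ⟨c, hc, hform⟩ := hT
  set Qf := toQF hQ with hQf
  let B₁ : LinearMap.BilinForm F (Fin 3 → F) :=
    LinearMap.mk₂ F f₁ hf₁.bilinear.add_left hf₁.bilinear.smul_left hf₁.bilinear.add_right hf₁.bilinear.smul_right
  have hB₁ : B₁.Nondegenerate := by
    constructor <;> intro x hx <;> by_contra h0
    · obtain ⟨-, y, hy⟩ := hf₁.nondegenerate x h0; exact hy (hx y)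
    · obtain ⟨⟨y, hy⟩, -⟩ := hf₁.nondegenerate x h0; exact hy (hx y)
  have hS₁ : B₁.IsSymm := ⟨fun x y => by simpa [B₁] using hf₁.symm x y⟩
  obtain ⟨w, ε, hε, hw⟩ := ClassicalMax.exists_constant_basis_three hq hS₁ hB₁
  let L : Fin 3 → (Fin n₂ → F) →ₗ[F] (ι → F) := fun i =>
    { toFun := fun z => (P : Matrix ι ι F) *ᵥ ((fun p : Fin 3 × Fin n₂ => w i p.1 * z p.2) ∘ e)
      map_add' := fun z z' => by simp only [← Matrix.mulVec_add]; congr 1; funext p; simp [mul_add]
      map_smul' := fun b z => by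
        simp only [RingHom.id_apply, ← Matrix.mulVec_smul]; congr 1; funext p; simp; ring }
  have hgen : ∀ (y y' : Fin 3 → F) (z z' : Fin n₂ → F),
      polar Qf ((P : Matrix ι ι F) *ᵥ ((fun p => y p.1 * z p.2) ∘ e))
        ((P : Matrix ι ι F) *ᵥ ((fun p => y' p.1 * z' p.2) ∘ e)) = c * (f₁ y y' * f₂ z z') := by
    intro y y' z z'
    show QuadraticMap.polar Q _ _ = _
    rw [hform, ClassicalMax.formOfGram_kronecker, ← ClassicalMax.formOfGram_eq hf₁.bilinear,
      ← ClassicalMax.formOfGram_eq hf₂.bilinear]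
  have hL : ∀ i j z z', polar Qf (L i z) (L j z') = c * ((if i = j then ε else 0) * f₂ z z') := by
    intro i j z z'
    simp only [L, LinearMap.coe_mk, AddHom.coe_mk]
    rw [hgen, show f₁ (w i) (w j) = B₁ (w i) (w j) from rfl, hw]
  have hLnd : ∀ i z, (∀ z', polar Qf (L i z) (L i z') = 0) → z = 0 := by
    intro i z hz
    by_contra hz0
    obtain ⟨-, x, hx⟩ := hf₂.nondegenerate z hz0
    have := hz x
    rw [hL, if_pos rfl] at this
    exact mul_ne_zero hc (mul_ne_zero hε hx) this
  have hinj : ∀ i, Function.Injective (L i) := fun i => by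
    rw [← LinearMap.ker_eq_bot, LinearMap.ker_eq_bot']
    exact fun z hz => hLnd i z fun z' => by rw [hz, polar_zero_left]
  let D : Fin 3 → Submodule F (ι → F) := fun i => LinearMap.range (L i)
  have horth : ∀ i j, i ≠ j → ∀ u ∈ D i, ∀ v ∈ D j, polar Qf u v = 0 := by
    rintro i j hij _ ⟨z, rfl⟩ _ ⟨z', rfl⟩
    rw [hL, if_neg hij, zero_mul, mul_zero]
  have hnd : ∀ i, NdOn Qf (D i) := by
    rintro i _ ⟨z, rfl⟩ hz
    rw [hLnd i z fun z' => hz _ ⟨z', rfl⟩, map_zero]
  have hcard : Fintype.card ι = 3 * n₂ := by simpa using Fintype.card_congr e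
  have hfr : ∀ i, finrank F (D i) = n₂ := fun i => by
    rw [LinearMap.finrank_range_of_inj (hinj i), Module.finrank_fintype_fun_eq_card, Fintype.card_fin]
  have hdec : IsMDecomposition n₂ D :=
    { two_le := by norm_num
      pos := by omega
      finrank_eq := hfr
      indep := by
        rw [iSupIndep_def]
        intro i
        rw [Submodule.disjoint_def]
        intro x hx hx'
        refine hnd i x hx fun y hy => ?_
        have hle : (⨆ (j) (_ : j ≠ i), D j) ≤ LinearMap.ker (polarBilin Qf y) :=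
          iSup₂_le fun j hj v hv => by
            rw [LinearMap.mem_ker, polarBilin_apply_apply]; exact horth i j hj.symm y hy v hv
        rw [polar_comm]
        exact hle hx'
      iSup_eq_top := by
        let Φ : (Fin 3 → Fin n₂ → F) →ₗ[F] (ι → F) := ∑ i, (L i).comp (LinearMap.proj i)
        have hΦ : ∀ x, Φ x = ∑ i, L i (x i) := fun x => by simp [Φ]
        have hΦinj : Function.Injective Φ := by
          rw [← LinearMap.ker_eq_bot, LinearMap.ker_eq_bot']
          intro x hx
          funext i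
          refine hLnd i (x i) fun z' => ?_
          have := congrArg (fun v => polar Qf (L i z') v) (hx)
          simp only [hΦ, polar_zero_right] at this
          rw [← polarBilin_apply_apply, map_sum, Finset.sum_eq_single i
            (fun j _ hj => by rw [polarBilin_apply_apply, hL, if_neg hj.symm]; simp) (by simp),
            polarBilin_apply_apply] at this
          rw [polar_comm]; exact this
        have hsurj : Function.Surjective Φ :=
          (LinearMap.injective_iff_surjective_of_finrank_eq_finrank (by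
            rw [Module.finrank_pi_fintype]; simp [Module.finrank_fintype_fun_eq_card, hcard])).1 hΦinj
        rw [eq_top_iff]
        rintro v -
        obtain ⟨x, rfl⟩ := hsurj v
        rw [hΦ]
        exact Submodule.sum_mem _ fun i _ => Submodule.mem_iSup_of_mem i ⟨x i, rfl⟩ }
  have hiso : ∀ i j, AreIsometricFor ⇑Qf (D i) (D j) := by
    intro i j
    refine ⟨(LinearEquiv.ofInjective (L i) (hinj i)).symm.trans (LinearEquiv.ofInjective (L j) (hinj j)),
      fun v => ?_⟩
    obtain ⟨z, rfl⟩ := (LinearEquiv.ofInjective (L i) (hinj i)).surjective v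
    rw [LinearEquiv.trans_apply, LinearEquiv.symm_apply_apply]
    simp only [LinearEquiv.ofInjective_apply]
    have h1 := OrthGen.polar_self_two Qf (L j z)
    have h2' := OrthGen.polar_self_two Qf (L i z)
    rw [hL, if_pos rfl] at h1 h2'
    exact mul_left_cancel₀ h2 (h1.symm.trans h2')
  have hodec : IsOrthDec Qf n₂ D :=
    { bnd := bNondeg_toQF hQ
      card := by rw [Module.finrank_fintype_fun_eq_card]; omega
      dec := hdec
      orth := horth
      nd := hnd
      iso := hiso }
  obtain ⟨C⟩ := exists_components hdec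
  -- the action of tensor elements on the three members
  have hact : ∀ k : OQ Qf, oqToGL Qf k ∈ tensorProductSubgroup 3 n₂ e P →
      ∃ (τ : Fin 3 → Fin 3) (s : Fin 3 → F) (b : GL (Fin n₂) F), (∀ i, s i ≠ 0) ∧ ∀ i z,
        k.1 (L i z) = L (τ i) (s i • ((b : Matrix (Fin n₂) (Fin n₂) F) *ᵥ z)) := by
    intro k hk
    obtain ⟨a, b, hab⟩ := pure_action e P _ hk
    set A := Matrix.toLin' (a : Matrix (Fin 3) (Fin 3) F) with hA
    obtain ⟨z₀, z₁, hz⟩ : ∃ z₀ z₁, f₂ z₀ z₁ = 1 := by
      have h0 : (Pi.single ⟨0, by omega⟩ 1 : Fin n₂ → F) ≠ 0 := by simp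
      obtain ⟨-, x, hx⟩ := hf₂.nondegenerate _ h0
      exact ⟨_, (f₂ (Pi.single ⟨0, by omega⟩ 1) x)⁻¹ • x, by
        rw [hf₂.bilinear.smul_right, inv_mul_cancel₀ hx]⟩
    set μ := f₂ ((b : Matrix (Fin n₂) (Fin n₂) F) *ᵥ z₀) ((b : Matrix (Fin n₂) (Fin n₂) F) *ᵥ z₁)
    have hsim : ∀ y y', B₁ (A y) (A y') * μ = B₁ y y' := by
      intro y y'
      have h1 := OQ_polar k ((P : Matrix ι ι F) *ᵥ ((fun p => y p.1 * z₀ p.2) ∘ e))
        ((P : Matrix ι ι F) *ᵥ ((fun p => y' p.1 * z₁ p.2) ∘ e))
      rw [← oqToGL_mulVec, ← oqToGL_mulVec, hab, hab, hgen, hgen, hz, mul_one] at h1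
      exact mul_left_cancel₀ hc h1
    have hμ : μ ≠ 0 := fun e0 => by
      have := hsim (w 0) (w 0)
      rw [e0, mul_zero, hw, if_pos rfl] at this
      exact hε this.symm
    have hν := similitude_eq_one hq hε hw (A := A) (inv_ne_zero hμ) fun y y' => by
      rw [← hsim y y']; field_simp
    have hiso' : ∀ y y', B₁ (A y) (A y') = B₁ y y' := fun y y' => by
      have := hsim y y'
      rwa [inv_eq_one.1 hν, mul_one] at this
    have hone : ∀ i, ∃ j, ∃ s : F, s ≠ 0 ∧ A (w i) = s • w j := by
      intro i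
      set x := w.repr (A (w i))
      have hx : A (w i) = ∑ r, x r • w r := (w.sum_repr _).symm
      have hsum : x 0 * x 0 + x 1 * x 1 + x 2 * x 2 = 1 := by
        have h1 := hiso' (w i) (w i)
        rw [hw, if_pos rfl, hx] at h1
        simp only [Fin.sum_univ_three, map_add, map_smul, LinearMap.add_apply, LinearMap.smul_apply,
          hw, smul_eq_mul] at h1
        simp at h1
        exact mul_right_cancel₀ hε (by linear_combination h1)
      have hsq : ∀ r, x r ≠ 0 → x r * x r = 1 := fun r hr => by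
        rcases hall (x r) with e0 | e0 | e0
        · exact absurd e0 hr
        · rw [e0, one_mul]
        · rw [e0, neg_mul_neg, one_mul]
      rw [Fin.sum_univ_three] at hx
      by_cases h0 : x 0 = 0 <;> by_cases h1 : x 1 = 0 <;> by_cases h2 : x 2 = 0
      all_goals first
        | (refine ⟨0, x 0, h0, ?_⟩; rw [hx, h1, h2]; simp; done)
        | (refine ⟨1, x 1, h1, ?_⟩; rw [hx, h0, h2]; simp; done)
        | (refine ⟨2, x 2, h2, ?_⟩; rw [hx, h0, h1]; simp; done)
        | (exfalso; rw [h0, h1, h2] at hsum; exact one_ne_zero (α := F) (by linear_combination -hsum))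
        | (exfalso; rw [h0, hsq 1 h1, hsq 2 h2] at hsum; exact one_ne_zero (α := F) (by linear_combination hsum))
        | (exfalso; rw [h1, hsq 0 h0, hsq 2 h2] at hsum; exact one_ne_zero (α := F) (by linear_combination hsum))
        | (exfalso; rw [h2, hsq 0 h0, hsq 1 h1] at hsum; exact one_ne_zero (α := F) (by linear_combination hsum))
        | (exfalso; rw [hsq 0 h0, hsq 1 h1, hsq 2 h2] at hsum; exact one_ne_zero (α := F) (by linear_combination h3 - hsum))
    choose τ s hs hτ using hone
    refine ⟨τ, s, b, hs, fun i z => ?_⟩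
    simp only [L, LinearMap.coe_mk, AddHom.coe_mk]
    rw [← oqToGL_mulVec, hab]
    congr 1
    funext p
    have := hτ i
    rw [hA, Matrix.toLin'_apply] at this
    simp only [Function.comp_apply, this, Pi.smul_apply, smul_eq_mul]
    ring
  suffices ∃ K, tensorProductSubgroup 3 n₂ e P ⊓ omegaGL ⇑Qf < K ∧ K < omegaGL ⇑Qf by
    rwa [hQf, coe_toQF] at this
  refine exists_between_omega (X := decompositionStabilizer D) (fun k _ hk => ?_) ?_ ?_
  · obtain ⟨τ, s, b, -, hk'⟩ := hact k hk
    exact mem_decSub_of_forall (Q := Qf) hdec (g := k) fun i x hx => by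
      obtain ⟨z, rfl⟩ := hx
      exact ⟨τ i, by rw [hk']; exact ⟨_, rfl⟩⟩
  · obtain ⟨u, hu, hu0, hQu⟩ := Forms.exists_singular_vector_of_three_le Qf (S := D 0)
      (by rw [hfr]; omega)
    obtain ⟨f, hf, hQf0, huf⟩ := (hnd 0).exists_partner hu hu0 hQu
    obtain ⟨hP, hP2⟩ := ndOn_pair (Q := Qf) huf (by rw [hQu]; simp)
    obtain ⟨hU, hUd⟩ := (hnd 0).inf_perp (Submodule.span_le.2 (by
      rintro _ ⟨r, rfl⟩; fin_cases r
      · exact hu
      · exact hf)) hP
    rw [hP2, hfr] at hUd
    obtain ⟨y, hy, hQy⟩ := hU.exists_ne_zero_value (by omega)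
    have huy : polar Qf u y = 0 := hy.2 u (Submodule.subset_span ⟨0, rfl⟩)
    have hfy : polar Qf f y = 0 := hy.2 f (Submodule.subset_span ⟨1, rfl⟩)
    set T := siegel Qf hQu huy
    have hfix : ∀ i, i ≠ 0 → ∀ x ∈ D i, T.1 x = x := fun i hi x hx =>
      siegel_fix Qf hQu huy (horth 0 i hi.symm u hu x hx) (horth 0 i hi.symm y hy.1 x hx)
    refine ⟨T, siegel_mem_commutator hodec.bnd (by have := hodec.card; omega) hQu huy,
      mem_decSub_of_forall (Q := Qf) hdec fun i x hx => ⟨i, ?_⟩, fun hmem => ?_⟩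
    · rcases eq_or_ne i 0 with rfl | hi
      · rw [siegel_apply]
        exact (D 0).sub_mem ((D 0).sub_mem ((D 0).add_mem hx ((D 0).smul_mem _ hy.1))
          ((D 0).smul_mem _ hu)) ((D 0).smul_mem _ hu)
      · rw [hfix i hi x hx]; exact hx
    · obtain ⟨τ, s, b, hs, hk⟩ := hact T hmem
      have hbz : ∀ z, s 1 • ((b : Matrix (Fin n₂) (Fin n₂) F) *ᵥ z) = z := by
        intro z
        have h1 := hk 1 z
        rw [hfix 1 (by decide) _ ⟨z, rfl⟩] at h1
        rcases eq_or_ne (τ 1) 1 with e1 | e1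
        · rw [e1] at h1; exact (hinj 1 h1).symm
        · have h' : L 1 z ∈ D (τ 1) := h1 ▸ ⟨_, rfl⟩
          have := C.of_mem_ne e1 h'
          rw [C.of_mem ⟨z, rfl⟩] at this
          rw [(LinearMap.ker_eq_bot'.1 (LinearMap.ker_eq_bot.2 (hinj 1)) z this)]
          simp
      obtain ⟨z, rfl⟩ := hu
      obtain ⟨z', rfl⟩ := hf
      have himg : ∀ z, T.1 (L 0 z) = ((s 0) / s 1) • L (τ 0) z := fun z => by
        rw [hk 0 z, ← map_smul]
        congr 1
        conv_rhs => rw [← hbz z, smul_smul, div_mul_cancel₀ _ (hs 1)]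
      have hTu : T.1 (L 0 z) = L 0 z := siegel_fix Qf hQu huy
        (by rw [OrthGen.polar_self_two, hQu, mul_zero]) (by rw [polar_comm]; exact huy)
      have hτ0 : τ 0 = 0 := by
        by_contra hne
        have h' : L 0 z ∈ D (τ 0) := by
          rw [← hTu, himg]; exact Submodule.smul_mem _ _ ⟨z, rfl⟩
        have := C.of_mem_ne hne h'
        rw [C.of_mem ⟨z, rfl⟩] at this
        exact hu0 this
      have hσ : s 0 / s 1 = 1 := by
        have h1 := himg z
        rw [hTu, hτ0] at h1
        have : (1 - s 0 / s 1) • L 0 z = 0 := by rw [sub_smul, one_smul, ← h1, sub_self]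
        exact (sub_eq_zero.1 ((smul_eq_zero.1 this).resolve_right hu0)).symm
      have h1 := himg z'
      rw [hσ, hτ0, one_smul, siegel_apply, huf, polar_comm Qf y (L 0 z'), hfy, one_smul, zero_smul,
        sub_zero, mul_one, add_sub_assoc, add_eq_left, sub_eq_zero] at h1
      have h5 : Qf y = 0 := by rw [h1, QuadraticMap.map_smul, hQu, smul_zero]
      exact hQy h5
  · have hbig : IsBigDec Qf n₂ D :=
      { toIsOrthDec := hodec
        three := by omega
        two := fun h20 => absurd h20 h2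
        threeThree := fun h => by omega
        noPlus := fun h01 _ => by
          exfalso
          rcases h01 2 with e2 | e2
          · exact h2 e2
          · exact one_ne_zero (α := F) (by linear_combination e2) }
    obtain ⟨k, hk, hk'⟩ := SetLike.not_le_iff_exists.1 (commutator_not_le_decSub hbig)
    exact ⟨k, hk, hk'⟩

end Cfsg.Agent.NotMax
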