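import Cfsg.Agent.NotMax.TensorTwo
import Cfsg.Agent.NotMax.TensorOrth
import Cfsg.Agent.OrthMax.Proper

/-!
Over two elements a tensor member `Sp₂ ⊗ Sp_n` of an orthogonal group lies in the normaliser of a field
with four elements, which has an element of `Ω` outside the member.
-/

set_option autoImplicit false
set_option linter.style.haveILetI false
set_option linter.unusedSectionVars false

namespace Cfsg.Agent.NotMax

open Matrix QuadraticMap Module Cfsg.Agent.Classical Cfsg.Agent.GeoClasses Cfsg.Geo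
open scoped MatrixGroups Matrix Kronecker

universe u

variable {ι : Type} [Fintype ι] [DecidableEq ι] {F : Type u} [Field F]

/-- The vector of a pure tensor in given coordinates. -/
def pureVec {n₁ n₂ : ℕ} (e : ι ≃ Fin n₁ × Fin n₂) (P : GL ι F) (y : Fin n₁ → F) (z : Fin n₂ → F) : ι → F :=
  (P : Matrix ι ι F) *ᵥ ((fun p => y p.1 * z p.2) ∘ e)

theorem pureVec_add_left {n₁ n₂ : ℕ} (e : ι ≃ Fin n₁ × Fin n₂) (P : GL ι F) (y y' : Fin n₁ → F)
    (z : Fin n₂ → F) : pureVec e P (y + y') z = pureVec e P y z + pureVec e P y' z := by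
  simp only [pureVec, ← Matrix.mulVec_add]
  congr 1
  funext p
  simp [add_mul]

theorem pureVec_add_right {n₁ n₂ : ℕ} (e : ι ≃ Fin n₁ × Fin n₂) (P : GL ι F) (y : Fin n₁ → F)
    (z z' : Fin n₂ → F) : pureVec e P y (z + z') = pureVec e P y z + pureVec e P y z' := by
  simp only [pureVec, ← Matrix.mulVec_add]
  congr 1
  funext p
  simp [mul_add]

theorem coordAlg_kron_one_pureVec {n₁ n₂ : ℕ} (e : ι ≃ Fin n₁ × Fin n₂) (P : GL ι F)
    (A : Matrix (Fin n₁) (Fin n₁) F) (y : Fin n₁ → F) (z : Fin n₂ → F) :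
    coordAlg e P (A ⊗ₖ 1) *ᵥ pureVec e P y z = pureVec e P (A *ᵥ y) z := by
  rw [coordAlg_apply, pureVec, pureVec, Matrix.mulVec_mulVec, mul_assoc, Units.inv_mul, mul_one,
    ← Matrix.mulVec_mulVec, Matrix.reindexAlgEquiv_apply, Matrix.reindex_apply, Equiv.symm_symm,
    Matrix.submatrix_mulVec_equiv, Function.comp_assoc, Equiv.self_comp_symm, Function.comp_id]
  congr 1
  funext p
  simp [Matrix.mulVec, dotProduct, Fintype.sum_prod_type, Matrix.one_apply, Finset.sum_mul, mul_assoc]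

theorem exists_pureVec_sum {n₁ n₂ : ℕ} (e : ι ≃ Fin n₁ × Fin n₂) (P : GL ι F) (v : ι → F) :
    v ∈ Submodule.span F (Set.range fun q : (Fin n₁ → F) × (Fin n₂ → F) => pureVec e P q.1 q.2) := by
  classical
  set w : Fin n₁ × Fin n₂ → F := (((P⁻¹ : GL ι F) : Matrix ι ι F) *ᵥ v) ∘ e.symm
  have hv : v = ∑ p, w p • pureVec e P (Pi.single p.1 1) (Pi.single p.2 1) := by
    have h1 : v = (P : Matrix ι ι F) *ᵥ (w ∘ e) := by
      simp [w, Function.comp_assoc, Matrix.mulVec_mulVec]
    have h2 : w = ∑ p : Fin n₁ × Fin n₂, w p •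
        (fun r : Fin n₁ × Fin n₂ => Pi.single (M := fun _ => F) p.1 1 r.1 * Pi.single (M := fun _ => F) p.2 1 r.2) := by
      funext r
      rw [Finset.sum_apply, Finset.sum_eq_single r (fun p _ hp => ?_) (by simp)]
      · simp
      · rcases not_and_or.1 (fun h : p.1 = r.1 ∧ p.2 = r.2 => hp (Prod.ext h.1 h.2)) with h | h <;>
          simp [Pi.single_apply, Ne.symm h]
    have hlin : ∀ f : Fin n₁ × Fin n₂ → F, (P : Matrix ι ι F) *ᵥ (f ∘ e) =
        ((Matrix.toLin' (P : Matrix ι ι F)).comp (LinearMap.funLeft F F e)) f := fun f => by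
      simp [LinearMap.funLeft]
    conv_lhs => rw [h1, hlin, h2, map_sum]
    refine Finset.sum_congr rfl fun p _ => ?_
    rw [map_smul, ← hlin]
    rfl
  rw [hv]
  exact Submodule.sum_mem _ fun p _ => Submodule.smul_mem _ _
    (Submodule.subset_span ⟨(Pi.single p.1 1, Pi.single p.2 1), rfl⟩)

theorem orth_tensor_two [Fintype F] (hq : Fintype.card F = 2) {Q : (ι → F) → F}
    (hQ : IsNondegenerateQuadraticForm Q) (hn : 13 ≤ Fintype.card ι) {n₂ : ℕ} (h3 : 3 ≤ n₂)
    (e : ι ≃ Fin 2 × Fin n₂) (P : GL ι F)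
    {f₁ : (Fin 2 → F) → (Fin 2 → F) → F} {f₂ : (Fin n₂ → F) → (Fin n₂ → F) → F}
    (hf₁ : IsSymplecticForm f₁) (hf₂ : IsSymplecticForm f₂)
    (hT : IsTensorFormStructure id (QuadraticMap.polar Q) f₁ f₂ e P)
    (hpure : ∀ (y : Fin 2 → F) (z : Fin n₂ → F), Q (pureVec e P y z) = 0) :
    ∃ K : Subgroup (GL ι F), tensorProductSubgroup 2 n₂ e P ⊓ omegaGL Q < K ∧ K < omegaGL Q := by
  classical
  have h01 := eq_zero_or_one_of_two (F := F) hq
  have h2 : (2 : F) = 0 := two_eq_zero_of_even_card (by rw [hq]; decide)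
  obtain ⟨c₀, hc₀, hform⟩ := hT
  obtain rfl : c₀ = 1 := (h01 c₀).resolve_left hc₀
  set Qf := toQF hQ with hQf
  obtain ⟨K, hK, hle, hspanK, hΩK, -⟩ := exists_field_of_two (by omega : 2 ≤ n₂) hq e P
  set Om : Matrix ι ι F := coordAlg e P (omegaMat F ⊗ₖ 1)
  have hgen : ∀ (y y' : Fin 2 → F) (z z' : Fin n₂ → F),
      polar Qf (pureVec e P y z) (pureVec e P y' z') = f₁ y y' * f₂ z z' := by
    intro y y' z z'
    show QuadraticMap.polar Q _ _ = _
    rw [pureVec, pureVec, hform, ClassicalMax.formOfGram_kronecker, ← ClassicalMax.formOfGram_eq hf₁.bilinear,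
      ← ClassicalMax.formOfGram_eq hf₂.bilinear, one_mul]
  let ω : Matrix (Fin 2) (Fin 2) F := omegaMat F
  have hOm : ∀ y z, Om *ᵥ pureVec e P y z = pureVec e P (ω *ᵥ y) z :=
    fun y z => coordAlg_kron_one_pureVec e P _ y z
  have hωsq : ω * ω = ω + 1 := by
    have h11 : (1 : F) + 1 = 0 := by linear_combination h2
    ext i j
    fin_cases i <;> fin_cases j <;> simp [ω, omegaMat, Matrix.mul_apply, h11]
  have hOm2 : Om * Om = Om + 1 := by
    show coordAlg e P (ω ⊗ₖ 1) * coordAlg e P (ω ⊗ₖ 1) = _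
    rw [← map_mul, ← Matrix.mul_kronecker_mul, one_mul, hωsq, Matrix.add_kronecker, map_add,
      Matrix.one_kronecker_one, map_one]
  -- the form on the first factor
  let e₀ : Fin 2 → F := Pi.single 0 1
  let e₁ : Fin 2 → F := Pi.single 1 1
  have hy : ∀ y : Fin 2 → F, y = y 0 • e₀ + y 1 • e₁ := fun y => by
    funext i; fin_cases i <;> simp [e₀, e₁]
  have hf₁' : ∀ y y', f₁ y y' = (y 0 * y' 1 + y 1 * y' 0) * f₁ e₀ e₁ := by
    intro y y'
    conv_lhs => rw [hy y, hy y']
    simp only [hf₁.bilinear.add_left, hf₁.bilinear.add_right, hf₁.bilinear.smul_left, hf₁.bilinear.smul_right,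
      hf₁.alternating, hf₁.skew e₁ e₀]
    linear_combination (-(y 1 * y' 0 * f₁ e₀ e₁)) * h2
  have hωy : ∀ y : Fin 2 → F, ω *ᵥ y = ![y 1, y 0 + y 1] := fun y => by
    funext i
    fin_cases i <;> simp [ω, omegaMat, Matrix.mulVec, dotProduct, Fin.sum_univ_two]
  have hωinv : ∀ y y', f₁ (ω *ᵥ y) (ω *ᵥ y') = f₁ y y' := by
    intro y y'
    rw [hf₁', hf₁' y, hωy, hωy]
    simp only [Matrix.cons_val_zero, Matrix.cons_val_one]
    linear_combination (y 1 * y' 1 * f₁ e₀ e₁) * h2
  have hB : ∀ u v, polar Qf (Om *ᵥ u) (Om *ᵥ v) = polar Qf u v := by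
    let B' : LinearMap.BilinForm F (ι → F) :=
      (polarBilin Qf).compl₁₂ (Matrix.toLin' Om) (Matrix.toLin' Om)
    have hBeq : B' = polarBilin Qf := by
      have hsp : Submodule.span F (Set.range fun q : (Fin 2 → F) × (Fin n₂ → F) => pureVec e P q.1 q.2) = ⊤ :=
        eq_top_iff.2 fun v _ => exists_pureVec_sum e P v
      refine LinearMap.ext_on_range hsp fun q => LinearMap.ext_on_range hsp fun q' => ?_
      show polar Qf (Matrix.toLin' Om _) (Matrix.toLin' Om _) = polar Qf _ _
      rw [Matrix.toLin'_apply, Matrix.toLin'_apply, hOm, hOm, hgen, hgen, hωinv]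
    intro u v
    have := LinearMap.congr_fun (LinearMap.congr_fun hBeq u) v
    simpa [B'] using this
  -- the vectors
  obtain ⟨a, ha⟩ : ∃ a : Fin n₂ → F, a ≠ 0 := ⟨Pi.single ⟨0, by omega⟩ 1, by simp⟩
  let L₂ : LinearMap.BilinForm F (Fin n₂ → F) :=
    LinearMap.mk₂ F f₂ hf₂.bilinear.add_left hf₂.bilinear.smul_left hf₂.bilinear.add_right hf₂.bilinear.smul_right
  obtain ⟨b, hab, hba⟩ : ∃ b, f₂ a b = 0 ∧ b ∉ Submodule.span F {a} := by
    by_contra hno
    push Not at hno
    have h1 := Submodule.finrank_mono (show LinearMap.ker (L₂ a) ≤ Submodule.span F {a} from fun x hx => hno x hx)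
    have h2' := LinearMap.finrank_range_add_finrank_ker (L₂ a)
    have h4 := Submodule.finrank_le (LinearMap.range (L₂ a))
    rw [finrank_span_singleton ha] at h1
    rw [Module.finrank_self] at h4
    rw [Module.finrank_fintype_fun_eq_card, Fintype.card_fin] at h2'
    omega
  obtain ⟨z, haz, hbz⟩ : ∃ z, f₂ a z = 1 ∧ f₂ b z = 0 := by
    have hsurj : Function.Surjective L₂.flip := by
      refine (LinearMap.injective_iff_surjective_of_finrank_eq_finrank Subspace.dual_finrank_eq.symm).1 ?_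
      rw [← LinearMap.ker_eq_bot, LinearMap.ker_eq_bot']
      intro x hx
      by_contra h0
      obtain ⟨⟨y, hy'⟩, -⟩ := hf₂.nondegenerate x h0
      exact hy' (LinearMap.congr_fun hx y)
    have ha' : a ∉ Submodule.span F {b} := by
      intro h
      obtain ⟨r, hr⟩ := Submodule.mem_span_singleton.1 h
      have hr0 : r ≠ 0 := fun h0 => ha (by rw [← hr, h0, zero_smul])
      exact hba (Submodule.mem_span_singleton.2 ⟨r⁻¹, by rw [← hr, inv_smul_smul₀ hr0]⟩)
    obtain ⟨φ, hφa, hφ⟩ := exists_functional (x := a) ha'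
    obtain ⟨z, hz⟩ := hsurj φ
    exact ⟨z, (LinearMap.congr_fun hz a).trans hφa,
      (LinearMap.congr_fun hz b).trans (hφ b (Submodule.mem_span_singleton_self b))⟩
  have hfaa := hf₂.alternating a
  have hfbb := hf₂.alternating b
  have hba' : f₂ b a = 0 := by rw [hf₂.skew, hab, neg_zero]
  set c := pureVec e P e₀ a + pureVec e P (ω *ᵥ e₀) b with hc_def
  have hzero : ∀ (y y' : Fin 2 → F), polar Qf (pureVec e P y a) (pureVec e P y' b) = 0 := fun y y' => by
    rw [hgen, hab, mul_zero]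
  have hQpure : ∀ y z, Qf (pureVec e P y z) = 0 := hpure
  have hQc : Qf c = 0 := by rw [qf_add, hQpure, hQpure, hzero, add_zero, add_zero]
  set c' := Om *ᵥ c with hc'_def
  have hc' : c' = pureVec e P (ω *ᵥ e₀) a + pureVec e P (ω *ᵥ (ω *ᵥ e₀)) b := by
    rw [hc'_def, hc_def, Matrix.mulVec_add, hOm, hOm]
  have hcc : polar Qf c c' = 0 := by
    rw [hc', hc_def, polar_add_left, polar_add_right, polar_add_right, hgen, hgen, hgen, hgen, hfaa, hfbb, hab,
      hba']
    simp
  have hQc' : Qf c' = 0 := by rw [hc', qf_add, hQpure, hQpure, hzero, add_zero, add_zero]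
  set s := siegel Qf hQc hcc
  have hs : ∀ v, s.1 v = v + (polar Qf c v • c' - polar Qf c' v • c) := fun v => by
    rw [siegel_apply, hQc', zero_mul, zero_smul, sub_zero]; abel
  have hneg : ∀ v : ι → F, -v = v := fun v => neg_eq_of_add_eq_zero_left (by rw [← two_smul F v, h2, zero_smul])
  have hcomm : ∀ v, s.1 (Om *ᵥ v) = Om *ᵥ s.1 v := by
    intro v
    have hOO : ∀ x, Om *ᵥ (Om *ᵥ x) = Om *ᵥ x + x := fun x => by
      rw [Matrix.mulVec_mulVec, hOm2, Matrix.add_mulVec, Matrix.one_mulVec]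
    have h1 : polar Qf c' (Om *ᵥ v) = polar Qf c v := hB c v
    have h4 : polar Qf c (Om *ᵥ v) = polar Qf c v + polar Qf c' v := by
      rw [← hB c (Om *ᵥ v), hOO, polar_add_right, ← hc'_def, h1]
    rw [hs, hs, h1, h4, sub_eq_add_neg, sub_eq_add_neg, hneg, hneg, Matrix.mulVec_add, Matrix.mulVec_add,
      Matrix.mulVec_smul, Matrix.mulVec_smul, show Om *ᵥ c' = c' + c from hOO c, ← hc'_def]
    module
  have hn5 : 5 ≤ finrank F (ι → F) := by rw [Module.finrank_fintype_fun_eq_card]; omega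
  have hB0 : BNondeg Qf := bNondeg_toQF hQ
  suffices ∃ K', tensorProductSubgroup 2 n₂ e P ⊓ omegaGL ⇑Qf < K' ∧ K' < omegaGL ⇑Qf by
    rwa [hQf, coe_toQF] at this
  refine exists_between_omega (X := subalgebraNormalizer K) (fun k _ hk => hle hk) ?_ ?_
  · refine ⟨s, siegel_mem_commutator hB0 hn5 hQc hcc, ?_, ?_⟩
    · set g := oqToGL Qf s
      have hgO : (g : Matrix ι ι F) * Om = Om * (g : Matrix ι ι F) := by
        refine Matrix.ext_of_mulVec_single fun i => ?_
        rw [← Matrix.mulVec_mulVec, ← Matrix.mulVec_mulVec, oqToGL_mulVec, oqToGL_mulVec, hcomm]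
      have hfix : ∀ k ∈ K, (g : Matrix ι ι F) * k * ((g⁻¹ : GL ι F) : Matrix ι ι F) = k := by
        intro k hk
        obtain ⟨r₁, r₂, rfl⟩ := hspanK k hk
        rw [mul_add, Matrix.mul_smul, Matrix.mul_smul, mul_one, hgO, add_mul, Matrix.smul_mul, Matrix.smul_mul,
          Units.mul_inv, mul_assoc, Units.mul_inv, mul_one]
      intro k
      refine ⟨fun hk => by rw [hfix k hk]; exact hk, fun hk => ?_⟩
      have h' := hfix _ hk
      have h'' := congrArg (fun X => ((g⁻¹ : GL ι F) : Matrix ι ι F) * X * (g : Matrix ι ι F)) h'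
      simp only [mul_assoc, Units.inv_mul_cancel_left, Units.inv_mul, mul_one] at h''
      rw [← mul_assoc] at h''
      rw [h''] at hk
      exact hk
    · intro hS
      obtain ⟨A, B, hAB⟩ := pure_action e P _ hS
      have hωe : ω *ᵥ e₀ = e₁ := by rw [hωy]; funext i; fin_cases i <;> simp [e₀, e₁]
      have hf01 : f₁ e₁ e₀ = 1 := by
        have h0 : e₀ ≠ 0 := by simp [e₀]
        obtain ⟨-, x, hx⟩ := hf₁.nondegenerate e₀ h0
        rw [hf₁'] at hx
        rw [hf₁.skew, (h01 _).resolve_left (right_ne_zero_of_mul hx)]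
        linear_combination -h2
      have hv1 : polar Qf c (pureVec e P e₀ z) = 0 := by
        rw [hc_def, polar_add_left, hgen, hgen, hf₁.alternating, haz, hbz]; simp
      have hv2 : polar Qf c' (pureVec e P e₀ z) = 1 := by
        rw [hc', polar_add_left, hgen, hgen, hωe, hf01, haz, hbz]; simp
      have himg : s.1 (pureVec e P e₀ z) = pureVec e P e₀ (z + a) + pureVec e P e₁ b := by
        rw [hs, hv1, hv2, zero_smul, one_smul, zero_sub, hneg, hc_def, hωe, pureVec_add_right]
        abel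
      have hpa := hAB e₀ z
      rw [oqToGL_mulVec] at hpa
      change s.1 (pureVec e P e₀ z) = _ at hpa
      rw [himg] at hpa
      set y' := (A : Matrix (Fin 2) (Fin 2) F) *ᵥ e₀
      set z' := (B : Matrix (Fin n₂) (Fin n₂) F) *ᵥ z
      simp only [pureVec, ← Matrix.mulVec_add] at hpa
      have hfun := mulVec_injective P hpa
      have hrow : ∀ i r, e₀ i * (z r + a r) + e₁ i * b r = y' i * z' r := fun i r => by
        have := congrFun hfun (e.symm (i, r))
        simpa using this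
      have hr0 : y' 0 • z' = z + a := funext fun r => by
        have := hrow 0 r
        simp [e₀, e₁] at this
        simpa using this.symm
      have hr1 : y' 1 • z' = b := funext fun r => by
        have := hrow 1 r
        simp [e₀, e₁] at this
        simpa using this.symm
      have hk1 : y' 1 • (z + a) = y' 0 • b := by rw [← hr0, ← hr1, smul_comm]
      have := congrArg (f₂ a) hk1
      rw [hf₂.bilinear.smul_right, hf₂.bilinear.smul_right, hf₂.bilinear.add_right, haz, hfaa, hab] at this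
      simp at this
      refine hba ?_
      rw [← hr1, this, zero_smul]
      exact zero_mem _
  · obtain ⟨k, hk, hk'⟩ := SetLike.not_le_iff_exists.1
      (OrthMax.omega_not_le_subalgebraNormalizer hB0 (by omega) (by norm_num : 1 < 2) hK)
    rw [← map_oqToGL_commutator] at hk
    obtain ⟨x, hx, rfl⟩ := hk
    exact ⟨x, hx, hk'⟩

end Cfsg.Agent.NotMax
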