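import Cfsg.Agent.NotMax.Basic
import Cfsg.Agent.ClassicalMax.UnitaryExceptions
import Cfsg.Agent.ClassicalMax.UnitaryProper
import Cfsg.Agent.ClassicalMax.SympProper
import Cfsg.Agent.MaxSub.SympShapes
import Cfsg.Agent.DecompMax.Comp

/-!
Over tiny fields some imprimitive and tensor members lie in larger imprimitive members.
-/

set_option autoImplicit false
set_option linter.style.haveILetI false

namespace Cfsg.Agent.NotMax

open Matrix Cfsg.Geo Module Cfsg.Agent.GeoClasses Cfsg.Agent.ClassicalMax
open scoped MatrixGroups Matrix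

universe u

variable {F : Type u} [Field F]

/-- A transvection centred in a member, orthogonal to the other members, stabilises the decomposition. -/
theorem transvec_mem_decomp {ι : Type} [Fintype ι] [DecidableEq ι] {t k : ℕ}
    {D : Fin t → Submodule F (ι → F)} (hD : IsMDecomposition k D) {g : GL ι F}
    {φ : (ι → F) →ₗ[F] F} {v : ι → F} (hg : IsTransvec g φ v) {i : Fin t} (hv : v ∈ D i)
    (hφ : ∀ j, j ≠ i → ∀ x ∈ D j, φ x = 0) : g ∈ decompositionStabilizer D := by
  refine ⟨1, fun j => Submodule.eq_of_le_of_finrank_eq ?_ ?_⟩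
  · rintro _ ⟨x, hx, rfl⟩
    rw [Matrix.toLin'_apply, hg.apply_eq]
    rcases eq_or_ne j i with rfl | hji
    · exact (D j).add_mem hx ((D j).smul_mem _ hv)
    · rw [hφ j hji x hx, zero_smul, add_zero]; exact hx
  · rw [← (Submodule.equivMapOfInjective _ (by
      intro a b hab
      exact GeoClasses.mulVec_injective g (by simpa [Matrix.toLin'_apply] using hab)) (D j)).finrank_eq]
    rfl

variable [Fintype F]

theorem exists_isotropic_mem {n k : ℕ} (hF : Classical.U.SqField F 2) {t : ℕ}
    {D : Fin t → Submodule F (Fin n → F)} (hD : IsNondegenerateMDecomposition (Cfsg.hermForm n F 2) k D)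
    (hk : 2 ≤ k) (i : Fin t) : ∃ v ∈ D i, v ≠ 0 ∧ Cfsg.hermForm n F 2 v v = 0 := by
  have hf := hermForm_isUnitaryFormPow (n := n) hF
  have h2 := two_eq_zero_of_sqField hF
  have hne : D i ≠ ⊥ := fun e => by
    have := hD.decomp.finrank_eq i
    rw [e, finrank_bot] at this; omega
  obtain ⟨w, hw, hw0⟩ := (Submodule.ne_bot_iff _).1 hne
  rcases self_value hF hf w with hQ | hQ
  · exact ⟨w, hw, hw0, hQ⟩
  obtain ⟨z, hz, hz0⟩ := (Submodule.ne_bot_iff _).1
    (show D i ⊓ LinearMap.ker (hermDual 2 w) ≠ ⊥ from fun hbot => by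
      have h1 := Submodule.finrank_sup_add_finrank_inf_eq (D i) (LinearMap.ker (hermDual 2 w))
      have h2 := LinearMap.finrank_range_add_finrank_ker (hermDual (F := F) 2 w)
      have h3 := Submodule.finrank_le (LinearMap.range (hermDual (F := F) 2 w))
      have h4 := Submodule.finrank_le (D i ⊔ LinearMap.ker (hermDual 2 w))
      rw [hbot, finrank_bot, hD.decomp.finrank_eq] at h1
      rw [finrank_self] at h3
      omega)
  have hzw : Cfsg.hermForm n F 2 z w = 0 := by
    have := hz.2; rwa [SetLike.mem_coe, LinearMap.mem_ker, hermDual_apply] at this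
  rcases self_value hF hf z with hQz | hQz
  · exact ⟨z, hz.1, hz0, hQz⟩
  refine ⟨w + z, (D i).add_mem hw hz.1, fun e => ?_, ?_⟩
  · rw [eq_neg_of_add_eq_zero_right e] at hzw
    rw [← neg_one_smul F w, hf.smul_left, hQ, mul_one, neg_eq_zero] at hzw
    exact one_ne_zero hzw
  · rw [hf.add_left, hf.add_right' hF, hf.add_right' hF, hQ, hQz, hzw, hf.herm w z, hzw]
    simp only [ne_eq, OfNat.ofNat_ne_zero, not_false_eq_true, zero_pow, add_zero, zero_add]
    linear_combination h2

/-- The stabiliser of a decomposition into unitary planes over four elements is not maximal. -/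
theorem unitary_planes_not_maximal {n t : ℕ} (hn : 13 ≤ n) (hc : Fintype.card F = 4)
    {D : Fin t → Submodule F (Fin n → F)} (hD : IsNondegenerateMDecomposition (Cfsg.hermForm n F 2) 2 D) :
    ∃ K : Subgroup (GL (Fin n) F), decompositionStabilizer D ⊓ suGL n F 2 < K ∧ K < suGL n F 2 := by
  classical
  have hF : Classical.U.SqField F 2 := Classical.U.sqField_of_fintype (by rw [hc]; norm_num)
  have hf := hermForm_isUnitaryFormPow (n := n) hF
  have h2 := two_eq_zero_of_sqField hF
  obtain ⟨E, hE, hle⟩ := planes_le_frame hF hD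
  refine exists_between (X := decompositionStabilizer E)
    ((inf_le_inf_left _ inf_le_left).trans hle) ?_
    (suGL_not_le_frameStabilizer hF (by omega) (by omega) hE rfl)
  by_contra hno
  push Not at hno
  have hnz : ∀ i, ∃ a ∈ E i, a ≠ 0 := fun i => (Submodule.ne_bot_iff _).1 fun e => by
    have := hE.decomp.finrank_eq i
    rw [e, finrank_bot] at this; omega
  choose a ha ha0 using hnz
  have hline : ∀ i x, x ∈ E i → ∃ c : F, x = c • a i := fun i x hx => by
    obtain ⟨c, hc⟩ := exists_smul_eq_of_finrank_eq_one (hE.decomp.finrank_eq i) (x := ⟨a i, ha i⟩)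
      (fun h => ha0 i (congrArg Subtype.val h)) ⟨x, hx⟩
    exact ⟨c, (congrArg Subtype.val hc).symm⟩
  have haa : ∀ i, Cfsg.hermForm n F 2 (a i) (a i) = 1 := fun i => by
    refine (self_value hF hf (a i)).resolve_left fun h0 => ?_
    obtain ⟨⟨x, hx, hne⟩, -⟩ := hE.nondegenerate i (a i) (ha i) (ha0 i)
    obtain ⟨c, rfl⟩ := hline i x hx
    rw [hf.smul_left, h0, mul_zero] at hne
    exact hne rfl
  have hpair : ∀ i j, i ≠ j → ∀ s : F, s ≠ 0 → ∃ l, a i + s • a j ∈ D l := by
    intro i j hij s hs
    have hoij : ∀ {p r : Fin n}, p ≠ r → Cfsg.hermForm n F 2 (a p) (a r) = 0 := fun hpr =>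
      hE.orthogonal _ _ hpr _ (ha _) _ (ha _)
    set v := a i + s • a j with hv
    have hs3 := pow_three_of_ne_zero hF hs
    have hvv : Cfsg.hermForm n F 2 v v = 0 := by
      rw [hv, hf.add_left, hf.add_right' hF, hf.add_right' hF, hf.smul_left, hf.smul_left,
        hf.smul_right', hf.smul_right', haa, haa, hoij hij, hoij hij.symm]
      linear_combination hs3 + h2
    set g := uTau hvv (1 : F)
    have hgt := uTau_isTransvec hvv (1 : F)
    have hgU : g ∈ suGL n F 2 := uTau_mem hF hvv (by rw [one_pow]; linear_combination h2)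
    have happ : ∀ x, (g : Matrix (Fin n) (Fin n) F) *ᵥ x = x + Cfsg.hermForm n F 2 x v • v := fun x => by
      rw [hgt.apply_eq, LinearMap.smul_apply, hermDual_apply, one_smul]
    have hgE : g ∈ decompositionStabilizer E := by
      refine mem_decompositionStabilizer_of_maps hE.decomp (σ := Equiv.swap i j) (Equiv.injective _)
        fun l x hx => ?_
      obtain ⟨c, rfl⟩ := hline l x hx
      rw [Matrix.mulVec_smul, happ]
      refine Submodule.smul_mem _ _ ?_
      rw [hv, hf.add_right' hF, hf.smul_right']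
      rcases eq_or_ne l i with rfl | hli
      · rw [Equiv.swap_apply_left, haa, hoij hij, mul_zero, add_zero, one_smul]
        have : a l + (a l + s • a j) = s • a j := by
          rw [← add_assoc, ← two_smul F (a l), h2, zero_smul, zero_add]
        rw [this]; exact Submodule.smul_mem _ _ (ha j)
      rcases eq_or_ne l j with rfl | hlj
      · rw [Equiv.swap_apply_right, haa, hoij hij.symm, zero_add, mul_one, smul_add, smul_smul,
          show s ^ 2 * s = 1 by linear_combination hs3, one_smul]
        have : a l + (s ^ 2 • a i + a l) = s ^ 2 • a i := by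
          rw [add_left_comm, ← two_smul F (a l), h2, zero_smul, add_zero]
        rw [this]; exact Submodule.smul_mem _ _ (ha i)
      rw [Equiv.swap_apply_of_ne_of_ne hli hlj, hoij hli, hoij hlj, mul_zero, add_zero, zero_smul,
        add_zero]
      exact ha l
    obtain ⟨p, r, hmem, heq⟩ := transvec_centre_mem_sup hD.decomp hgt
      (by rw [one_smul]; exact hermDual_ne_zero hF (fun e => by
        have := congrArg (fun x => Cfsg.hermForm n F 2 x (a i)) e
        rw [hv, hf.add_left, hf.smul_left, haa, hoij hij.symm, mul_zero, add_zero, hf.zero_left'] at this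
        exact one_ne_zero this))
      (hno g hgE hgU)
    obtain rfl := heq le_rfl
    exact ⟨p, by simpa using hmem⟩
  obtain ⟨ω, hω, hω0, hω1⟩ := exists_omega hF
  have hω2 : ω ^ 2 ≠ 0 := pow_ne_zero _ hω0
  obtain ⟨C⟩ := DecompMax.exists_components hD.decomp
  have hsame : ∀ i j, i ≠ j → ∃ l, a i ∈ D l ∧ a j ∈ D l := by
    intro i j hij
    have two : ∀ {s s' : F} {l : Fin t}, s ≠ s' → a i + s • a j ∈ D l → a i + s' • a j ∈ D l →
        ∃ l, a i ∈ D l ∧ a j ∈ D l := by
      intro s s' l hss h1 h1'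
      have hj : a j ∈ D l := by
        have := (D l).smul_mem (s - s')⁻¹ ((D l).sub_mem h1 h1')
        rwa [add_sub_add_left_eq_sub, ← sub_smul, inv_smul_smul₀ (sub_ne_zero.2 hss)] at this
      refine ⟨l, ?_, hj⟩
      have := (D l).sub_mem h1 ((D l).smul_mem s hj)
      rwa [add_sub_cancel_right] at this
    obtain ⟨l₁, h1⟩ := hpair i j hij 1 one_ne_zero
    obtain ⟨l₂, h2'⟩ := hpair i j hij ω hω0
    obtain ⟨l₃, h3⟩ := hpair i j hij (ω ^ 2) hω2
    by_cases e12 : l₁ = l₂
    · subst e12; exact two (Ne.symm hω1) h1 h2'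
    by_cases e13 : l₁ = l₃
    · subst e13
      refine two (fun e => hω0 ?_) h1 h3
      linear_combination hω + e - h2
    by_cases e23 : l₂ = l₃
    · subst e23
      refine two (fun e => hω1 ?_) h2' h3
      exact (mul_left_cancel₀ hω0 (by rw [mul_one, ← pow_two]; exact e.symm))
    exfalso
    -- the three vectors satisfy a relation
    have hrel : ω • (a i + (1 : F) • a j) + (ω ^ 2 • (a i + ω • a j) + (1 : F) • (a i + ω ^ 2 • a j)) = 0 := by
      have h3 := pow_three_of_ne_zero hF hω0
      match_scalars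
      · linear_combination hω
      · linear_combination h3 + hω
    have := congrArg (C.proj l₁) hrel
    rw [map_add, map_add, map_smul, map_smul, map_smul, C.of_mem h1, C.of_mem_ne (Ne.symm e12) h2',
      C.of_mem_ne (Ne.symm e13) h3, map_zero] at this
    simp only [smul_zero, add_zero] at this
    have h0 := (smul_eq_zero.1 this).resolve_left hω0
    have := congrArg (fun x => Cfsg.hermForm n F 2 x (a i)) h0
    rw [hf.add_left, hf.smul_left, haa, hE.orthogonal j i hij.symm _ (ha j) _ (ha i), mul_zero,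
      add_zero, hf.zero_left'] at this
    exact one_ne_zero this
  obtain ⟨l₀, hl₀, -⟩ := hsame ⟨0, by omega⟩ ⟨1, by omega⟩ (by simp)
  have hall : ∀ i, a i ∈ D l₀ := by
    intro i
    by_cases hi : i = ⟨0, by omega⟩
    · rw [hi]; exact hl₀
    obtain ⟨l, h1, h1'⟩ := hsame ⟨0, by omega⟩ i (Ne.symm hi)
    rcases eq_or_ne l l₀ with rfl | hne
    · exact h1'
    · have := C.of_mem_ne hne h1
      rw [C.of_mem hl₀] at this
      exact absurd this (ha0 _)
  have htop : (⊤ : Submodule F (Fin n → F)) ≤ D l₀ := by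
    rw [← hE.decomp.iSup_eq_top]
    refine iSup_le fun i x hx => ?_
    obtain ⟨c, rfl⟩ := hline i x hx
    exact (D l₀).smul_mem _ (hall i)
  have := Submodule.finrank_mono htop
  rw [finrank_top, Module.finrank_fintype_fun_eq_card, Fintype.card_fin, hD.decomp.finrank_eq] at this
  omega

/-- The stabiliser of a tensor decomposition `2 ⊗ n₂` over four elements is not maximal. -/
theorem unitary_tensor_not_maximal {n n₂ : ℕ} (hn : 13 ≤ n) (hc : Fintype.card F = 4)
    (e : Fin n ≃ Fin 2 × Fin n₂) (P : GL (Fin n) F)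
    {f₁ : (Fin 2 → F) → (Fin 2 → F) → F} {f₂ : (Fin n₂ → F) → (Fin n₂ → F) → F}
    (hf₁ : IsUnitaryFormPow 2 f₁) (hf₂ : IsUnitaryFormPow 2 f₂)
    (hT : IsTensorFormStructure (fun x : F => x ^ 2) (Cfsg.hermForm n F 2) f₁ f₂ e P) :
    ∃ K : Subgroup (GL (Fin n) F), tensorProductSubgroup 2 n₂ e P ⊓ suGL n F 2 < K ∧ K < suGL n F 2 := by
  classical
  have hF : Classical.U.SqField F 2 := Classical.U.sqField_of_fintype (by rw [hc]; norm_num)
  have hn2 : n = 2 * n₂ := by simpa using Fintype.card_congr e
  obtain ⟨D, hD, hle⟩ := tensor_le_decomposition_of_four hF (by omega) e P hf₁ hf₂ hT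
  refine exists_between (X := decompositionStabilizer D) ((inf_le_inf_left _ inf_le_left).trans hle) ?_
    (suGL_not_le_decompositionStabilizer hF hD.decomp (by omega))
  obtain ⟨v, hv, hv0, hvv⟩ := exists_isotropic_mem hF hD (by omega) 0
  refine ⟨uTau hvv (1 : F), transvec_mem_decomp hD.decomp (uTau_isTransvec hvv 1) hv fun j hj x hx => ?_,
    uTau_mem hF hvv (by rw [one_pow]; linear_combination two_eq_zero_of_sqField hF),
    transvec_not_mem_tensorProductSubgroup le_rfl (by omega) e P (uTau_isTransvec hvv 1)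
      (uTau_ne_one hF hvv hv0 one_ne_zero)⟩
  rw [LinearMap.smul_apply, hermDual_apply, hD.orthogonal j 0 hj x hx v hv, smul_zero]

/-- The stabiliser of a tensor decomposition `Sp ⊗ O₃` over three elements is not maximal. -/
theorem symp_tensor_not_maximal {m n₁ : ℕ} (hm : 7 ≤ m) (hc : Fintype.card F = 3)
    (e : (Fin m ⊕ Fin m) ≃ Fin n₁ × Fin 3) (P : GL (Fin m ⊕ Fin m) F)
    {f₁ : (Fin n₁ → F) → (Fin n₁ → F) → F} {f₂ : (Fin 3 → F) → (Fin 3 → F) → F}
    (hf₁ : IsSymplecticForm f₁) (hf₂ : IsSymmetricForm f₂)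
    (hT : IsTensorFormStructure id (Cfsg.sympForm m F) f₁ f₂ e P) :
    ∃ K : Subgroup (GL (Fin m ⊕ Fin m) F),
      tensorProductSubgroup n₁ 3 e P ⊓ Cfsg.spGL m F < K ∧ K < Cfsg.spGL m F := by
  classical
  have hn1 : m + m = n₁ * 3 := by simpa using Fintype.card_congr e
  obtain ⟨D, hD, hle⟩ := MaxSub.tensor_le_decomposition_three (by omega) hc e P hf₁ hf₂ hT
  refine exists_between (X := decompositionStabilizer D) hle ?_
    (spGL_not_le_decompositionStabilizer hD.decomp (by omega))
  obtain ⟨v, hv, hv0⟩ := (Submodule.ne_bot_iff _).1 (show D 0 ≠ ⊥ from fun e' => by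
    have := hD.decomp.finrank_eq 0
    rw [e', finrank_bot] at this; omega)
  refine ⟨spTau v 1, transvec_mem_decomp hD.decomp (spTau_isTransvec v 1) hv fun j hj x hx => ?_,
    spTau_mem v 1, transvec_not_mem_tensorProductSubgroup (by omega) (by norm_num) e P
      (spTau_isTransvec v 1) (spTau_ne_one hv0 one_ne_zero)⟩
  rw [LinearMap.smul_apply, sympDual_apply, hD.orthogonal j 0 hj x hx v hv, smul_zero]

end Cfsg.Agent.NotMax
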