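import Cfsg.Agent.NotMax.Basic
import Cfsg.Agent.MaxSub.Proper
import Cfsg.Agent.MaxSub.FieldSub
import Cfsg.Agent.GeoClasses.Tensor

/-!
Over the field with two elements the stabiliser of a tensor decomposition `2 ⊗ n` lies in the
normaliser of the field with four elements acting on the first factor.
-/

set_option autoImplicit false
set_option linter.style.haveILetI false

namespace Cfsg.Agent.NotMax

open Matrix Cfsg.Geo Module Cfsg.Agent.GeoClasses
open scoped MatrixGroups Matrix Kronecker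

variable {ι : Type} [Fintype ι] [DecidableEq ι] {F : Type*} [Field F]

/-- An element of order three of `GL_2(2)`. -/
def omegaMat (F : Type*) [Field F] : Matrix (Fin 2) (Fin 2) F := !![0, 1; 1, 1]

variable {n₁ n₂ : ℕ}

/-- The coordinates of a tensor decomposition, as an isomorphism of matrix algebras. -/
noncomputable def coordAlg (e : ι ≃ Fin n₁ × Fin n₂) (P : GL ι F) :
    Matrix (Fin n₁ × Fin n₂) (Fin n₁ × Fin n₂) F ≃ₐ[F] Matrix ι ι F :=
  (Matrix.reindexAlgEquiv F F e.symm).trans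
    { toFun := fun X => (P : Matrix ι ι F) * X * ((P⁻¹ : GL ι F) : Matrix ι ι F)
      invFun := fun X => ((P⁻¹ : GL ι F) : Matrix ι ι F) * X * (P : Matrix ι ι F)
      left_inv := fun X => by simp [mul_assoc]
      right_inv := fun X => by simp [mul_assoc]
      map_mul' := fun X Y => by simp [mul_assoc]
      map_add' := fun X Y => by simp [mul_add, add_mul]
      commutes' := fun r => by
        show (P : Matrix ι ι F) * algebraMap F _ r * _ = _
        rw [← Algebra.commutes, mul_assoc, Units.mul_inv, mul_one] }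

theorem coordAlg_apply (e : ι ≃ Fin n₁ × Fin n₂) (P : GL ι F)
    (X : Matrix (Fin n₁ × Fin n₂) (Fin n₁ × Fin n₂) F) :
    coordAlg e P X = (P : Matrix ι ι F) * Matrix.reindexAlgEquiv F F e.symm X * ((P⁻¹ : GL ι F) : Matrix ι ι F) :=
  rfl

theorem mem_tensor_iff {e : ι ≃ Fin n₁ × Fin n₂} {P g : GL ι F} :
    g ∈ tensorProductSubgroup n₁ n₂ e P ↔ ∃ (c : GL (Fin n₁) F) (d : GL (Fin n₂) F),
      (g : Matrix ι ι F) = coordAlg e P ((c : Matrix (Fin n₁) (Fin n₁) F) ⊗ₖ (d : Matrix (Fin n₂) (Fin n₂) F)) := by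
  constructor
  · rintro ⟨_, ⟨k, ⟨c, d, hk⟩, rfl⟩, rfl⟩
    exact ⟨c, d, by rw [coordAlg_apply, ← hk]; rfl⟩
  · rintro ⟨c, d, hg⟩
    refine ⟨glReindex e.symm (glKron c d), ⟨glKron c d, ⟨c, d, rfl⟩, rfl⟩, Units.ext ?_⟩
    rw [hg, coordAlg_apply]
    rfl

/-- The element `1 + ω ⊗ E₀₁`. -/
def mixedMat (F : Type*) [Field F] (n₂ : ℕ) (a c : Fin n₂) : Matrix (Fin 2 × Fin n₂) (Fin 2 × Fin n₂) F :=
  1 + omegaMat F ⊗ₖ Matrix.single a c 1

theorem mixedMat_ne_kron (h1 : (1 : F) ≠ 0) {a c : Fin n₂} (hac : a ≠ c) (x : Matrix (Fin 2) (Fin 2) F)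
    (y : Matrix (Fin n₂) (Fin n₂) F) : mixedMat F n₂ a c ≠ x ⊗ₖ y := by
  intro h
  have e1 := congrFun (congrFun h (0, a)) (0, a)
  have e2 := congrFun (congrFun h (1, a)) (1, a)
  have e3 := congrFun (congrFun h (0, a)) (0, c)
  have e4 := congrFun (congrFun h (1, a)) (1, c)
  simp [mixedMat, omegaMat, hac, hac.symm, Matrix.single_apply] at e1 e2 e3 e4
  rcases e3 with e | e
  · rw [e, zero_mul] at e1; exact h1 e1
  · rw [e, mul_zero] at e4; exact h1 e4

variable [Fintype F]

/-- The field subalgebra, its normalisation by the tensor stabiliser and a centralising element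
outside the stabiliser. -/
theorem exists_field_of_two (hn : 2 ≤ n₂) (hF : Fintype.card F = 2) (e : ι ≃ Fin 2 × Fin n₂) (P : GL ι F) :
    ∃ K : Subalgebra F (Matrix ι ι F), IsFieldSubalgebra 2 K ∧
      tensorProductSubgroup 2 n₂ e P ≤ subalgebraNormalizer K ∧
      (∀ k ∈ K, ∃ a b : F, k = a • (1 : Matrix ι ι F) + b • coordAlg e P (omegaMat F ⊗ₖ 1)) ∧
      coordAlg e P (omegaMat F ⊗ₖ 1) ∈ K ∧
      ∃ g : GL ι F, g ∈ subalgebraNormalizer K ∧ g ∉ tensorProductSubgroup 2 n₂ e P := by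
  classical
  have h01 := eq_zero_or_one_of_two (F := F) hF
  have h2 : (2 : F) = 0 := two_eq_zero_of_even_card (by rw [hF]; decide)
  have h11 : (1 : F) + 1 = 0 := by linear_combination h2
  let φ := coordAlg e P
  set Ω := φ (omegaMat F ⊗ₖ 1) with hΩdef
  have hω : omegaMat F * omegaMat F = omegaMat F + 1 := by
    ext i j
    fin_cases i <;> fin_cases j <;> simp [omegaMat, Matrix.mul_apply, h11]
  have hΩ : Ω * Ω = Ω + 1 := by
    rw [hΩdef, ← map_mul, ← Matrix.mul_kronecker_mul, one_mul, hω, Matrix.add_kronecker, map_add,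
      Matrix.one_kronecker_one, map_one]
  let S : Subalgebra F (Matrix ι ι F) :=
    { carrier := {X | ∃ a b : F, X = a • (1 : Matrix ι ι F) + b • Ω}
      mul_mem' := by
        rintro _ _ ⟨a, b, rfl⟩ ⟨c, d, rfl⟩
        refine ⟨a * c + b * d, a * d + b * c + b * d, ?_⟩
        simp only [add_mul, mul_add, smul_mul_smul_comm, one_mul, mul_one, hΩ, smul_add, add_smul]
        abel
      add_mem' := by
        rintro _ _ ⟨a, b, rfl⟩ ⟨c, d, rfl⟩
        exact ⟨a + c, b + d, by rw [add_smul, add_smul]; abel⟩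
      algebraMap_mem' := fun r => ⟨r, 0, by simp [Algebra.algebraMap_eq_smul_one]⟩ }
  have hΩS : Ω ∈ S := ⟨0, 1, by simp⟩
  have hinj : ∀ X Y : Matrix (Fin 2) (Fin 2) F, φ (X ⊗ₖ 1) = φ (Y ⊗ₖ 1) → X = Y := by
    intro X Y h
    ext i j
    have := congrFun (congrFun (φ.injective h) (i, ⟨0, by omega⟩)) (j, ⟨0, by omega⟩)
    simpa using this
  have hcomb : ∀ a b : F, a • (1 : Matrix ι ι F) + b • Ω =
      φ ((a • 1 + b • omegaMat F) ⊗ₖ 1) := by
    intro a b
    rw [Matrix.add_kronecker, Matrix.smul_kronecker, Matrix.smul_kronecker, map_add, map_smul, map_smul,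
      Matrix.one_kronecker_one, map_one]
  have huniq : ∀ a b : F, a • (1 : Matrix ι ι F) + b • Ω = 0 → a = 0 ∧ b = 0 := by
    intro a b h
    rw [hcomb, ← map_zero φ, ← Matrix.zero_kronecker (1 : Matrix (Fin n₂) (Fin n₂) F)] at h
    have h' := hinj _ _ h
    have e00 := congrFun (congrFun h' 0) 0
    have e01 := congrFun (congrFun h' 0) 1
    simp [omegaMat] at e00 e01
    exact ⟨e00, e01⟩
  refine ⟨S, ⟨?_, ?_, ?_⟩, ?_, fun k hk => hk, hΩS, ?_⟩
  · rintro _ ⟨a, b, rfl⟩ _ ⟨c, d, rfl⟩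
    simp only [add_mul, mul_add, smul_mul_smul_comm, one_mul, mul_one, mul_comm c, mul_comm d]
    abel
  · rintro _ ⟨a, b, rfl⟩ hne
    have hsum : Ω + Ω = 0 := by rw [← two_smul F Ω, h2, zero_smul]
    rcases h01 a with rfl | rfl <;> rcases h01 b with rfl | rfl
    · exact absurd (by simp) hne
    · refine ⟨Ω + 1, S.add_mem hΩS S.one_mem, ?_⟩
      simp [mul_add, hΩ]
      rw [show Ω + 1 + Ω = 1 + (Ω + Ω) by abel, hsum, add_zero]
    · exact ⟨1, S.one_mem, by simp⟩
    · refine ⟨Ω, hΩS, ?_⟩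
      simp [add_mul, hΩ]
      rw [← add_assoc, hsum, zero_add]
  · let v : Fin 2 → S := ![1, ⟨Ω, hΩS⟩]
    let bS : Basis (Fin 2) F S := Basis.mk (v := v)
      (by
        rw [LinearIndependent.pair_iff]
        intro a b h
        exact huniq a b (congrArg Subtype.val h))
      (by
        rintro ⟨X, hX⟩ -
        obtain ⟨a, b, rfl⟩ := hX
        rw [Submodule.mem_span_range_iff_exists_fun]
        exact ⟨![a, b], Subtype.ext (by simp [v, Fin.sum_univ_two])⟩)
    rw [Module.finrank_eq_card_basis bS, Fintype.card_fin]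
  · intro g hg
    have key : ∀ g ∈ tensorProductSubgroup 2 n₂ e P, ∀ k ∈ S,
        (g : Matrix ι ι F) * k * ((g⁻¹ : GL ι F) : Matrix ι ι F) ∈ S := by
      intro g hg
      obtain ⟨c, d, hcd⟩ := mem_tensor_iff.mp hg
      have hcase : (c : Matrix (Fin 2) (Fin 2) F) * omegaMat F = omegaMat F * c ∨
          (c : Matrix (Fin 2) (Fin 2) F) * omegaMat F = (omegaMat F + 1) * c := by
        have hdet : (c : Matrix (Fin 2) (Fin 2) F).det ≠ 0 := Matrix.GeneralLinearGroup.det_ne_zero c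
        rw [Matrix.eta_fin_two (c : Matrix (Fin 2) (Fin 2) F)] at hdet ⊢
        rcases h01 ((c : Matrix (Fin 2) (Fin 2) F) 0 0) with a | a <;>
          rcases h01 ((c : Matrix (Fin 2) (Fin 2) F) 0 1) with b | b <;>
          rcases h01 ((c : Matrix (Fin 2) (Fin 2) F) 1 0) with p | p <;>
          rcases h01 ((c : Matrix (Fin 2) (Fin 2) F) 1 1) with r | r <;>
          simp [a, b, p, r, omegaMat, Matrix.det_fin_two, h11, Matrix.one_fin_two, Matrix.mul_fin_two,
            ← Matrix.ext_iff, Fin.forall_fin_two] at hdet ⊢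
      have hgΩ : (g : Matrix ι ι F) * Ω * ((g⁻¹ : GL ι F) : Matrix ι ι F) ∈ S := by
        obtain ⟨s, hs, hswap⟩ : ∃ s ∈ S, (g : Matrix ι ι F) * Ω = s * g := by
          have hmul : ∀ X, (g : Matrix ι ι F) * φ (X ⊗ₖ 1) = φ (((c : Matrix (Fin 2) (Fin 2) F) * X) ⊗ₖ
              (d : Matrix (Fin n₂) (Fin n₂) F)) := fun X => by
            rw [hcd, ← map_mul, ← Matrix.mul_kronecker_mul, mul_one]
          have hmul' : ∀ X, φ (X ⊗ₖ 1) * (g : Matrix ι ι F) = φ ((X * (c : Matrix (Fin 2) (Fin 2) F)) ⊗ₖ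
              (d : Matrix (Fin n₂) (Fin n₂) F)) := fun X => by
            rw [hcd, ← map_mul, ← Matrix.mul_kronecker_mul, one_mul]
          rcases hcase with h | h
          · exact ⟨Ω, hΩS, by rw [hΩdef, hmul, hmul', h]⟩
          · refine ⟨Ω + 1, S.add_mem hΩS S.one_mem, ?_⟩
            rw [hΩdef, ← map_one φ, ← Matrix.one_kronecker_one, ← map_add, ← Matrix.add_kronecker, hmul,
              hmul', h]
        rw [hswap, mul_assoc, Units.mul_inv, mul_one]
        exact hs
      rintro _ ⟨a, b, rfl⟩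
      rw [mul_add, add_mul, Matrix.mul_smul, Matrix.mul_smul, Matrix.smul_mul, Matrix.smul_mul, mul_one,
        Units.mul_inv]
      exact S.add_mem (S.smul_mem S.one_mem a) (S.smul_mem hgΩ b)
    intro k
    refine ⟨key g hg k, fun hk => ?_⟩
    have := key g⁻¹ (Subgroup.inv_mem _ hg) _ hk
    simpa [mul_assoc] using this
  · set a : Fin n₂ := ⟨0, by omega⟩
    set c : Fin n₂ := ⟨1, by omega⟩
    have hac : a ≠ c := by simp [a, c, Fin.ext_iff]
    have hsq : mixedMat F n₂ a c * mixedMat F n₂ a c = 1 := by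
      have hNN : (omegaMat F ⊗ₖ Matrix.single a c (1 : F)) * (omegaMat F ⊗ₖ Matrix.single a c (1 : F)) = 0 := by
        rw [← Matrix.mul_kronecker_mul, Matrix.single_mul_single_of_ne (1 : F) a c a hac.symm,
          Matrix.kronecker_zero]
      rw [mixedMat, add_mul, mul_add, mul_add, hNN, one_mul, one_mul, mul_one, add_zero, add_assoc,
        ← two_smul F (omegaMat F ⊗ₖ Matrix.single a c (1 : F)), h2, zero_smul, add_zero]
    let g : GL ι F := ⟨φ (mixedMat F n₂ a c), φ (mixedMat F n₂ a c),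
      by rw [← map_mul, hsq, map_one], by rw [← map_mul, hsq, map_one]⟩
    refine ⟨g, fun k => ?_, fun hg => ?_⟩
    · have hc : ∀ k ∈ S, (g : Matrix ι ι F) * k * ((g⁻¹ : GL ι F) : Matrix ι ι F) = k := by
        rintro _ ⟨s, r, rfl⟩
        show φ (mixedMat F n₂ a c) * _ * φ (mixedMat F n₂ a c) = _
        rw [hcomb, ← map_mul, ← map_mul]
        have hcomm : mixedMat F n₂ a c * ((s • (1 : Matrix (Fin 2) (Fin 2) F) + r • omegaMat F) ⊗ₖ 1) =
            ((s • (1 : Matrix (Fin 2) (Fin 2) F) + r • omegaMat F) ⊗ₖ 1) * mixedMat F n₂ a c := by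
          rw [mixedMat, add_mul, mul_add, one_mul, mul_one, ← Matrix.mul_kronecker_mul,
            ← Matrix.mul_kronecker_mul, one_mul, mul_one, mul_add, add_mul]
          congr 2
          simp
        rw [hcomm, mul_assoc, hsq, mul_one]
      refine ⟨fun hk => by rw [hc k hk]; exact hk, fun hk => ?_⟩
      have h' := hc _ hk
      have : k = (g : Matrix ι ι F) * k * ((g⁻¹ : GL ι F) : Matrix ι ι F) := by
        have h'' := congrArg (fun X => ((g⁻¹ : GL ι F) : Matrix ι ι F) * X * (g : Matrix ι ι F)) h'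
        simp only [mul_assoc, Units.inv_mul_cancel_left, Units.inv_mul, mul_one] at h''
        rw [mul_assoc]
        exact h''.symm
      rw [this]; exact hk
    · obtain ⟨x, y, hxy⟩ := mem_tensor_iff.mp hg
      exact mixedMat_ne_kron one_ne_zero hac _ _ (φ.injective hxy)

/-- The linear case. -/
theorem tensor_two (hn : 2 ≤ n₂) (hF : Fintype.card F = 2) (e : ι ≃ Fin 2 × Fin n₂) (P : GL ι F) :
    ∃ K : Subgroup (GL ι F), tensorProductSubgroup 2 n₂ e P ⊓ specialLinear ι F < K ∧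
      K < specialLinear ι F := by
  obtain ⟨K, hK, hle, -, -, g, hgK, hgT⟩ := exists_field_of_two hn hF e P
  have h01 := eq_zero_or_one_of_two (F := F) hF
  haveI : Nonempty ι := ⟨e.symm (0, ⟨0, by omega⟩)⟩
  refine exists_between (inf_le_left.trans hle) ⟨g, hgK, ?_, hgT⟩
    (MaxSub.not_specialLinear_le_normalizer (r := 2) (by norm_num)
      (by rw [Fintype.card_congr e, Fintype.card_prod, Fintype.card_fin, Fintype.card_fin]; omega) hK)
  rw [mem_specialLinear_iff]
  exact (h01 _).resolve_left (Matrix.GeneralLinearGroup.det_ne_zero g)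

end Cfsg.Agent.NotMax
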